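import Mathlib
import Cfsg.Prelude.Def_Blocks
import Cfsg.Agent.Lib.Helper6.KleinBlock
import Cfsg.Agent.Lib.Helper6.NormalIdem
import Cfsg.Agent.Lib.Helper6.PPart
import Cfsg.Agent.S0942

/-!
# Values of the principal `2`-block on `2`-singular elements, Klein four Sylow subgroups
-/

set_option autoImplicit false

namespace Cfsg.Agent.Lib.Helper6

open Cfsg Cfsg.Agent.Lib.Helper2
open scoped ComplexConjugate Classical

theorem klein_value_singular {G : Type*} [Group G] [Finite G] {M : Ideal AlgInt}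
    (hM : IsPModular 2 M) (P : Sylow 2 G) (hP : IsKleinFour (P : Subgroup G))
    {χ : IrrCharacter G} (hχ : χ ∈ principalBlock M G) {x : G} (hx : 2 ∣ orderOf x) :
    ∃ u : G, orderOf u = 2 ∧ (χ : G → ℂ) x = (χ : G → ℂ) u := by
  have hp : (2 : ℕ).Prime := Nat.prime_two
  obtain ⟨u, v, rfl, hcomm, ⟨k, hk⟩, hv⟩ := exists_isPPart hp x
  have hu1 : u ≠ 1 := by
    rintro rfl
    rw [one_mul] at hx
    exact hv hx
  have hz : IsPGroup 2 (Subgroup.zpowers u) := by
    apply IsPGroup.of_card (n := k)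
    rw [Nat.card_zpowers, hk]
  obtain ⟨P', hP'⟩ := hz.exists_le_sylow
  have hK' : IsKleinFour (P' : Subgroup G) := isKleinFour_of_mulEquiv (P.equiv P') hP
  have huP : u ∈ P' := hP' (Subgroup.mem_zpowers u)
  obtain ⟨-, ⟨j, hj⟩, -⟩ := klein_cen_index P' hK' huP hu1
  refine ⟨u, klein_orderOf P' hK' huP hu1, ?_⟩
  apply Cfsg.Agent.S0942.result 2 M hM u ⟨k, hk⟩ v _ χ hχ
  have hvmem : v ∈ cen u := Subgroup.mem_centralizer_singleton_iff.mpr hcomm.eq.symm
  refine ⟨⟨v, hvmem⟩, ?_, rfl⟩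
  let _ := Fintype.ofFinite (cen u)
  have := Cfsg.Agent.Lib.Helper23.pPrimeCore_normal 2 (cen u)
  apply mem_of_index_pow hp _ hj
  rw [← Subgroup.orderOf_coe]
  exact hv

end Cfsg.Agent.Lib.Helper6
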