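import Mathlib
import Cfsg.Prelude.Def_Blocks
import Cfsg.Agent.Lib.Helper6.Subsection3
import Cfsg.Agent.Lib.Helper23.Contrib3
import Cfsg.Agent.Lib.Helper24.PairStab
import Cfsg.Agent.Lib.Helper24.PCBlock

/-!
# Major subsections I: transport under conjugation, orthogonality of subsections
-/

set_option autoImplicit false
set_option linter.unusedSectionVars false

namespace Cfsg.Agent.Lib.Helper6

open Cfsg Cfsg.Agent.Lib.Helper2 Cfsg.Agent.Lib.Helper24 Cfsg.Agent.Lib.Helper23.Contrib
open scoped ComplexConjugate Classical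

attribute [local instance] irrFintype

section transport

variable {K K' : Type*} [Group K] [Fintype K] [Group K'] [Fintype K'] {p : ℕ}

theorem classInner_comp_equiv (α : K' ≃* K) (φ ψ : K → ℂ) :
    classInner (φ ∘ α) (ψ ∘ α) = classInner φ ψ := by
  rw [classInner, classInner, Nat.card_congr α.toEquiv]
  congr 1
  exact Fintype.sum_equiv α.toEquiv _ _ fun _ => rfl

theorem bPart_comp_equiv (α : K' ≃* K) (f : Set (IrrCharacter K)) (φ : K → ℂ) :
    bPart (blockMap α f) (φ ∘ α) = (bPart f φ) ∘ α := by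
  ext c
  simp only [bPart, Finset.sum_apply, Pi.smul_apply, smul_eq_mul, Function.comp_apply]
  symm
  refine Fintype.sum_equiv (irrMap α) _ _ fun ξ => ?_
  rw [irrMap_coe, classInner_comp_equiv]
  by_cases hξ : ξ ∈ f
  · rw [Set.indicator_of_mem hξ, Set.indicator_of_mem ((mem_blockMap α f ξ).mpr hξ)]
    rfl
  · rw [Set.indicator_of_notMem hξ,
      Set.indicator_of_notMem (fun h => hξ ((mem_blockMap α f ξ).mp h))]
    simp

theorem regPart_comp_equiv (α : K' ≃* K) (F : K → ℂ) :
    regPart p (F ∘ α) = (regPart p F) ∘ α := by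
  ext c
  simp only [regPart_apply, Function.comp_apply]
  rw [α.orderOf_eq]

end transport

section cnj

variable {G : Type*} [Group G] [Fintype G] {p : ℕ} {M : Ideal AlgInt}

theorem extendByZero_conjIso {g : G} {K K' : Subgroup G} (h : IsConjSub g K K') (Φ : K → ℂ)
    (y : G) : extendByZero K' (Φ ∘ conjIso h) y = extendByZero K Φ (g⁻¹ * y * g) := by
  by_cases hy : y ∈ K'
  · rw [extendByZero_mem K' _ hy, extendByZero_mem K _ ((h y).mp hy)]
    rfl
  · rw [extendByZero_not_mem K' _ hy, extendByZero_not_mem K _ (fun h' => hy ((h y).mpr h'))]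

theorem tw_conjIso {g : G} {K K' : Subgroup G} (h : IsConjSub g K K') {x : K} {x' : K'}
    (hx : conjIso h x' = x) {χ : G → ℂ} (hχ : IsClassFunction G χ) :
    tw x' χ = (tw x χ) ∘ conjIso h := by
  ext c
  rw [Function.comp_apply, tw_apply, tw_apply, ← hx, conjIso_coe, conjIso_coe]
  have e : g⁻¹ * (x' : G) * g * (g⁻¹ * (c : G) * g) = g⁻¹ * ((x' : G) * (c : G)) * g⁻¹⁻¹ := by
    group
  rw [e, hχ]

theorem lift_conjIso {g : G} {K K' : Subgroup G} (h : IsConjSub g K K') {x : K} {x' : K'}
    (hx : conjIso h x' = x) (F : K → ℂ) :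
    lift x' (F ∘ conjIso h) = lift x F := by
  ext y
  rw [lift, lift, indFun, indFun, h.card_eq]
  congr 1
  have e : (fun c : K' => (F ∘ conjIso h) (x'⁻¹ * c)) = (fun c : K => F (x⁻¹ * c)) ∘ conjIso h := by
    ext c
    simp only [Function.comp_apply, map_mul, map_inv, hx]
  rw [e]
  refine Fintype.sum_equiv (Equiv.mulRight g) _ _ fun t => ?_
  rw [extendByZero_conjIso, Equiv.coe_mulRight]
  congr 1
  group

theorem fpart_conjIso {g : G} {K K' : Subgroup G} (h : IsConjSub g K K') {x : K} {x' : K'}
    (hx : conjIso h x' = x) (f : Set (IrrCharacter K)) {χ : G → ℂ} (hχ : IsClassFunction G χ) :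
    fpart p (conjSet h f) x' χ = (fpart p f x χ) ∘ conjIso h := by
  rw [fpart, fpart, tw_conjIso h hx hχ, conjSet, bPart_comp_equiv, regPart_comp_equiv]

/-- the class function of `G` attached to a subsection -/
noncomputable def secFun (p : ℕ) {K : Subgroup G} (f : Set (IrrCharacter K)) (x : K) (χ : G → ℂ) :
    G → ℂ := lift x (fpart p f x χ)

theorem secFun_conj {g : G} {K K' : Subgroup G} (h : IsConjSub g K K') {x : K} {x' : K'}
    (hx : conjIso h x' = x) (f : Set (IrrCharacter K)) {χ : G → ℂ} (hχ : IsClassFunction G χ) :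
    secFun p (conjSet h f) x' χ = secFun p f x χ := by
  rw [secFun, secFun, fpart_conjIso h hx f hχ, lift_conjIso h hx]

/-- different blocks give orthogonal pieces -/
theorem classInner_fpart_of_ne (hM : IsPModular p M) {K : Subgroup G} (x : K)
    {f f' : Set (IrrCharacter K)} (hf : IsPBlock M f) (hf' : IsPBlock M f') (hne : f ≠ f')
    (χ ψ : G → ℂ) : classInner (fpart p f x χ) (fpart p f' x ψ) = 0 := by
  have := IsPModular.isPrime hM
  rw [fpart_eq_sum, fpart_eq_sum, classInner_sum_left]
  refine Finset.sum_eq_zero fun ξ _ => ?_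
  rw [classInner_smul_left]
  by_cases hξ : ξ ∈ f
  · rw [classInner_sum_right, Finset.sum_eq_zero, mul_zero]
    intro ξ' _
    rw [classInner_smul_right, classInner_regPart_regPart]
    by_cases hξ' : ξ' ∈ f'
    · have h1 : ξ' ∉ f := fun h => hne (IsPBlock.eq_of_mem_of_mem hf hf' h hξ')
      rw [classInner_regPart_eq_zero hM hf hξ h1, mul_zero]
    · rw [cf, Set.indicator_of_notMem hξ']
      simp
  · rw [cf, Set.indicator_of_notMem hξ]
    simp

theorem isClassFunction_secFun {K : Subgroup G} (f : Set (IrrCharacter K)) (x : K) (χ : G → ℂ) :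
    IsClassFunction G (secFun p f x χ) := isClassFunction_lift _ _

/-- Two subsection functions are orthogonal or equal; in the latter case the subsections are
conjugate. -/
theorem secFun_orth_or_eq (hM : IsPModular p M) {Q Q' : Subgroup G} {x : cz Q} {x' : cz Q'}
    (hx : IsCenOf p x) (hx' : IsCenOf p x') (hQ : Subgroup.zpowers (x : G) = Q)
    (hQ' : Subgroup.zpowers (x' : G) = Q') {f : Set (IrrCharacter (cz Q))}
    {f' : Set (IrrCharacter (cz Q'))} (hf : IsPBlock M f) (hf' : IsPBlock M f') {χ : G → ℂ}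
    (hχ : IsClassFunction G χ) :
    classInner (secFun p f x χ) (secFun p f' x' χ) = 0 ∨
      (secFun p f x χ = secFun p f' x' χ ∧ ∃ g : G, g * (x : G) * g⁻¹ = (x' : G) ∧
        cjIdx g ⟨Q, f⟩ = (⟨Q', f'⟩ : BrauerPairIdx G)) := by
  have hp : p.Prime := hM.1
  by_cases hc : IsConj (x : G) (x' : G)
  · obtain ⟨g, hg⟩ := isConj_iff.mp hc
    have hcs : IsConjSub g Q Q' := by
      intro y
      rw [← hQ, ← hQ', ← hg, Subgroup.mem_zpowers_iff, Subgroup.mem_zpowers_iff]
      constructor
      · rintro ⟨k, rfl⟩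
        exact ⟨k, by rw [conj_zpow]; group⟩
      · rintro ⟨k, hk⟩
        refine ⟨k, ?_⟩
        rw [conj_zpow, hk]
        group
    have h := hcs.centralizer
    have hxx : conjIso h x' = x := by
      apply Subtype.ext
      rw [conjIso_coe, ← hg]
      group
    have h1 := secFun_conj (p := p) h hxx f hχ
    by_cases hff : conjSet h f = f'
    · right
      refine ⟨by rw [← h1, hff], g, hg, ?_⟩
      apply cjIdx_eq hcs
      rw [← hff, sbc_conjSet]
    · left
      rw [← h1, secFun, secFun, classInner_lift_lift hp hx' (fpart_of_dvd _ _ _)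
        (isClassFunction_fpart hx' _ _) (fpart_of_dvd _ _ _)]
      exact classInner_fpart_of_ne hM x' (isPBlock_conjSet h hf) hf' hff χ χ
  · left
    rw [classInner, Finset.sum_eq_zero, mul_zero]
    intro y _
    obtain ⟨u, hu⟩ := exists_isPPart hp y
    by_cases hux : IsConj u (x : G)
    · have hux' : ¬ IsConj u (x' : G) := fun h => hc (hux.symm.trans h)
      rw [secFun, secFun, lift_eq_zero hp hx' (fpart_of_dvd _ _ _) hu hux', map_zero, mul_zero]
    · rw [secFun, lift_eq_zero hp hx (fpart_of_dvd _ _ _) hu hux, zero_mul]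

end cnj

end Cfsg.Agent.Lib.Helper6
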