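import Mathlib
import Cfsg.Prelude.Def_Blocks
import Cfsg.Agent.Lib.Helper6.MajorSub1

/-!
# Major subsections II: integrality and nonvanishing of the contributions
-/

set_option autoImplicit false
set_option linter.unusedSectionVars false

namespace Cfsg.Agent.Lib.Helper6

open Cfsg Cfsg.Agent.Lib.Helper2 Cfsg.Agent.Lib.Helper24 Cfsg.Agent.Lib.Helper23.Contrib
open Cfsg.Agent.Lib.Helper23.BrauerFeit Cfsg.Agent.Lib.Helper23.RegInner
open Cfsg.Agent.Lib.Helper23.RealBlock
open scoped ComplexConjugate Classical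

attribute [local instance] irrFintype

variable {G : Type*} [Group G] [Fintype G] {H : Subgroup G} {p : ℕ}
  {M : Ideal AlgInt}

theorem isIntegral_fpart {x : H} (hx : IsCenOf p x) (f : Set (IrrCharacter H))
    (χ : IrrCharacter G) (c : H) : IsIntegral ℤ (fpart p f x (χ : G → ℂ) c) := by
  rw [fpart, regPart_apply]
  split_ifs
  · exact isIntegral_zero
  · simp only [bPart, Finset.sum_apply, Pi.smul_apply, smul_eq_mul]
    refine IsIntegral.sum _ fun ξ _ => ?_
    rw [classInner_tw hx]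
    refine IsIntegral.mul (IsIntegral.mul ?_ (IsIntegral.mul (isIntegral_natCast _)
      (centralChar_isIntegral ξ.2 _))) (irr_isIntegral ξ.2 c)
    by_cases hξ : ξ ∈ f
    · rw [Set.indicator_of_mem hξ]
      exact isIntegral_one
    · rw [Set.indicator_of_notMem hξ]
      exact isIntegral_zero

/-- a lifted function only takes the values of the original function, or zero -/
theorem lift_eq_zero_or (hp : p.Prime) {x : H} (hx : IsCenOf p x) {F : H → ℂ}
    (hF : IsClassFunction H F) (hF0 : ∀ c, p ∣ orderOf c → F c = 0) (g : G) :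
    lift x F g = 0 ∨ ∃ c : H, lift x F g = F c := by
  obtain ⟨z, hz⟩ := exists_isPPart hp g
  by_cases hc : IsConj z (x : G)
  · right
    obtain ⟨r, hr⟩ := isConj_iff.mp hc
    obtain ⟨y, hzy, hcomm, -, hy⟩ := hz
    have hcm : r * y * r⁻¹ ∈ H := by
      apply hx.le
      rw [Subgroup.mem_centralizer_singleton_iff, ← hr]
      calc r * y * r⁻¹ * (r * z * r⁻¹) = r * (y * z) * r⁻¹ := by group
        _ = r * (z * y) * r⁻¹ := by rw [hcomm.eq]
        _ = r * z * r⁻¹ * (r * y * r⁻¹) := by group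
    set c : H := ⟨r * y * r⁻¹, hcm⟩ with hcdef
    have hco : ¬ p ∣ orderOf c := by
      rw [← Subgroup.orderOf_coe]
      show ¬ p ∣ orderOf (r * y * r⁻¹)
      rw [orderOf_conj_eq]
      exact hy
    have hg : r * g * r⁻¹ = (x : G) * (c : G) := by
      rw [← hr, ← hzy]
      show r * (z * y) * r⁻¹ = r * z * r⁻¹ * (r * y * r⁻¹)
      group
    refine ⟨c, ?_⟩
    rw [← isClassFunction_lift x _ g r, hg, lift_apply hp hx hF hF0 hco]
  · left
    exact lift_eq_zero hp hx hF0 hz hc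

theorem isIntegral_secFun (hp : p.Prime) {x : H} (hx : IsCenOf p x) (f : Set (IrrCharacter H))
    (χ : IrrCharacter G) (g : G) : IsIntegral ℤ (secFun p f x (χ : G → ℂ) g) := by
  rcases lift_eq_zero_or hp hx (isClassFunction_fpart hx f (χ : G → ℂ))
    (fpart_of_dvd f x (χ : G → ℂ)) g with h | ⟨c, h⟩
  · rw [secFun, h]
    exact isIntegral_zero
  · rw [secFun, h]
    exact isIntegral_fpart hx f χ c

/-- the contribution in terms of a central character of `G` -/
theorem card_mul_mc (hM : IsPModular p M) {x : H} (hx : IsCenOf p x)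
    {f : Set (IrrCharacter H)} (hf : IsPBlock M f) (χ ψ : IrrCharacter G) :
    (Nat.card G : ℂ) * mc p f x (χ : G → ℂ) (ψ : G → ℂ) =
      (ψ : G → ℂ) 1 * om (conjI ψ : G → ℂ) (secFun p f x (χ : G → ℂ)) := by
  rw [← classInner_fpart_tw hM hx hf (χ : G → ℂ) (irr_isClassFunction ψ.2),
    ← classInner_lift x _ (irr_isClassFunction ψ.2), classInner, om, conjI_one]
  have h1 := irr_one_ne_zero ψ.2
  have h2 : (Nat.card G : ℂ) ≠ 0 := card_ne_zero_complex
  rw [mul_inv_cancel_left₀ h2, mul_div_cancel₀ _ h1]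
  rfl

theorem mc_self_eq (f : Set (IrrCharacter H)) (x : H) (χ : G → ℂ) :
    mc p f x χ χ = (((Nat.card H : ℝ)⁻¹ * ∑ c : H, ‖fpart p f x χ c‖ ^ 2 : ℝ) : ℂ) := by
  rw [mc, classInner]
  push_cast
  congr 1
  refine Finset.sum_congr rfl fun c _ => ?_
  rw [Complex.mul_conj, Complex.normSq_eq_norm_sq]
  push_cast
  rfl

theorem mc_self_nonneg (f : Set (IrrCharacter H)) (x : H) (χ : G → ℂ) :
    0 ≤ (Nat.card H : ℝ)⁻¹ * ∑ c : H, ‖fpart p f x χ c‖ ^ 2 := by positivity

theorem fpart_eq_zero_of_mc_self (f : Set (IrrCharacter H)) (x : H) (χ : G → ℂ)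
    (h : mc p f x χ χ = 0) : fpart p f x χ = 0 := by
  rw [mc_self_eq] at h
  have h1 : (Nat.card H : ℝ)⁻¹ * ∑ c : H, ‖fpart p f x χ c‖ ^ 2 = 0 := by exact_mod_cast h
  have h2 : (Nat.card H : ℝ)⁻¹ ≠ 0 := by
    have : (0 : ℝ) < Nat.card H := by exact_mod_cast Nat.card_pos
    positivity
  have h3 := (mul_eq_zero.mp h1).resolve_left h2
  ext c
  have h4 := (Finset.sum_eq_zero_iff_of_nonneg (fun c _ => by positivity)).mp h3 c
    (Finset.mem_univ c)
  simpa using h4

theorem centralChar_pow_card {x : H} (hx : IsCenOf p x) {k : ℕ} (hk : orderOf (x : G) = p ^ k)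
    (ξ : IrrCharacter H) : centralChar (ξ : H → ℂ) x ^ (p ^ k) = 1 := by
  have h1 := centralChar_pow_of_central ξ.2 (mem_center hx) (p ^ k)
  have h2 : x ^ (p ^ k) = 1 := by
    apply Subtype.ext
    rw [Subgroup.coe_pow, ← hk, pow_orderOf_eq_one]; rfl
  rw [h2] at h1
  have h0 := irr_one_ne_zero ξ.2
  have : centralChar (ξ : H → ℂ) x ^ (p ^ k) * (ξ : H → ℂ) 1 = 1 * (ξ : H → ℂ) 1 := by
    rw [← h1, one_mul]
  exact mul_right_cancel₀ h0 this

/-- `p^q m(χ₀, χ₀)` is a local unit for `χ₀` of height zero -/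
theorem pow_mul_mc_unit [Fact p.Prime] (hM : IsPModular p M) {x : H} (hx : IsCenOf p x)
    {f : Set (IrrCharacter H)} {B : Set (IrrCharacter G)} (hind : IsInducedBlock M H f B)
    {χ ψ : IrrCharacter G} (hχ : χ ∈ B) (h0 : blockHeight p B (χ : G → ℂ) = 0)
    (hψ : ψ ∈ B) (h0' : blockHeight p B (ψ : G → ℂ) = 0) :
    MemLocalRing M ((p : ℂ) ^ blockDefect p f * mc p f x (χ : G → ℂ) (ψ : G → ℂ)) ∧
    ¬ MemLocalIdeal M ((p : ℂ) ^ blockDefect p f * mc p f x (χ : G → ℂ) (ψ : G → ℂ)) := by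
  obtain ⟨k, hk⟩ := hx.pow
  rw [pow_mul_mc hx]
  apply EE_unit hM hind _ _ hχ h0 hψ h0'
  · intro ξ
    exact sub_one_memLocalIdeal_of_pow_eq_one hM (centralChar_pow_card hx hk ξ)
  · intro ξ
    apply sub_one_memLocalIdeal_of_pow_eq_one hM (k := k)
    rw [← map_pow, centralChar_pow_card hx hk ξ, map_one]

theorem factorization_degree_add [Fact p.Prime] {B : Set (IrrCharacter G)} {χ : IrrCharacter G}
    (hχ : χ ∈ B) : (charDegree (χ : G → ℂ)).factorization p + blockDefect p B =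
      (Nat.card G).factorization p + blockHeight p B (χ : G → ℂ) := by
  rw [height_eq, defect_eq]
  have h1 := smin_le p hχ
  have h2 := factorization_le p χ
  omega

/-- **Brauer.** The contributions `m(χ, χ)` of a major subsection do not vanish on `B`. -/
theorem mc_self_ne_zero [Fact p.Prime] (hM : IsPModular p M) {x : H} (hx : IsCenOf p x)
    {f : Set (IrrCharacter H)} {B : Set (IrrCharacter G)} (hind : IsInducedBlock M H f B)
    (hq : blockDefect p f = blockDefect p B) {χ : IrrCharacter G} (hχ : χ ∈ B) :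
    mc p f x (χ : G → ℂ) (χ : G → ℂ) ≠ 0 := by
  have := IsPModular.isPrime hM
  have hp : p.Prime := hM.1
  intro hzero
  obtain ⟨χ₀, hχ₀, h0⟩ := Cfsg.Agent.Lib.Helper23.BrauerFeit.exists_height_zero p (IsPBlock.nonempty hind.2.1)
  have hF := fpart_eq_zero_of_mc_self f x (χ : G → ℂ) hzero
  have h1 : mc p f x (χ₀ : G → ℂ) (χ : G → ℂ) = 0 := by
    rw [mc, hF, classInner_zero_right]
  have h2 := card_mul_mc hM hx hind.1 χ₀ χ
  rw [h1, mul_zero] at h2
  have h3 : om (conjI χ : G → ℂ) (secFun p f x (χ₀ : G → ℂ)) = 0 :=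
    (mul_eq_zero.mp h2.symm).resolve_left (irr_one_ne_zero χ.2)
  have h4 := om_sub_memLocalIdeal (M := M) (conjI χ₀).2 (conjI χ).2
    (sameBlock_conjI (IsPBlock.sameBlock hind.2.1 hχ₀ hχ))
    (isClassFunction_secFun (p := p) f x (χ₀ : G → ℂ))
    (fun g => memLocalRing_of_isIntegral (isIntegral_secFun hp hx f χ₀ g))
  rw [h3, sub_zero] at h4
  obtain ⟨hu1, hu2⟩ := pow_mul_mc_unit hM hx hind hχ₀ h0 hχ₀ h0
  apply hu2
  have h5 := card_mul_mc hM hx hind.1 χ₀ χ₀
  have hG0 : (Nat.card G : ℂ) ≠ 0 := card_ne_zero_complex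
  have hd0 : charDegree (χ₀ : G → ℂ) ≠ 0 := (charDegree_pos χ₀.2).ne'
  have e : (p : ℂ) ^ blockDefect p f * mc p f x (χ₀ : G → ℂ) (χ₀ : G → ℂ) =
      (((p ^ blockDefect p f * charDegree (χ₀ : G → ℂ) : ℕ) : ℂ) / ((Nat.card G : ℕ) : ℂ)) *
        om (conjI χ₀ : G → ℂ) (secFun p f x (χ₀ : G → ℂ)) := by
    have h6 : mc p f x (χ₀ : G → ℂ) (χ₀ : G → ℂ) = (χ₀ : G → ℂ) 1 *
        om (conjI χ₀ : G → ℂ) (secFun p f x (χ₀ : G → ℂ)) / (Nat.card G : ℂ) := by
      rw [← h5]
      field_simp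
    push_cast
    rw [charDegree_cast (IsIrrCharacter.isCharacter χ₀.2), h6]
    field_simp
  rw [e]
  refine MemLocalIdeal.mul_left (memLocalRing_natCast_div hM
    (mul_ne_zero (pow_ne_zero _ hp.ne_zero) hd0) Nat.card_pos.ne' ?_) h4
  rw [Nat.factorization_mul (pow_ne_zero _ hp.ne_zero) hd0, Finsupp.add_apply,
    Nat.Prime.factorization_pow hp, Finsupp.single_eq_same, hq]
  have := factorization_degree_add (p := p) hχ₀
  omega

/-- `p^d m(χ, χ) / p^h` is a local integer. -/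
theorem pow_mul_mc_div_memLocalRing [Fact p.Prime] (hM : IsPModular p M) {x : H}
    (hx : IsCenOf p x) {f : Set (IrrCharacter H)} {B : Set (IrrCharacter G)}
    (hind : IsInducedBlock M H f B) (hq : blockDefect p f = blockDefect p B)
    {χ : IrrCharacter G} (hχ : χ ∈ B) :
    MemLocalRing M ((p : ℂ) ^ blockDefect p f * mc p f x (χ : G → ℂ) (χ : G → ℂ) /
      (p : ℂ) ^ blockHeight p B (χ : G → ℂ)) := by
  have := IsPModular.isPrime hM
  have hp : p.Prime := hM.1
  have h5 := card_mul_mc hM hx hind.1 χ χ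
  have hG0 : (Nat.card G : ℂ) ≠ 0 := card_ne_zero_complex
  have hp0 : (p : ℂ) ≠ 0 := by exact_mod_cast hp.ne_zero
  have hd0 : charDegree (χ : G → ℂ) ≠ 0 := (charDegree_pos χ.2).ne'
  have e : (p : ℂ) ^ blockDefect p f * mc p f x (χ : G → ℂ) (χ : G → ℂ) /
      (p : ℂ) ^ blockHeight p B (χ : G → ℂ) =
      (((p ^ blockDefect p f * charDegree (χ : G → ℂ) : ℕ) : ℂ) /
        ((p ^ blockHeight p B (χ : G → ℂ) * Nat.card G : ℕ) : ℂ)) *
        om (conjI χ : G → ℂ) (secFun p f x (χ : G → ℂ)) := by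
    have h6 : mc p f x (χ : G → ℂ) (χ : G → ℂ) = (χ : G → ℂ) 1 *
        om (conjI χ : G → ℂ) (secFun p f x (χ : G → ℂ)) / (Nat.card G : ℂ) := by
      rw [← h5]
      field_simp
    push_cast
    rw [charDegree_cast (IsIrrCharacter.isCharacter χ.2), h6]
    field_simp
  rw [e]
  refine MemLocalRing.mul (memLocalRing_natCast_div hM
    (mul_ne_zero (pow_ne_zero _ hp.ne_zero) hd0)
    (mul_ne_zero (pow_ne_zero _ hp.ne_zero) Nat.card_pos.ne') ?_)
    (om_memLocalRing (conjI χ).2 (isClassFunction_secFun (p := p) f x (χ : G → ℂ))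
      (fun g => memLocalRing_of_isIntegral (isIntegral_secFun hp hx f χ g)))
  rw [Nat.factorization_mul (pow_ne_zero _ hp.ne_zero) hd0,
    Nat.factorization_mul (pow_ne_zero _ hp.ne_zero) Nat.card_pos.ne', Finsupp.add_apply,
    Finsupp.add_apply, Nat.Prime.factorization_pow hp, Nat.Prime.factorization_pow hp,
    Finsupp.single_eq_same, Finsupp.single_eq_same, hq]
  have := factorization_degree_add (p := p) hχ
  omega

end Cfsg.Agent.Lib.Helper6
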