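import Mathlib
import Cfsg.Prelude.Def_Blocks
import Cfsg.Agent.Lib.Helper6.MajorSub2

/-!
# Major subsections III: the norm argument
-/

set_option autoImplicit false
set_option linter.unusedSectionVars false

namespace Cfsg.Agent.Lib.Helper6

open Cfsg Cfsg.Agent.Lib.Helper2 Cfsg.Agent.Lib.Helper24 Cfsg.Agent.Lib.Helper23.Contrib
open Cfsg.Agent.Lib.Helper23.BrauerFeit Cfsg.Agent.Lib.Helper23.RegInner
open Cfsg.Agent.Lib.Helper23.RealBlock Cfsg.Agent.Lib.Helper23.CycNorm Polynomial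
open scoped ComplexConjugate Classical

attribute [local instance] irrFintype

section norm

variable {M : Ideal AlgInt} {p : ℕ}

/-- **Norm argument**, positive version. -/
theorem card_le_sum_re (hM : IsPModular p M) {N : ℕ} (hN : 0 < N) (P : ℚ[X]) (m : ℕ)
    (hR : ∀ η : ℂ, IsPrimitiveRoot η N → MemLocalRing M (aeval η P))
    (hI : ∀ η : ℂ, IsPrimitiveRoot η N → IsIntegral ℤ ((p : ℂ) ^ m * aeval η P))
    (hpos : ∀ η : ℂ, IsPrimitiveRoot η N → ∃ r : ℝ, 0 < r ∧ aeval η P = (r : ℂ)) :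
    (Fintype.card (primitiveRoots N ℂ) : ℝ) ≤ ∑ η : primitiveRoots N ℂ, (aeval (η : ℂ) P).re := by
  have := IsPModular.isPrime hM
  have : NeZero N := ⟨hN.ne'⟩
  have hprim : ∀ η : primitiveRoots N ℂ, IsPrimitiveRoot (η : ℂ) N := fun η =>
    (mem_primitiveRoots hN).mp η.2
  obtain ⟨r, hr⟩ := exists_rat_prod N P
  have hr1 : MemLocalRing M (r : ℂ) := by
    rw [← hr]; exact MemLocalRing.prod _ fun η _ => hR η (hprim η)
  have hre : ∀ η : primitiveRoots N ℂ, 0 < (aeval (η : ℂ) P).re ∧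
      aeval (η : ℂ) P = (((aeval (η : ℂ) P).re : ℝ) : ℂ) := by
    intro η
    obtain ⟨s, hs, he⟩ := hpos η (hprim η)
    rw [he]
    simp [hs]
  have hprod : ((∏ η : primitiveRoots N ℂ, (aeval (η : ℂ) P).re : ℝ) : ℂ) = (r : ℂ) := by
    rw [← hr]
    push_cast
    exact Finset.prod_congr rfl fun η _ => (hre η).2.symm
  have hprod' : ∏ η : primitiveRoots N ℂ, (aeval (η : ℂ) P).re = (r : ℝ) := by
    have h3 : ((r : ℚ) : ℂ) = ((r : ℝ) : ℂ) := by push_cast; rfl
    rw [h3] at hprod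
    exact_mod_cast hprod
  have hppos : 0 < ∏ η : primitiveRoots N ℂ, (aeval (η : ℂ) P).re :=
    Finset.prod_pos fun η _ => (hre η).1
  have hr0 : r ≠ 0 := by
    rintro rfl
    rw [hprod'] at hppos
    simp at hppos
  have hr3 : IsIntegral ℤ ((p : ℂ) ^ (m * Fintype.card (primitiveRoots N ℂ)) * (r : ℂ)) := by
    have h2 : (p : ℂ) ^ (m * Fintype.card (primitiveRoots N ℂ)) * (r : ℂ) =
        ∏ η : primitiveRoots N ℂ, ((p : ℂ) ^ m * aeval (η : ℂ) P) := by
      rw [Finset.prod_mul_distrib, hr, Finset.prod_const, Finset.card_univ, pow_mul]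
    rw [h2]
    exact IsIntegral.prod _ fun η _ => hI η (hprim η)
  have hr4 := one_le_abs_of_unit hM hr3 hr1 hr0
  have h5 : (1 : ℝ) ≤ ∏ η : primitiveRoots N ℂ, (aeval (η : ℂ) P).re := by
    rw [hprod']
    rw [hprod'] at hppos
    have h7 : (1 : ℝ) ≤ |(r : ℝ)| := by exact_mod_cast hr4
    rwa [abs_of_pos hppos] at h7
  have h8 := card_le_sum_of_one_le_prod Finset.univ
    (fun η : primitiveRoots N ℂ => (aeval (η : ℂ) P).re) (fun η _ => (hre η).1) h5
  rwa [Finset.card_univ] at h8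

end norm

variable {G : Type*} [Group G] [Fintype G] {H : Subgroup G} {p : ℕ}
  {M : Ideal AlgInt}

theorem isCenOf_pow (hp : p.Prime) {x : H} (hx : IsCenOf p x) {j : ℕ} (hj : Nat.Coprime j p) :
    IsCenOf p (x ^ j) := by
  obtain ⟨k, hk⟩ := hx.pow
  have hcop : Nat.Coprime (orderOf (x : G)) j := by
    rw [hk]
    exact (Nat.Coprime.pow_right k hj).symm
  refine ⟨⟨k, ?_⟩, ?_, ?_⟩
  · rw [Subgroup.coe_pow, hcop.orderOf_pow, hk]
  · intro h
    have : Commute h x := hx.comm h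
    exact (this.pow_right j).eq
  · intro g hg
    apply hx.le
    rw [Subgroup.mem_centralizer_singleton_iff] at hg ⊢
    obtain ⟨m, hm⟩ := exists_pow_eq_self_of_coprime hcop.symm
    have h1 : Commute g (((x ^ j : H) : G)) := hg
    have h2 := h1.pow_right m
    rw [Subgroup.coe_pow, hm] at h2
    exact h2.eq

theorem centralChar_pow_eq {x : H} (hx : IsCenOf p x) (ξ : IrrCharacter H) (j : ℕ) :
    centralChar (ξ : H → ℂ) (x ^ j) = centralChar (ξ : H → ℂ) x ^ j := by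
  have h1 := centralChar_pow_of_central ξ.2 (mem_center hx) j
  have h2 := irr_central_mul ξ.2 (Subgroup.pow_mem _ (mem_center hx) j) (1 : H)
  rw [mul_one, h1] at h2
  exact (mul_right_cancel₀ (irr_one_ne_zero ξ.2) h2).symm

/-- The polynomial representing the Galois conjugates of a diagonal contribution. -/
theorem exists_poly [Fact p.Prime] (hM : IsPModular p M) {x : H} (hx : IsCenOf p x)
    {f : Set (IrrCharacter H)} {B : Set (IrrCharacter G)} (hind : IsInducedBlock M H f B)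
    (hq : blockDefect p f = blockDefect p B) {χ : IrrCharacter G} (hχ : χ ∈ B) {K : ℕ}
    (hK : (x : G) ^ (p ^ (K + 1)) = 1) {ζ : ℂ} (hζ : IsPrimitiveRoot ζ (p ^ (K + 1))) :
    ∃ P : ℚ[X], (∀ j : ℕ, Nat.Coprime j p → aeval (ζ ^ j) P =
        (p : ℂ) ^ blockDefect p f * mc p f (x ^ j) (χ : G → ℂ) (χ : G → ℂ) /
          (p : ℂ) ^ blockHeight p B (χ : G → ℂ)) ∧
      (Fintype.card (primitiveRoots (p ^ (K + 1)) ℂ) : ℝ) ≤
        ∑ η : primitiveRoots (p ^ (K + 1)) ℂ, (aeval (η : ℂ) P).re := by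
  have := IsPModular.isPrime hM
  have hp : p.Prime := hM.1
  have hp0 : (p : ℂ) ≠ 0 := by exact_mod_cast hp.ne_zero
  set N := p ^ (K + 1) with hNdef
  have hN : 0 < N := pow_pos hp.pos _
  set h := blockHeight p B (χ : G → ℂ) with hh
  have hw : ∀ ξ : IrrCharacter H, centralChar (ξ : H → ℂ) x ^ N = 1 := by
    intro ξ
    rw [← centralChar_pow_eq hx]
    have h2 : x ^ N = 1 := Subtype.ext (by rw [Subgroup.coe_pow, hK]; rfl)
    rw [h2]
    exact centralChar_one (irr_one_ne_zero ξ.2)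
  have hidx : ∀ ξ : IrrCharacter H, ∃ i < N, ζ ^ i = centralChar (ξ : H → ℂ) x :=
    fun ξ => hζ.eq_pow_of_pow_eq_one (hw ξ)
  choose idx hidx1 hidx2 using hidx
  set P : ℚ[X] := C (((p : ℚ) ^ h)⁻¹) * PP p f N idx χ χ with hP
  have hev : ∀ η : ℂ, aeval η P = aeval η (PP p f N idx χ χ) / (p : ℂ) ^ h := by
    intro η
    rw [hP, map_mul, aeval_C, eq_ratCast]
    push_cast
    rw [div_eq_inv_mul]
  have key : ∀ j : ℕ, Nat.Coprime j p → aeval (ζ ^ j) P =
        (p : ℂ) ^ blockDefect p f * mc p f (x ^ j) (χ : G → ℂ) (χ : G → ℂ) / (p : ℂ) ^ h := by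
    intro j hj
    rw [hev, aeval_PP, pow_mul_mc (isCenOf_pow hp hx hj)]
    congr 2
    · funext ξ
      rw [centralChar_pow_eq hx, ← hidx2 ξ, ← pow_mul, ← pow_mul, mul_comm]
    · funext ξ
      rw [centralChar_pow_eq hx]
      have h1 : ‖centralChar (ξ : H → ℂ) x ^ j‖ = 1 := by
        apply Complex.norm_eq_one_of_pow_eq_one (n := N) _ hN.ne'
        rw [← pow_mul, mul_comm, pow_mul, hw ξ, one_pow]
      rw [← Complex.inv_eq_conj h1, ← hidx2 ξ]
      apply eq_inv_of_mul_eq_one_left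
      rw [← pow_mul, ← pow_mul, ← pow_add, mul_comm (idx ξ) j, ← Nat.mul_add,
        Nat.sub_add_cancel (hidx1 ξ).le, mul_comm, pow_mul, hζ.pow_eq_one, one_pow]
  have hexj : ∀ η : ℂ, IsPrimitiveRoot η N → ∃ j : ℕ, Nat.Coprime j p ∧ η = ζ ^ j := by
    intro η hη
    obtain ⟨i, -, hi⟩ := hζ.eq_pow_of_pow_eq_one hη.pow_eq_one
    refine ⟨i, ?_, hi.symm⟩
    rw [← hi, hζ.pow_iff_coprime hN, hNdef] at hη
    exact (Nat.coprime_pow_right_iff (Nat.succ_pos K) i p).mp hη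
  refine ⟨P, key, ?_⟩
  apply card_le_sum_re hM hN P ((Nat.card H).factorization p + h)
  · intro η hη
    obtain ⟨j, hj, rfl⟩ := hexj η hη
    rw [key j hj]
    exact pow_mul_mc_div_memLocalRing hM (isCenOf_pow hp hx hj) hind hq hχ
  · intro η hη
    rw [hev, aeval_PP]
    have hint : ∀ i : ℕ, IsIntegral ℤ (η ^ i) := by
      intro i
      apply IsIntegral.pow
      apply IsIntegral.of_pow hN
      rw [hη.pow_eq_one]
      exact isIntegral_one
    have h1 := isIntegral_EE (p := p) f (u := fun ξ => η ^ idx ξ) (v := fun ξ => η ^ (N - idx ξ))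
      (fun ξ => hint _) (fun ξ => hint _) χ χ
    have e : (p : ℂ) ^ ((Nat.card H).factorization p + h) *
        (EE p f (fun ξ => η ^ idx ξ) (fun ξ => η ^ (N - idx ξ)) χ χ / (p : ℂ) ^ h) =
        (p : ℂ) ^ (Nat.card H).factorization p *
          EE p f (fun ξ => η ^ idx ξ) (fun ξ => η ^ (N - idx ξ)) χ χ := by
      rw [pow_add]
      field_simp
    rw [e]
    exact h1
  · intro η hη
    obtain ⟨j, hj, rfl⟩ := hexj η hη
    rw [key j hj, mc_self_eq]
    have hne := mc_self_ne_zero hM (isCenOf_pow hp hx hj) hind hq hχ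
    rw [mc_self_eq] at hne
    have hnn := mc_self_nonneg (p := p) f (x ^ j) (χ : G → ℂ)
    have hpos : 0 < (Nat.card H : ℝ)⁻¹ * ∑ c : H, ‖fpart p f (x ^ j) (χ : G → ℂ) c‖ ^ 2 := by
      apply lt_of_le_of_ne hnn
      intro h0
      apply hne
      rw [← h0]
      simp
    have hpr : (0 : ℝ) < p := by exact_mod_cast hp.pos
    refine ⟨(p : ℝ) ^ blockDefect p f *
      ((Nat.card H : ℝ)⁻¹ * ∑ c : H, ‖fpart p f (x ^ j) (χ : G → ℂ) c‖ ^ 2) / (p : ℝ) ^ h,
      by positivity, ?_⟩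
    push_cast
    rfl

end Cfsg.Agent.Lib.Helper6
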