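import Mathlib
import Cfsg.Prelude.Def_Blocks
import Cfsg.Agent.Lib.Helper6.MajorSub3

/-!
# Major subsections IV: the counting arguments
-/

set_option autoImplicit false
set_option linter.unusedSectionVars false

namespace Cfsg.Agent.Lib.Helper6

open Cfsg Cfsg.Agent.Lib.Helper2 Cfsg.Agent.Lib.Helper24 Cfsg.Agent.Lib.Helper23.Contrib
open Cfsg.Agent.Lib.Helper23.BrauerFeit Cfsg.Agent.Lib.Helper23.RegInner
open Cfsg.Agent.Lib.Helper23.RealBlock Cfsg.Agent.Lib.Helper23.CycNorm Polynomial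
open scoped ComplexConjugate Classical

attribute [local instance] irrFintype

section abstract1

variable {G : Type*} [Group G] [Fintype G]

theorem isClassFunction_finset_sum {ι : Type*} (s : Finset ι) (θ : ι → G → ℂ)
    (h : ∀ i, IsClassFunction G (θ i)) : IsClassFunction G (∑ i ∈ s, θ i) := by
  intro g k
  simp only [Finset.sum_apply]
  exact Finset.sum_congr rfl fun i _ => h i g k

/-- A family of pairwise orthogonal-or-equal class functions, each having the same inner product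
with `χ` as with itself. -/
theorem sum_le_of_orth {Z : Type*} [Fintype Z] (θ : Z → G → ℂ) (μ : Z → ℝ) (hμ : ∀ z, 0 ≤ μ z)
    (χ : IrrCharacter G) (hcl : ∀ z, IsClassFunction G (θ z))
    (h1 : ∀ z, classInner (θ z) (χ : G → ℂ) = (μ z : ℂ))
    (h2 : ∀ z, classInner (θ z) (θ z) = (μ z : ℂ))
    (R : Z → Z → Prop) (e : ℕ)
    (h3 : ∀ z z', classInner (θ z) (θ z') = 0 ∨ (θ z = θ z' ∧ R z z'))
    (h4 : ∀ z, (Finset.univ.filter (fun z' => R z z')).card ≤ e) :
    ∑ z, μ z ≤ e := by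
  set S := ∑ z, μ z with hS
  have hS0 : 0 ≤ S := Finset.sum_nonneg fun z _ => hμ z
  set Θ : G → ℂ := ∑ z, θ z with hΘ
  have hΘc : IsClassFunction G Θ := isClassFunction_finset_sum _ _ hcl
  have e1 : classInner Θ (χ : G → ℂ) = (S : ℂ) := by
    rw [hΘ, classInner_sum_left, hS]
    push_cast
    exact Finset.sum_congr rfl fun z _ => h1 z
  have e2 : (classInner Θ Θ).re = ∑ ψ : IrrCharacter G, ‖classInner Θ (ψ : G → ℂ)‖ ^ 2 := by
    rw [classInner_eq_sum_irr hΘc hΘc, Complex.re_sum]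
    refine Finset.sum_congr rfl fun ψ _ => ?_
    rw [Complex.mul_conj, Complex.normSq_eq_norm_sq, Complex.ofReal_re]
  have e3 : S ^ 2 ≤ (classInner Θ Θ).re := by
    rw [e2]
    have := Finset.single_le_sum (f := fun ψ : IrrCharacter G => ‖classInner Θ (ψ : G → ℂ)‖ ^ 2)
      (fun ψ _ => by positivity) (Finset.mem_univ χ)
    simp only [e1] at this
    rw [Complex.norm_real, Real.norm_eq_abs, sq_abs] at this
    exact this
  have e4 : (classInner Θ Θ).re ≤ e * S := by
    conv_lhs => rw [hΘ, classInner_sum_left, Complex.re_sum]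
    rw [hS, Finset.mul_sum]
    refine Finset.sum_le_sum fun z _ => ?_
    rw [classInner_sum_right, Complex.re_sum]
    have h5 : ∀ z', (classInner (θ z) (θ z')).re ≤ if R z z' then μ z else 0 := by
      intro z'
      rcases h3 z z' with h | ⟨h, hR⟩
      · rw [h]
        split_ifs
        · simpa using hμ z
        · simp
      · rw [if_pos hR, ← h, h2]
        simp
    refine (Finset.sum_le_sum fun z' _ => h5 z').trans ?_
    rw [← Finset.sum_filter, Finset.sum_const, nsmul_eq_mul]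
    exact mul_le_mul_of_nonneg_right (by exact_mod_cast h4 z) (hμ z)
  by_contra hlt
  push Not at hlt
  have hpos : 0 < S := lt_of_le_of_lt (by positivity) hlt
  nlinarith

end abstract1

section abstract2

/-- Averaging the norm inequality over a family closed under the Galois action. -/
theorem card_le_of_avg {Z : Type*} [Fintype Z] {N p : ℕ} {ζ : ℂ}
    (hex : ∀ η : ℂ, IsPrimitiveRoot η N → ∃ j : ℕ, Nat.Coprime j p ∧ η = ζ ^ j) (hN : 0 < N)
    (P : Z → ℚ[X]) (μ : Z → ℝ) (c : ℝ) (pw : ℕ → Z → Z)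
    (hpw : ∀ j, Nat.Coprime j p → Function.Bijective (pw j))
    (hP : ∀ z j, Nat.Coprime j p → (aeval (ζ ^ j) (P z)).re = c * μ (pw j z))
    (hle : ∀ z, (Fintype.card (primitiveRoots N ℂ) : ℝ) ≤
      ∑ η : primitiveRoots N ℂ, (aeval (η : ℂ) (P z)).re)
    (hne : 0 < Fintype.card (primitiveRoots N ℂ)) :
    (Fintype.card Z : ℝ) ≤ c * ∑ z, μ z := by
  have h1 : (Fintype.card Z : ℝ) * Fintype.card (primitiveRoots N ℂ) ≤
      ∑ z : Z, ∑ η : primitiveRoots N ℂ, (aeval (η : ℂ) (P z)).re := by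
    have := Finset.sum_le_sum (s := Finset.univ) fun (z : Z) _ => hle z
    rwa [Finset.sum_const, Finset.card_univ, nsmul_eq_mul] at this
  rw [Finset.sum_comm] at h1
  have h2 : ∀ η : primitiveRoots N ℂ, ∑ z : Z, (aeval (η : ℂ) (P z)).re = c * ∑ z, μ z := by
    intro η
    obtain ⟨j, hj, he⟩ := hex η ((mem_primitiveRoots hN).mp η.2)
    rw [he, Finset.mul_sum]
    rw [← (Equiv.ofBijective _ (hpw j hj)).sum_comp (fun z => c * μ z)]
    exact Finset.sum_congr rfl fun z _ => hP z j hj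
  rw [Finset.sum_congr rfl fun η _ => h2 η, Finset.sum_const, Finset.card_univ, nsmul_eq_mul,
    mul_comm] at h1
  have hpos : (0 : ℝ) < Fintype.card (primitiveRoots N ℂ) := by exact_mod_cast hne
  exact le_of_mul_le_mul_left h1 hpos

end abstract2

section orbit

theorem card_orbit_le {G : Type*} [Group G] [Finite G] (H T : Subgroup G) {Z : Type*} [Fintype Z]
    (ι : Z → G) (hι : Function.Injective ι) (z : G) (hz : ∀ h ∈ H, h * z * h⁻¹ = z) :
    (Finset.univ.filter (fun z' : Z => ∃ t ∈ T, t * z * t⁻¹ = ι z')).card ≤ H.relIndex T := by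
  rw [Subgroup.relIndex, Subgroup.index]
  have hex : ∀ z' : {z' : Z // ∃ t ∈ T, t * z * t⁻¹ = ι z'},
      ∃ t : T, (t : G) * z * (t : G)⁻¹ = ι z' := fun z' => by
    obtain ⟨t, ht, h⟩ := z'.2
    exact ⟨⟨t, ht⟩, h⟩
  choose τ hτ using hex
  have hinj : Function.Injective
      (fun z' => (QuotientGroup.mk (τ z') : T ⧸ H.subgroupOf T)) := by
    intro a b hab
    have h1 := QuotientGroup.eq.mp hab
    rw [Subgroup.mem_subgroupOf] at h1
    have h2 := hz _ h1
    apply Subtype.ext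
    apply hι
    rw [← hτ a, ← hτ b]
    push_cast at h2
    calc (τ a : G) * z * (τ a : G)⁻¹
        = (τ a : G) * (((τ a : G)⁻¹ * (τ b : G)) * z * ((τ a : G)⁻¹ * (τ b : G))⁻¹) *
          (τ a : G)⁻¹ := by rw [h2]
      _ = (τ b : G) * z * (τ b : G)⁻¹ := by group
  have h3 := Nat.card_le_card_of_injective _ hinj
  rwa [Nat.card_eq_fintype_card, Fintype.card_subtype] at h3

end orbit

section pairs

variable {G : Type*} [Group G] [Fintype G] {p : ℕ} {M : Ideal AlgInt}

/-- Conjugate pairs below a maximal pair `(P, e)`, on subgroups centralized by `P`, are conjugate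
under the stabilizer of `(P, e)`, up to the centralizer. -/
theorem exists_stab_conj (hM : IsPModular p M) {B : Set (IrrCharacter G)}
    {P Q Q' : Subgroup G} {e : Set (IrrCharacter (cz P))} {f : Set (IrrCharacter (cz Q))}
    {f' : Set (IrrCharacter (cz Q'))}
    (hmax : IsMaximalBrauerPair p M B P e) (hle : SubpairLE p M Q f P e)
    (hle' : SubpairLE p M Q' f' P e) (hPQ : P ≤ cz Q) (hPQ' : P ≤ cz Q')
    {g : G} (hg : cjIdx g ⟨Q, f⟩ = (⟨Q', f'⟩ : BrauerPairIdx G)) :
    ∃ c ∈ cz Q', c * g ∈ Subgroup.normalizer (P : Set G) ∧ StabilizesBlock (cz P) e (c * g) := by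
  have hD := isDefectGroup_centralizer_of_le hM hmax hle' hPQ'
  have hn : IsNormalSubpair p M Q f P e :=
    rel_of_PLE_of_normal hM hle hmax.1.1 (hPQ.trans (Subgroup.centralizer_le_normalizer _))
  have hn2 : IsNormalSubpair p M Q' f' P e :=
    rel_of_PLE_of_normal hM hle' hmax.1.1 (hPQ'.trans (Subgroup.centralizer_le_normalizer _))
  have hn' : NormalSubpairRel p M (cjIdx g ⟨Q, f⟩) (cjIdx g ⟨P, e⟩) := rel_cjIdx g hn
  rw [hg] at hn'
  have hQQ' : IsConjSub g Q Q' := by
    have := isConjSub_map g Q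
    have h1 : Q.map (MulAut.conj g).toMonoidHom = Q' := congrArg Sigma.fst hg
    rwa [h1] at this
  have hPx : (cjIdx g ⟨P, e⟩).1 ≤ cz Q' :=
    (isConjSub_map g P).mono hQQ'.centralizer hPQ
  obtain ⟨c, hc, hle''⟩ := exists_conj_le_of_defectGroup hM (H := cz Q') le_rfl hn2.1.2 rfl hn' hn2
    hPx hPQ' hD
  have h1 : cjIdx c (cjIdx g ⟨P, e⟩) = cjIdx (c * g) ⟨P, e⟩ := (cjIdx_mul c g _).symm
  change PLE p M (cjIdx c (cjIdx g ⟨P, e⟩)) ⟨P, e⟩ at hle''
  rw [h1] at hle''
  obtain ⟨h2, h3⟩ := cjIdx_eq_self_iff.mp (cjIdx_eq_of_PLE hM hle'')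
  exact ⟨c, hc, h2, h3⟩

/-- a pair below a maximal pair `(D, e)` on a subgroup centralized by `D` is major -/
theorem major_data [Fact p.Prime] (hM : IsPModular p M) {B : Set (IrrCharacter G)}
    {D Q : Subgroup G} {e : Set (IrrCharacter (cz D))} {f : Set (IrrCharacter (cz Q))}
    (hmax : IsMaximalBrauerPair p M B D e) (hle : SubpairLE p M Q f D e) (hDQ : D ≤ cz Q) :
    IsInducedBlock M (cz Q) f B ∧ blockDefect p f = blockDefect p B := by
  have hp : p.Prime := hM.1
  have hQD : Q ≤ D := PLE.le hle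
  have hQf : IsBrauerPairOf p M B Q f := (PLE.isBrauerPairOf_iff hM hle hmax.1.2.1).mp hmax.1
  refine ⟨isInducedBlock_of_isBrauerPairOf hM (hQD.trans hDQ) hQf, ?_⟩
  have h1 := IsDefectGroup.card_eq hM hQf.1.2 (isDefectGroup_centralizer_of_le hM hmax hle hDQ)
  have h2 := IsDefectGroup.card_eq hM hmax.1.2.1 (isDefectGroup_of_maximal hM hmax)
  have h3 : Nat.card (D.subgroupOf (cz Q)) = Nat.card D :=
    Nat.card_congr (Subgroup.subgroupOfEquivOfLe hDQ).toEquiv
  rw [h3, h2] at h1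
  exact (Nat.pow_right_injective hp.two_le h1).symm

theorem mc_congr_sub (fam : (Q : Subgroup G) → Set (IrrCharacter (cz Q))) {Q Q' : Subgroup G}
    (h : Q = Q') (x : cz Q) (x' : cz Q') (hx : (x : G) = x') (χ : G → ℂ) :
    mc p (fam Q) x χ χ = mc p (fam Q') x' χ χ := by
  subst h
  rw [Subtype.ext hx]

theorem re_pow_mul_div (a h : ℕ) (m : ℂ) (r : ℝ) (hm : m = (r : ℂ)) :
    ((p : ℂ) ^ a * m / (p : ℂ) ^ h).re = (p : ℝ) ^ a / (p : ℝ) ^ h * m.re := by
  rw [hm]
  have e : (p : ℂ) ^ a * (r : ℂ) / (p : ℂ) ^ h = (((p : ℝ) ^ a / (p : ℝ) ^ h * r : ℝ) : ℂ) := by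
    push_cast
    ring
  rw [e, Complex.ofReal_re, Complex.ofReal_re]

end pairs

end Cfsg.Agent.Lib.Helper6
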