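import Mathlib
import Cfsg.Prelude.Def_Blocks
import Cfsg.Agent.Lib.Helper6.MajorSub4

/-!
# Major subsections V: heights, the inertial index and the centre of a defect group
-/

set_option autoImplicit false
set_option linter.unusedSectionVars false

namespace Cfsg.Agent.Lib.Helper6

open Cfsg Cfsg.Agent.Lib.Helper2 Cfsg.Agent.Lib.Helper24 Cfsg.Agent.Lib.Helper23.Contrib
open Cfsg.Agent.Lib.Helper23.BrauerFeit Cfsg.Agent.Lib.Helper23.RegInner
open Cfsg.Agent.Lib.Helper23.RealBlock Cfsg.Agent.Lib.Helper23.CycNorm Polynomial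
open scoped ComplexConjugate Classical

attribute [local instance] irrFintype

variable {G : Type*} [Group G] [Fintype G] {p : ℕ} {M : Ideal AlgInt}

theorem height_add_le [Fact p.Prime] (hM : IsPModular p M) {B : Set (IrrCharacter G)}
    {D : Subgroup G} {e : Set (IrrCharacter (cz D))} (hmax : IsMaximalBrauerPair p M B D e)
    {d : ℕ} (hDd : Nat.card D = p ^ d) (T : Subgroup G)
    (hT : ∀ g, g ∈ T ↔ g ∈ Subgroup.normalizer (D : Set G) ∧ StabilizesBlock (cz D) e g)
    {n c : ℕ} (hn : (D ⊔ cz D).relIndex T < p ^ (n + 1))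
    (hc : Nat.card (Subgroup.center D) = p ^ c) {χ : IrrCharacter G} (hχ : χ ∈ B) :
    blockHeight p B (χ : G → ℂ) + c ≤ n + d := by
  have hp : p.Prime := hM.1
  have hχc : IsClassFunction G (χ : G → ℂ) := irr_isClassFunction χ.2
  have hfam : ∀ Q : Subgroup G, ∃ f : Set (IrrCharacter (cz Q)),
      Q ≤ D → PLE p M ⟨Q, f⟩ ⟨D, e⟩ := by
    intro Q
    by_cases hQ : Q ≤ D
    · obtain ⟨f, hf⟩ := exists_PLE hM ⟨D, e⟩ hmax.1.1 _ Q hQ rfl
      exact ⟨f, fun _ => hf⟩
    · exact ⟨∅, fun h => absurd h hQ⟩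
  choose fam hfam using hfam
  set ι : Subgroup.center D → G := fun z => ((z : D) : G) with hι
  have hιinj : Function.Injective ι := fun a b h => Subtype.ext (Subtype.ext h)
  have hιD : ∀ z, ι z ∈ D := fun z => (z : D).2
  have hιc : ∀ z, ∀ y ∈ D, y * ι z = ι z * y := by
    intro z y hy
    have := Subgroup.mem_center_iff.mp z.2 ⟨y, hy⟩
    exact congrArg Subtype.val this
  have hQD : ∀ z, Subgroup.zpowers (ι z) ≤ D := fun z => (Subgroup.zpowers_le).mpr (hιD z)
  have hDQ : ∀ z, D ≤ cz (Subgroup.zpowers (ι z)) := fun z y hy =>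
    cen_le_centralizer_zpowers (ι z) (Subgroup.mem_centralizer_singleton_iff.mpr (hιc z y hy))
  have hle : ∀ z, SubpairLE p M (Subgroup.zpowers (ι z)) (fam _) D e := fun z => hfam _ (hQD z)
  have hdata := fun z => major_data hM hmax (hle z) (hDQ z)
  have hord : ∀ z, ∃ k : ℕ, orderOf (ι z) = p ^ k := by
    intro z
    have h1 : orderOf (ι z) ∣ p ^ d := by
      rw [← hDd]
      have h0 : orderOf (ι z) = orderOf (z : D) := Subgroup.orderOf_coe (z : D)
      rw [h0]
      exact orderOf_dvd_natCard _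
    obtain ⟨k, -, hk⟩ := (Nat.dvd_prime_pow hp).mp h1
    exact ⟨k, hk⟩
  have hcen : ∀ z, IsCenOf p (cenElt' (ι z)) := fun z => isCenOf_cenElt' (hord z)
  have hdB : blockDefect p B = d := by
    have h2 := IsDefectGroup.card_eq hM hmax.1.2.1 (isDefectGroup_of_maximal hM hmax)
    rw [hDd] at h2
    exact (Nat.pow_right_injective hp.two_le h2).symm
  set θ : Subgroup.center D → G → ℂ := fun z =>
    secFun p (fam (Subgroup.zpowers (ι z))) (cenElt' (ι z)) (χ : G → ℂ) with hθ
  set μ : Subgroup.center D → ℝ := fun z =>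
    (mc p (fam (Subgroup.zpowers (ι z))) (cenElt' (ι z)) (χ : G → ℂ) (χ : G → ℂ)).re with hμ
  have hμc : ∀ z, mc p (fam (Subgroup.zpowers (ι z))) (cenElt' (ι z)) (χ : G → ℂ) (χ : G → ℂ) =
      (μ z : ℂ) := by
    intro z
    rw [hμ]
    simp only
    rw [mc_self_eq, Complex.ofReal_re]
  have hμ0 : ∀ z, 0 ≤ μ z := by
    intro z
    rw [hμ]
    simp only
    rw [mc_self_eq, Complex.ofReal_re]
    exact mc_self_nonneg _ _ _
  -- first inequality
  have hsum : ∑ z, μ z ≤ ((D ⊔ cz D).relIndex T : ℕ) := by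
    apply sum_le_of_orth θ μ hμ0 χ (fun z => isClassFunction_secFun _ _ _) _ _
      (fun z z' => ∃ t ∈ T, t * ι z * t⁻¹ = ι z')
    · intro z z'
      rcases secFun_orth_or_eq hM (hcen z) (hcen z') rfl rfl (hdata z).1.1 (hdata z').1.1 hχc with
        h | ⟨h, g, hg, hgg⟩
      · exact Or.inl h
      · refine Or.inr ⟨h, ?_⟩
        obtain ⟨c', hc', h1, h2⟩ := exists_stab_conj hM hmax (hle z) (hle z') (hDQ z) (hDQ z') hgg
        refine ⟨c' * g, (hT _).mpr ⟨h1, h2⟩, ?_⟩
        have h3 : ι z' * c' = c' * ι z' :=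
          Subgroup.mem_centralizer_iff.mp hc' (ι z') (Subgroup.mem_zpowers _)
        have hg' : g * ι z * g⁻¹ = ι z' := hg
        calc c' * g * ι z * (c' * g)⁻¹ = c' * (g * ι z * g⁻¹) * c'⁻¹ := by group
          _ = c' * ι z' * c'⁻¹ := by rw [hg']
          _ = ι z' := by rw [← h3]; group
    · intro z
      apply card_orbit_le _ _ ι hιinj
      intro h hh
      have h1 : D ⊔ cz D ≤ cen (ι z) := by
        apply sup_le
        · intro y hy
          exact Subgroup.mem_centralizer_singleton_iff.mpr (hιc z y hy)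
        · intro y hy
          exact Subgroup.mem_centralizer_singleton_iff.mpr
            (Subgroup.mem_centralizer_iff.mp hy (ι z) (hιD z)).symm
      have h2 := Subgroup.mem_centralizer_singleton_iff.mp (h1 hh)
      rw [h2]
      group
    · intro z
      rw [hθ]
      simp only
      rw [secFun, classInner_lift _ _ hχc, classInner_fpart_tw hM (hcen z) (hdata z).1.1 _ hχc]
      exact hμc z
    · intro z
      rw [hθ]
      simp only
      rw [secFun, classInner_lift_lift hp (hcen z) (fpart_of_dvd _ _ _)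
        (isClassFunction_fpart (hcen z) _ _) (fpart_of_dvd _ _ _)]
      exact hμc z
  -- second inequality
  set N := p ^ (d + 1) with hN
  have hN0 : 0 < N := pow_pos hp.pos _
  obtain ⟨ζ, hζ⟩ : ∃ ζ : ℂ, IsPrimitiveRoot ζ N := ⟨_, Complex.isPrimitiveRoot_exp N hN0.ne'⟩
  have hK : ∀ z, ((cenElt' (ι z) : cz (Subgroup.zpowers (ι z))) : G) ^ (p ^ (d + 1)) = 1 := by
    intro z
    show ι z ^ (p ^ (d + 1)) = 1
    have h1 : orderOf (ι z) ∣ p ^ d := by
      rw [← hDd]
      have h0 : orderOf (ι z) = orderOf (z : D) := Subgroup.orderOf_coe (z : D)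
      rw [h0]
      exact orderOf_dvd_natCard _
    rw [pow_succ, pow_mul, orderOf_dvd_iff_pow_eq_one.mp h1, one_pow]
  have hpoly := fun z => exists_poly hM (hcen z) (hdata z).1 (hdata z).2 hχ (hK z) hζ
  choose P hP1 hP2 using hpoly
  have hex : ∀ η : ℂ, IsPrimitiveRoot η N → ∃ j : ℕ, Nat.Coprime j p ∧ η = ζ ^ j := by
    intro η hη
    obtain ⟨i, -, hi⟩ := hζ.eq_pow_of_pow_eq_one hη.pow_eq_one
    refine ⟨i, ?_, hi.symm⟩
    rw [← hi, hζ.pow_iff_coprime hN0, hN] at hη
    exact (Nat.coprime_pow_right_iff (Nat.succ_pos d) i p).mp hη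
  set h := blockHeight p B (χ : G → ℂ) with hh
  have hcard : (Fintype.card (Subgroup.center D) : ℝ) ≤ (p : ℝ) ^ d / (p : ℝ) ^ h * ∑ z, μ z := by
    apply card_le_of_avg hex hN0 P μ _ (fun j z => z ^ j)
    · intro j hj
      have h1 : (Nat.card (Subgroup.center D)).Coprime j := by
        rw [hc]
        exact Nat.Coprime.pow_left c hj.symm
      exact (powCoprime h1).bijective
    · intro z j hj
      rw [hP1 z j hj, re_pow_mul_div _ _ _ _ (mc_self_eq _ _ _), (hdata z).2, hdB]
      congr 1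
      rw [hμ]
      simp only
      congr 1
      apply mc_congr_sub fam
      · have e1 : ι (z ^ j) = ι z ^ j := rfl
        rw [e1]
        apply le_antisymm
        · obtain ⟨k, hk⟩ := hord z
          have hcop : Nat.Coprime j (orderOf (ι z)) := by
            rw [hk]
            exact Nat.Coprime.pow_right k hj
          obtain ⟨m, hm⟩ := exists_pow_eq_self_of_coprime hcop
          rw [Subgroup.zpowers_le]
          have h9 : (ι z ^ j) ^ m ∈ Subgroup.zpowers (ι z ^ j) :=
            Subgroup.pow_mem _ (Subgroup.mem_zpowers _) m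
          rwa [hm] at h9
        · rw [Subgroup.zpowers_le]
          exact Subgroup.pow_mem _ (Subgroup.mem_zpowers _) j
      · rfl
    · exact hP2
    · exact Fintype.card_pos_iff.mpr ⟨⟨ζ, (mem_primitiveRoots hN0).mpr hζ⟩⟩
  have hcz : (Fintype.card (Subgroup.center D) : ℝ) = (p : ℝ) ^ c := by
    rw [← Nat.card_eq_fintype_card, hc]
    push_cast
    rfl
  have hpr : (0 : ℝ) < p := by exact_mod_cast hp.pos
  have h1 : (p : ℝ) ^ c ≤ (p : ℝ) ^ d / (p : ℝ) ^ h * ((D ⊔ cz D).relIndex T : ℕ) := by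
    rw [← hcz]
    exact hcard.trans (mul_le_mul_of_nonneg_left hsum (by positivity))
  have h2 : (p : ℝ) ^ c * (p : ℝ) ^ h ≤ (p : ℝ) ^ d * ((D ⊔ cz D).relIndex T : ℕ) := by
    have h3 := mul_le_mul_of_nonneg_right h1 (by positivity : (0 : ℝ) ≤ (p : ℝ) ^ h)
    have e2 : (p : ℝ) ^ d / (p : ℝ) ^ h * ((D ⊔ cz D).relIndex T : ℕ) * (p : ℝ) ^ h =
        (p : ℝ) ^ d * ((D ⊔ cz D).relIndex T : ℕ) := by
      field_simp
    rwa [e2] at h3
  have h3 : p ^ c * p ^ h ≤ p ^ d * (D ⊔ cz D).relIndex T := by exact_mod_cast h2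
  have h4 : p ^ (c + h) < p ^ (d + (n + 1)) := by
    rw [pow_add, pow_add]
    exact lt_of_le_of_lt h3 (Nat.mul_lt_mul_of_pos_left hn (pow_pos hp.pos d))
  have h5 := (Nat.pow_lt_pow_iff_right hp.one_lt).mp h4
  omega

end Cfsg.Agent.Lib.Helper6
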