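import Mathlib
import Cfsg.Prelude.Def_Blocks
import Cfsg.Agent.Lib.Helper6.Inflate
import Cfsg.Agent.Lib.Helper6.Vanish
import Cfsg.Agent.Lib.Helper6.Brauer
import Cfsg.Agent.Lib.Helper6.FirstMain
import Cfsg.Agent.Lib.Helper6.Subsection
import Cfsg.Agent.Lib.Helper6.DefectOrder

/-!
# Defect groups of blocks of quotient groups
-/

set_option autoImplicit false
set_option linter.unusedSectionVars false

namespace Cfsg.Agent.Lib.Helper6

open Cfsg Cfsg.Agent.Lib.Helper2
open scoped ComplexConjugate Classical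

attribute [local instance] irrFintype

section

variable {G : Type*} [Group G] [Fintype G] {p : ℕ} {M : Ideal AlgInt}
  (N : Subgroup G) [N.Normal]

/-- A unit value of the push-forward is witnessed at a point fixed by a given `p`-subgroup. -/
theorem exists_fixed_unit_of_push (hM : IsPModular p M) {F : G → ℂ} (hF : IsClassFunction G F)
    (hFS : ∀ g, MemLocalRing M (F g)) {q : G ⧸ N} (hq : ¬ MemLocalIdeal M (push N F q))
    {S : Subgroup G} (hS : IsPGroup p S) (hSq : S.map (QuotientGroup.mk' N) ≤ cen q) :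
    ∃ x : G, (x : G ⧸ N) = q ∧ ¬ MemLocalIdeal M (F x) ∧ S ≤ cen x := by
  have := IsPModular.isPrime hM
  have : Fact p.Prime := ⟨hM.1⟩
  by_contra hcon
  push Not at hcon
  apply hq
  obtain ⟨s, hs, hsum⟩ := sum_eq_sum_fixed_add hS (conjPerm S)
    (fun x => if (x : G ⧸ N) = q then F x else 0) (by
      intro u x
      simp only [conjPerm_apply]
      rw [hF x u]
      have hu : ((u : G) : G ⧸ N) ∈ cen q := hSq ⟨u, u.2, rfl⟩
      have hu' : ((u : G) : G ⧸ N) * q = q * ((u : G) : G ⧸ N) :=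
        Subgroup.mem_centralizer_singleton_iff.mp hu
      have h1 : (((u : G) * x * (u : G)⁻¹ : G) : G ⧸ N) = q ↔ (x : G ⧸ N) = q := by
        rw [QuotientGroup.mk_mul, QuotientGroup.mk_mul, QuotientGroup.mk_inv]
        constructor
        · intro h
          have h2 : ((u : G) : G ⧸ N) * (x : G ⧸ N) = ((u : G) : G ⧸ N) * q := by
            rw [hu', ← h]; group
          exact mul_left_cancel h2
        · intro h
          rw [h, hu']; group
      exact if_congr h1 rfl rfl) (localSubring M).toAddSubgroup (by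
      intro x
      show MemLocalRing M _
      split_ifs
      · exact hFS x
      · exact memLocalRing_zero)
  rw [push_apply, hsum]
  refine MemLocalIdeal.add (MemLocalIdeal.sum _ fun x _ => ?_)
    (MemLocalIdeal.mul_right (memLocalIdeal_p hM) hs)
  split_ifs with h1 h2
  · by_contra h3
    exact hcon x h2 h3 (le_cen_iff.mpr ((conjPerm_fixed_iff S x).mp h1))
  · exact memLocalIdeal_zero
  · exact memLocalIdeal_zero

/-- A Sylow subgroup of a subgroup of the quotient is the image of a `p`-subgroup. -/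
theorem exists_isSylIn_map [Fact p.Prime] (K : Subgroup (G ⧸ N)) :
    ∃ S : Subgroup G, IsPGroup p S ∧ IsSylIn p K (S.map (QuotientGroup.mk' N)) := by
  have hf : Function.Surjective ((QuotientGroup.mk' N).subgroupComap K) :=
    MonoidHom.subgroupComap_surjective_of_surjective _ _ (QuotientGroup.mk'_surjective N)
  obtain ⟨P⟩ : Nonempty (Sylow p (K.comap (QuotientGroup.mk' N))) := inferInstance
  refine ⟨(P : Subgroup (K.comap (QuotientGroup.mk' N))).map (Subgroup.subtype _), P.2.map _,
    P.mapSurjective hf, ?_⟩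
  rw [Sylow.coe_mapSurjective, Subgroup.map_map, Subgroup.map_map]
  rfl

theorem map_mk_cj (x : G) (P : Subgroup G) :
    (cj x P).map (QuotientGroup.mk' N) = cj (x : G ⧸ N) (P.map (QuotientGroup.mk' N)) := by
  show (P.map (MulAut.conj x).toMonoidHom).map (QuotientGroup.mk' N) =
    (P.map (QuotientGroup.mk' N)).map (MulAut.conj (x : G ⧸ N)).toMonoidHom
  rw [Subgroup.map_map, Subgroup.map_map]
  congr 1

/-- The defect groups of a block of `G ⧸ N` contained in `B` lie in images of defect groups. -/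
theorem exists_isDefectGroup_map_ge [Fact p.Prime] (hM : IsPModular p M)
    {Bbar : Set (IrrCharacter (G ⧸ N))} (hBbar : IsPBlock M Bbar) {B : Set (IrrCharacter G)}
    (hB : IsPBlock M B)
    (hsub : ∀ χ ∈ Bbar, (⟨infl N (χ : G ⧸ N → ℂ), isIrrCharacter_infl N χ.2⟩ : IrrCharacter G) ∈ B)
    {Dbar : Subgroup (G ⧸ N)} (hDbar : IsDefectGroup p M Bbar Dbar) :
    ∃ P : Subgroup G, IsDefectGroup p M B P ∧ Dbar ≤ P.map (QuotientGroup.mk' N) := by
  have := IsPModular.isPrime hM
  obtain ⟨χ, hχ⟩ := IsPBlock.nonempty hBbar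
  have hcl := isClassFunction_coef (B.indicator 1)
  have hS := IsPBlock.indicator_mem_ZS hB
  have h1 : om (χ : G ⧸ N → ℂ) (push N (coef (B.indicator 1))) = 1 := by
    rw [← om_infl]
    have := om_coef (B.indicator 1) ⟨infl N (χ : G ⧸ N → ℂ), isIrrCharacter_infl N χ.2⟩
    rw [Set.indicator_of_mem (hsub χ hχ)] at this
    exact this
  rw [om_eq_sum_classes (irr_isClassFunction χ.2) (isClassFunction_push N hcl)] at h1
  -- a class with both factors units
  have h2 : ∃ q : G ⧸ N, ¬ MemLocalIdeal M (push N (coef (B.indicator 1)) q) ∧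
      ¬ MemLocalIdeal M (centralChar (χ : G ⧸ N → ℂ) q) := by
    by_contra hcon
    push Not at hcon
    apply not_memLocalIdeal_one (M := M)
    rw [← h1]
    refine MemLocalIdeal.sum _ fun C _ => ?_
    by_cases h3 : MemLocalIdeal M (push N (coef (B.indicator 1)) (Quotient.out C))
    · exact MemLocalIdeal.mul_right h3 (centralChar_memLocalRing χ.2 _)
    · exact MemLocalIdeal.mul_left (memLocalRing_push N hS _) (hcon _ h3)
  obtain ⟨q, hq1, hq2⟩ := h2
  obtain ⟨S, hSp, hSyl⟩ := exists_isSylIn_map (p := p) N (cen q)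
  obtain ⟨x, hxq, hx, hSx⟩ := exists_fixed_unit_of_push N hM hcl hS hq1 hSp hSyl.le
  obtain ⟨P, hP, hSP⟩ := exists_isDefectGroup_ge hM hB hx hSp hSx
  obtain ⟨g₀, hg₀, hD₀⟩ := isDefectGroup_iff.mp hDbar
  obtain ⟨t, ht⟩ := exists_le_cj_of_unit hM hBbar
    (not_memLocalIdeal_centralChar_of_exists hBbar ⟨χ, hχ, hq2⟩)
    (isDefectClass_iff.mp hg₀).2.1 hD₀.isPGroup hD₀.le hSyl
  obtain ⟨s, rfl⟩ := QuotientGroup.mk_surjective t
  refine ⟨cj s P, isDefectGroup_cj hP s, ?_⟩
  rw [map_mk_cj]
  exact ht.trans (cj_mono (Subgroup.map_mono hSP))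

/-- The inflation of an irreducible character, bundled. -/
def inflIrr (χ : IrrCharacter (G ⧸ N)) : IrrCharacter G :=
  ⟨infl N (χ : G ⧸ N → ℂ), isIrrCharacter_infl N χ.2⟩

theorem push_coef (a : IrrCharacter G → ℂ) :
    push N (coef a) = coef (fun χ : IrrCharacter (G ⧸ N) => a (inflIrr N χ)) := by
  apply eq_of_om_eq (isClassFunction_push N (isClassFunction_coef a)) (isClassFunction_coef _)
  intro χ hχ
  rw [← om_infl]
  have h1 := om_coef a (inflIrr N ⟨χ, hχ⟩)
  have h2 := om_coef (fun χ : IrrCharacter (G ⧸ N) => a (inflIrr N χ)) ⟨χ, hχ⟩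
  exact h1.trans h2.symm

/-- The image of a block idempotent is the sum of the idempotents of the dominated blocks. -/
theorem push_coef_indicator [M.IsPrime] {B : Set (IrrCharacter G)} (hB : IsPBlock M B)
    (q : G ⧸ N) :
    push N (coef (B.indicator 1)) q =
      ∑ b ∈ (blocksFinset M (G ⧸ N)).filter (fun b => ∀ χ ∈ b, inflIrr N χ ∈ B),
        coef (b.indicator 1) q := by
  rw [push_coef, coef_apply]
  have h1 : ∀ χ : IrrCharacter (G ⧸ N), (B.indicator 1 (inflIrr N χ) : ℂ) =
      {ξ : IrrCharacter (G ⧸ N) | (fun b => ∀ χ ∈ b, inflIrr N χ ∈ B)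
        (blockOf M (ξ : G ⧸ N → ℂ))}.indicator 1 χ := by
    intro χ
    by_cases hχ : inflIrr N χ ∈ B
    · have h3 : χ ∈ {ξ : IrrCharacter (G ⧸ N) | (fun b => ∀ χ ∈ b, inflIrr N χ ∈ B)
          (blockOf M (ξ : G ⧸ N → ℂ))} := by
        intro ψ hψ
        have h2 : SameBlock M (infl N (χ : G ⧸ N → ℂ)) (infl N (ψ : G ⧸ N → ℂ)) :=
          sameBlock_infl N χ.2 ψ.2 hψ
        rw [IsPBlock.eq_blockOf hB hχ]
        exact h2
      rw [Set.indicator_of_mem hχ, Set.indicator_of_mem h3]
      rfl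
    · have h3 : χ ∉ {ξ : IrrCharacter (G ⧸ N) | (fun b => ∀ χ ∈ b, inflIrr N χ ∈ B)
          (blockOf M (ξ : G ⧸ N → ℂ))} := by
        intro h
        exact hχ (h χ (mem_blockOf_self χ))
      rw [Set.indicator_of_notMem hχ, Set.indicator_of_notMem h3]
  rw [Finset.sum_congr rfl (fun χ _ => by rw [h1 χ]),
    sum_indicator_union (M := M) (fun b => ∀ χ ∈ b, inflIrr N χ ∈ B)
      (fun χ => (χ : G ⧸ N → ℂ) 1 * conj ((χ : G ⧸ N → ℂ) q)), Finset.mul_sum]
  refine Finset.sum_congr (by congr) fun b _ => ?_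
  rw [coef_apply]

/-- The value of the image of a block idempotent at a `p`-regular element centralizing the normal
`p`-subgroup `N`. -/
theorem push_coef_indicator_of_reg (hM : IsPModular p M) (hN : IsPGroup p N)
    {B : Set (IrrCharacter G)} (hB : IsPBlock M B) {g : G} (hg : ¬ p ∣ orderOf g)
    (hNg : N ≤ cen g) :
    push N (coef (B.indicator 1)) (g : G ⧸ N) = coef (B.indicator 1) g := by
  have : Fact p.Prime := ⟨hM.1⟩
  rw [push_apply, Finset.sum_eq_single g]
  · rw [if_pos rfl]
  · intro x _ hx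
    split_ifs with h
    · apply coef_indicator_eq_zero hM hB
      have hn : g⁻¹ * x ∈ N := QuotientGroup.eq.mp h.symm
      have hn1 : g⁻¹ * x ≠ 1 := by
        intro h1
        apply hx
        rw [inv_mul_eq_one] at h1
        exact h1.symm
      have hcomm : Commute g (g⁻¹ * x) :=
        (Subgroup.mem_centralizer_singleton_iff.mp (hNg hn)).symm
      obtain ⟨k, hk⟩ := (IsPGroup.iff_orderOf.mp hN) ⟨g⁻¹ * x, hn⟩
      rw [Subgroup.orderOf_mk] at hk
      have hk0 : k ≠ 0 := by
        rintro rfl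
        rw [pow_zero, orderOf_eq_one_iff] at hk
        exact hn1 hk
      have hcop : Nat.Coprime (orderOf g) (orderOf (g⁻¹ * x)) := by
        rw [hk]
        exact Nat.Coprime.pow_right _ ((Nat.coprime_comm.mp
          ((Nat.Prime.coprime_iff_not_dvd hM.1).mpr hg)))
      have h2 := hcomm.orderOf_mul_eq_mul_orderOf_of_coprime hcop
      rw [mul_inv_cancel_left] at h2
      rw [h2, hk]
      exact Dvd.dvd.mul_left (dvd_pow_self p hk0) _
    · rfl
  · intro h
    exact absurd (Finset.mem_univ _) h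

theorem card_map_mk_eq {P P' : Subgroup G} (hNP : N ≤ P) (hNP' : N ≤ P')
    (h : Nat.card P = Nat.card P') :
    Nat.card (P.map (QuotientGroup.mk' N)) = Nat.card (P'.map (QuotientGroup.mk' N)) := by
  have i1 : (P.map (QuotientGroup.mk' N)).index = P.index :=
    Subgroup.index_map_eq _ (QuotientGroup.mk'_surjective N) (by rwa [QuotientGroup.ker_mk'])
  have i2 : (P'.map (QuotientGroup.mk' N)).index = P'.index :=
    Subgroup.index_map_eq _ (QuotientGroup.mk'_surjective N) (by rwa [QuotientGroup.ker_mk'])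
  have h1 := P.card_mul_index
  have h2 := P'.card_mul_index
  have h3 : P.index = P'.index := by
    rw [h, ← h2] at h1
    exact Nat.eq_of_mul_eq_mul_left Nat.card_pos h1
  have h4 := (P.map (QuotientGroup.mk' N)).card_mul_index
  have h5 := (P'.map (QuotientGroup.mk' N)).card_mul_index
  rw [i1] at h4
  rw [i2, ← h3, ← h4] at h5
  exact (Nat.eq_of_mul_eq_mul_right (Nat.pos_of_ne_zero Subgroup.index_ne_zero_of_finite) h5).symm

/-- For a normal `p`-subgroup `N`, every block of `G` dominates a block of `G ⧸ N` whose defect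
groups are the images of its defect groups. -/
theorem exists_dominated_block [Fact p.Prime] (hM : IsPModular p M) (hN : IsPGroup p N)
    {B : Set (IrrCharacter G)} (hB : IsPBlock M B) {P : Subgroup G}
    (hP : IsDefectGroup p M B P) :
    ∃ Bbar : Set (IrrCharacter (G ⧸ N)), IsPBlock M Bbar ∧ (∀ χ ∈ Bbar, inflIrr N χ ∈ B) ∧
      IsDefectGroup p M Bbar (P.map (QuotientGroup.mk' N)) := by
  have := IsPModular.isPrime hM
  obtain ⟨g, hg, hPg⟩ := isDefectGroup_iff.mp hP
  have hNP : N ≤ P := normal_le_defectGroup hM hB hP inferInstance hN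
  have hreg := IsDefectClass.regular hM hB hg
  have h1 := push_coef_indicator_of_reg N hM hN hB hreg (hNP.trans hPg.le)
  rw [push_coef_indicator N hB] at h1
  have h2 : ∃ b ∈ (blocksFinset M (G ⧸ N)).filter (fun b => ∀ χ ∈ b, inflIrr N χ ∈ B),
      ¬ MemLocalIdeal M (coef (b.indicator 1) (g : G ⧸ N)) := by
    by_contra hcon
    push Not at hcon
    apply (isDefectClass_iff.mp hg).2.1
    rw [← h1]
    exact MemLocalIdeal.sum _ hcon
  obtain ⟨b, hb, hbg⟩ := h2
  rw [Finset.mem_filter, mem_blocksFinset] at hb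
  obtain ⟨hb1, hb2⟩ := hb
  refine ⟨b, hb1, hb2, ?_⟩
  have hPbar : P.map (QuotientGroup.mk' N) ≤ cen (g : G ⧸ N) := by
    rintro _ ⟨u, hu, rfl⟩
    have h3 : u * g = g * u := Subgroup.mem_centralizer_singleton_iff.mp (hPg.le hu)
    exact Subgroup.mem_centralizer_singleton_iff.mpr
      (congrArg (QuotientGroup.mk' N) h3)
  obtain ⟨Dbar, hDbar, hle⟩ := exists_isDefectGroup_ge hM hb1 hbg (hPg.isPGroup.map _) hPbar
  obtain ⟨P', hP', hle'⟩ := exists_isDefectGroup_map_ge N hM hb1 hB hb2 hDbar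
  have hNP' : N ≤ P' := normal_le_defectGroup hM hB hP' inferInstance hN
  have hcard := card_map_mk_eq N hNP hNP'
    ((IsDefectGroup.card_eq hM hB hP).trans (IsDefectGroup.card_eq hM hB hP').symm)
  have heq : P.map (QuotientGroup.mk' N) = Dbar := by
    apply Subgroup.eq_of_le_of_card_ge hle
    rw [hcard]
    exact Subgroup.card_le_of_le hle'
  rw [heq]
  exact hDbar

end

end Cfsg.Agent.Lib.Helper6
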