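import Mathlib
import Cfsg.Prelude.Def_Blocks
import Cfsg.Agent.Lib.Helper6.MajorSub5
import Cfsg.Agent.Lib.Helper6.CentralProd5
import Cfsg.Agent.Lib.Helper6.QuotDefect
import Cfsg.Agent.Lib.Helper23.DefectOne
import Cfsg.Agent.Lib.Helper23.Contrib5

/-!
# Blocks with Klein four defect groups I: local blocks
-/

set_option autoImplicit false
set_option linter.unusedSectionVars false

namespace Cfsg.Agent.Lib.Helper6

open Cfsg Cfsg.Agent.Lib.Helper2 Cfsg.Agent.Lib.Helper24 Cfsg.Agent.Lib.Helper23.Contrib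
open scoped ComplexConjugate Classical

attribute [local instance] irrFintype

section general

variable {G : Type*} [Group G] [Fintype G] {p : ℕ} {M : Ideal AlgInt}

/-- A block of `C_G(P)`, `P` abelian, inducing `B` gives a Brauer pair of `B`. -/
theorem isBrauerPairOf_of_induced_cz (hM : IsPModular p M) {P : Subgroup G} (hP : IsPGroup p P)
    (hab : P ≤ cz P) {c : Set (IrrCharacter (cz P))} {B : Set (IrrCharacter G)}
    (hc : IsInducedBlock M (cz P) c B) : IsBrauerPairOf p M B P c := by
  have := IsPModular.isPrime hM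
  obtain ⟨ξ, hξ⟩ := IsPBlock.nonempty hc.1
  have h1 : classInner ((ξ : cz P → ℂ) ∘ Subgroup.inclusion (le_refl (cz P)))
      (ξ : cz P → ℂ) ≠ 0 := by
    have e : (ξ : cz P → ℂ) ∘ Subgroup.inclusion (le_refl (cz P)) = (ξ : cz P → ℂ) := by
      funext x
      rfl
    rw [e, classInner_irr ξ.2 ξ.2, if_pos rfl]
    exact one_ne_zero
  have h2 := isBrauerPairOf_of_induced hM hP hab le_rfl (centralizer_le_nor P) hc hξ h1
  rwa [← IsPBlock.eq_blockOf hc.1 hξ] at h2

theorem blockRank_eq_one_of_two (hM : IsPModular 2 M) {B : Set (IrrCharacter G)}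
    (hB : IsPBlock M B) (hd : blockDefect 2 B = 1) : blockRank 2 B = 1 := by
  obtain ⟨χ, ψ, -, rfl, h1, -⟩ := Cfsg.Agent.Lib.Helper23.DefectOne.two_block_defect_one hM hB hd
  have e : pRegularPart 2 (ψ : G → ℂ) = pRegularPart 2 (χ : G → ℂ) := by
    funext x
    by_cases hx : 2 ∣ orderOf x
    · rw [pRegularPart_of_sing _ hx, pRegularPart_of_sing _ hx]
    · rw [pRegularPart_of_reg _ hx, pRegularPart_of_reg _ hx, h1 x hx]
  have hv : pRegularPart 2 (χ : G → ℂ) ≠ 0 := by
    intro h
    have h2 := congrFun h 1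
    rw [pRegularPart_of_reg _ (by rw [orderOf_one]; norm_num)] at h2
    exact irr_one_ne_zero χ.2 h2
  rw [blockRank, Set.image_pair, e, Set.pair_eq_singleton]
  exact finrank_span_singleton hv

/-- A `2`-block with a defect group of order four of a group with a central involution has
only one Brauer character. -/
theorem blockRank_eq_one_of_central_involution (hM : IsPModular 2 M) {B : Set (IrrCharacter G)}
    (hB : IsPBlock M B) {D : Subgroup G} (hD : IsDefectGroup 2 M B D) (hD4 : Nat.card D = 4)
    {u : G} (hu : u ∈ Subgroup.center G) (hu2 : orderOf u = 2) : blockRank 2 B = 1 := by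
  have := IsPModular.isPrime hM
  have : Fact (Nat.Prime 2) := ⟨Nat.prime_two⟩
  obtain ⟨N, hN⟩ : ∃ N : Subgroup G, N = Subgroup.zpowers u := ⟨_, rfl⟩
  have hNc : N ≤ Subgroup.center G := by
    rw [hN, Subgroup.zpowers_le]
    exact hu
  have : N.Normal := normal_of_le_center hNc
  have hreg : RegCent 2 N := regCent_of_le_center hNc
  have hNcard : Nat.card N = 2 := by rw [hN, Nat.card_zpowers, hu2]
  have hNp : IsPGroup 2 N := IsPGroup.of_card (n := 1) (by rw [hNcard]; rfl)
  obtain ⟨Bbar, hBbar, hsub, hDbar⟩ := exists_dominated_block N hM hNp hB hD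
  have hdefl : deflSet N B = Bbar := by
    obtain ⟨χ, hχ⟩ := IsPBlock.nonempty hBbar
    ext η
    constructor
    · intro hη
      have h1 : SameBlock M (η : G ⧸ N → ℂ) (χ : G ⧸ N → ℂ) := by
        apply sameBlock_of_infl_regCent N hM hNp hreg
        exact IsPBlock.sameBlock hB hη (hsub χ hχ)
      rw [IsPBlock.eq_blockOf hBbar hχ]
      exact SameBlock.symm h1
    · intro hη
      exact hsub η hη
  rw [blockRank_eq_deflSet N hM hNp hreg hB, hdefl]
  apply blockRank_eq_one_of_two hM hBbar
  have h1 := IsDefectGroup.card_eq hM hBbar hDbar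
  have hND : N ≤ D := normal_le_defectGroup hM hB hD inferInstance hNp
  have i1 : (D.map (QuotientGroup.mk' N)).index = D.index :=
    Subgroup.index_map_eq _ (QuotientGroup.mk'_surjective N) (by rwa [QuotientGroup.ker_mk'])
  have h2 := (D.map (QuotientGroup.mk' N)).card_mul_index
  have h3 := D.card_mul_index
  have h4 := Subgroup.card_eq_card_quotient_mul_card_subgroup N
  have h5 : D.index ≠ 0 := Subgroup.index_ne_zero_of_finite
  rw [i1] at h2
  rw [hD4] at h3
  rw [hNcard, ← h2, ← h3] at h4
  have h6 : Nat.card (D.map (QuotientGroup.mk' N)) = 2 := by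
    have : D.index * 4 = D.index * (Nat.card (D.map (QuotientGroup.mk' N)) * 2) := by
      rw [mul_comm, h4]; ring
    have := Nat.eq_of_mul_eq_mul_left (Nat.pos_of_ne_zero h5) this
    omega
  rw [h6] at h1
  have : (2 : ℕ) ^ 1 = 2 ^ blockDefect 2 Bbar := by rw [← h1, pow_one]
  exact (Nat.pow_right_injective le_rfl this).symm

end general

end Cfsg.Agent.Lib.Helper6
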