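import Mathlib
import Cfsg.Prelude.Def_Blocks
import Cfsg.Agent.Lib.Helper6.Klein1

/-!
# Blocks with Klein four defect groups II: the contributions of an involution
-/

set_option autoImplicit false
set_option linter.unusedSectionVars false

namespace Cfsg.Agent.Lib.Helper6

open Cfsg Cfsg.Agent.Lib.Helper2 Cfsg.Agent.Lib.Helper24 Cfsg.Agent.Lib.Helper23.Contrib
open Cfsg.Agent.Lib.Helper23.BrauerFeit Cfsg.Agent.Lib.Helper23.RegInner
open Cfsg.Agent.Lib.Helper23.RealBlock Cfsg.Agent.Lib.Helper23.CycNorm Polynomial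
open scoped ComplexConjugate Classical

attribute [local instance] irrFintype

section count

theorem klein_count {ι : Type*} (S : Finset ι) (A : ι → ι → ℤ) (χ0 : ι) (h0 : χ0 ∈ S)
    (hsum : ∑ χ ∈ S, A χ χ = 4) (hpos : ∀ χ ∈ S, 1 ≤ A χ χ) (hodd : Odd (A χ0 χ0))
    (hrow : ∑ ψ ∈ S, (A χ0 ψ) ^ 2 = 4 * A χ0 χ0) : S.card = 4 ∧ ∀ χ ∈ S, A χ χ = 1 := by
  set a := A χ0 χ0 with ha
  have h1 : a + ∑ χ ∈ S.erase χ0, A χ χ = 4 := by
    rw [ha, Finset.add_sum_erase S (fun χ => A χ χ) h0, hsum]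
  have h2 : a ^ 2 + ∑ ψ ∈ S.erase χ0, (A χ0 ψ) ^ 2 = 4 * a := by
    rw [ha, Finset.add_sum_erase S (fun ψ => (A χ0 ψ) ^ 2) h0, hrow]
  have hc : ((S.erase χ0).card : ℤ) ≤ ∑ χ ∈ S.erase χ0, A χ χ := by
    have := Finset.sum_le_sum (s := S.erase χ0) (f := fun _ => (1 : ℤ)) (g := fun χ => A χ χ)
      (fun χ hχ => hpos χ (Finset.mem_of_mem_erase hχ))
    simpa using this
  have ha1 : 1 ≤ a := hpos χ0 h0
  have hc0 : (0 : ℤ) ≤ ((S.erase χ0).card : ℤ) := by positivity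
  have ha4 : a ≤ 4 := by linarith
  have ha13 : a = 1 ∨ a = 3 := by
    obtain ⟨k, hk⟩ := hodd
    omega
  have h3 : ∑ ψ ∈ S.erase χ0, (A χ0 ψ) ^ 2 = 3 := by
    rcases ha13 with h | h <;> rw [h] at h2 <;> linarith
  have h4 : ∀ ψ ∈ S.erase χ0, (A χ0 ψ) ^ 2 ≤ 1 := by
    intro ψ hψ
    have h5 := Finset.single_le_sum (f := fun ψ => (A χ0 ψ) ^ 2) (fun i _ => sq_nonneg _) hψ
    rw [h3] at h5
    have h6 : -1 ≤ A χ0 ψ ∧ A χ0 ψ ≤ 1 := by
      constructor <;> nlinarith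
    nlinarith
  have h5 : (3 : ℤ) ≤ ((S.erase χ0).card : ℤ) := by
    have := Finset.sum_le_sum h4
    rw [h3] at this
    simpa using this
  have ha' : a = 1 := by
    rcases ha13 with h | h
    · exact h
    · linarith
  have hcard : ((S.erase χ0).card : ℤ) = 3 := by linarith
  have hcard' : (S.erase χ0).card = 3 := by exact_mod_cast hcard
  refine ⟨?_, ?_⟩
  · rw [Finset.card_erase_of_mem h0] at hcard'
    have := Finset.card_pos.mpr ⟨χ0, h0⟩
    omega
  · have h6 : ∑ χ ∈ S.erase χ0, (A χ χ - 1) = 0 := by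
      rw [Finset.sum_sub_distrib]
      simp only [Finset.sum_const, nsmul_eq_mul, mul_one]
      linarith
    have h7 := (Finset.sum_eq_zero_iff_of_nonneg (fun χ hχ => by
      have := hpos χ (Finset.mem_of_mem_erase hχ)
      linarith)).mp h6
    intro χ hχ
    by_cases hχ0 : χ = χ0
    · rw [hχ0]; exact ha'
    · have := h7 χ (Finset.mem_erase.mpr ⟨hχ0, hχ⟩)
      linarith

end count

variable {G : Type*} [Group G] [Fintype G] {H : Subgroup G} {p : ℕ}
  {M : Ideal AlgInt}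

/-- `p^d m(χ, ψ)` is a local integer. -/
theorem pow_mul_mc_memLocalRing [Fact p.Prime] (hM : IsPModular p M) {x : H}
    (hx : IsCenOf p x) {f : Set (IrrCharacter H)} {B : Set (IrrCharacter G)}
    (hind : IsInducedBlock M H f B) (hq : blockDefect p f = blockDefect p B)
    (χ ψ : IrrCharacter G) :
    MemLocalRing M ((p : ℂ) ^ blockDefect p f * mc p f x (χ : G → ℂ) (ψ : G → ℂ)) := by
  have := IsPModular.isPrime hM
  have hp : p.Prime := hM.1
  by_cases hψ : ψ ∈ B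
  · have h5 := card_mul_mc hM hx hind.1 χ ψ
    have hG0 : (Nat.card G : ℂ) ≠ 0 := card_ne_zero_complex
    have hd0 : charDegree (ψ : G → ℂ) ≠ 0 := (charDegree_pos ψ.2).ne'
    have e : (p : ℂ) ^ blockDefect p f * mc p f x (χ : G → ℂ) (ψ : G → ℂ) =
        (((p ^ blockDefect p f * charDegree (ψ : G → ℂ) : ℕ) : ℂ) / ((Nat.card G : ℕ) : ℂ)) *
          om (conjI ψ : G → ℂ) (secFun p f x (χ : G → ℂ)) := by
      have h6 : mc p f x (χ : G → ℂ) (ψ : G → ℂ) = (ψ : G → ℂ) 1 *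
          om (conjI ψ : G → ℂ) (secFun p f x (χ : G → ℂ)) / (Nat.card G : ℂ) := by
        rw [← h5]
        field_simp
      push_cast
      rw [charDegree_cast (IsIrrCharacter.isCharacter ψ.2), h6]
      field_simp
    rw [e]
    refine MemLocalRing.mul (memLocalRing_natCast_div hM
      (mul_ne_zero (pow_ne_zero _ hp.ne_zero) hd0) Nat.card_pos.ne' ?_)
      (om_memLocalRing (conjI ψ).2 (isClassFunction_secFun (p := p) f x (χ : G → ℂ))
        (fun g => memLocalRing_of_isIntegral (isIntegral_secFun hp hx f χ g)))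
    rw [Nat.factorization_mul (pow_ne_zero _ hp.ne_zero) hd0, Finsupp.add_apply,
      Nat.Prime.factorization_pow hp, Finsupp.single_eq_same, hq]
    have := factorization_degree_add (p := p) hψ
    omega
  · rw [mc_eq_zero_right hM hx hind _ hψ, mul_zero]
    exact memLocalRing_zero

/-- For an involution the numbers `2^d m(χ, ψ)` are rational integers. -/
theorem exists_int_mc (hM : IsPModular 2 M) {x : H} (hx : IsCenOf 2 x) (hx2 : x ^ 2 = 1)
    {f : Set (IrrCharacter H)} {B : Set (IrrCharacter G)}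
    (hind : IsInducedBlock M H f B) (hq : blockDefect 2 f = blockDefect 2 B)
    (χ ψ : IrrCharacter G) :
    ∃ y : ℤ, ((2 : ℕ) : ℂ) ^ blockDefect 2 f * mc 2 f x (χ : G → ℂ) (ψ : G → ℂ) = (y : ℂ) := by
  have : Fact (Nat.Prime 2) := ⟨Nat.prime_two⟩
  have hζ : IsPrimitiveRoot (-1 : ℂ) 2 := IsPrimitiveRoot.neg_one 0 (by norm_num)
  obtain ⟨idx, h1, h2, h3⟩ := exists_idx hx (N := 2) (by norm_num) hx2 hζ
  have h4 := aeval_PP_zeta hx f h2 h3 χ ψ
  set P := PP 2 f 2 idx χ ψ with hP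
  have h5 : aeval (-1 : ℂ) P = ((P.eval (-1) : ℚ) : ℂ) := by
    have := Polynomial.aeval_algebraMap_apply ℂ (-1 : ℚ) P
    rw [map_neg, map_one] at this
    rw [this, eq_ratCast, Polynomial.coe_aeval_eq_eval]
  have h6 : MemLocalRing M ((P.eval (-1) : ℚ) : ℂ) := by
    rw [← h5, h4]
    exact pow_mul_mc_memLocalRing hM hx hind hq χ ψ
  have h7 : IsIntegral ℤ (((2 : ℕ) : ℂ) ^ (Nat.card H).factorization 2 *
      ((P.eval (-1) : ℚ) : ℂ)) := by
    rw [← h5, hP, aeval_PP]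
    have hint : ∀ i : ℕ, IsIntegral ℤ ((-1 : ℂ) ^ i) := fun i =>
      IsIntegral.pow (IsIntegral.neg isIntegral_one) i
    exact isIntegral_EE (p := 2) f (fun ξ => hint _) (fun ξ => hint _) χ ψ
  obtain ⟨y, hy⟩ := exists_int_of_memLocalRing hM h7 h6
  refine ⟨y, ?_⟩
  rw [← h4, h5, hy]
  push_cast
  rfl

/-- The contributions of a major subsection `(x, f)` with `x` an involution, `l(f) = 1`, for a
block of defect two. -/
theorem klein_contrib (hM : IsPModular 2 M) {x : H} (hx : IsCenOf 2 x) (hx2 : x ^ 2 = 1)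
    {f : Set (IrrCharacter H)} {B : Set (IrrCharacter G)}
    (hind : IsInducedBlock M H f B) (hq : blockDefect 2 f = blockDefect 2 B)
    (hd : blockDefect 2 B = 2) (hl : blockRank 2 f = 1) :
    Nat.card B = 4 ∧ ∀ χ : IrrCharacter G, χ ∈ B → mc 2 f x (χ : G → ℂ) (χ : G → ℂ) = 1 / 4 := by
  have := IsPModular.isPrime hM
  have : Fact (Nat.Prime 2) := ⟨Nat.prime_two⟩
  have hex := exists_int_mc hM hx hx2 hind hq
  choose A hA using hex
  rw [hq, hd] at hA
  have hA' : ∀ χ ψ : IrrCharacter G, (A χ ψ : ℂ) = 4 * mc 2 f x (χ : G → ℂ) (ψ : G → ℂ) := by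
    intro χ ψ
    rw [← hA]
    norm_num
  obtain ⟨χ0, hχ0, hh0⟩ := Cfsg.Agent.Lib.Helper23.BrauerFeit.exists_height_zero 2
    (IsPBlock.nonempty hind.2.1)
  set S : Finset (IrrCharacter G) := Finset.univ.filter (· ∈ B) with hS
  have hmem : ∀ χ, χ ∈ S ↔ χ ∈ B := fun χ => by simp [hS]
  have key := klein_count S A χ0 ((hmem χ0).mpr hχ0) ?_ ?_ ?_ ?_
  · refine ⟨?_, fun χ hχ => ?_⟩
    · rw [← key.1, hS, Nat.card_eq_fintype_card, Fintype.card_subtype]
    · have h1 := hA' χ χ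
      rw [key.2 χ ((hmem χ).mpr hχ)] at h1
      push_cast at h1
      rw [eq_div_iff (by norm_num : (4 : ℂ) ≠ 0), mul_comm, ← h1]
  · have h1 := sum_mc_diag hM hx hind
    rw [hl] at h1
    have h2 : ((∑ χ ∈ S, A χ χ : ℤ) : ℂ) = ((4 : ℤ) : ℂ) := by
      push_cast
      rw [hS, Finset.sum_filter]
      have h3 : ∀ χ : IrrCharacter G, (if χ ∈ B then (A χ χ : ℂ) else 0) =
          4 * (B.indicator 1 χ * mc 2 f x (χ : G → ℂ) (χ : G → ℂ)) := by
        intro χ
        by_cases hχ : χ ∈ B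
        · rw [if_pos hχ, Set.indicator_of_mem hχ, hA', Pi.one_apply, one_mul]
        · rw [if_neg hχ, Set.indicator_of_notMem hχ, zero_mul, mul_zero]
      rw [Finset.sum_congr rfl fun χ _ => h3 χ, ← Finset.mul_sum, h1]
      norm_num
    exact_mod_cast h2
  · intro χ hχ
    have hχB := (hmem χ).mp hχ
    have h1 := hA' χ χ
    have hne := mc_self_ne_zero hM hx hind hq hχB
    rw [mc_self_eq] at h1 hne
    have hnn := mc_self_nonneg (p := 2) f x (χ : G → ℂ)
    set r := (Nat.card H : ℝ)⁻¹ * ∑ c : H, ‖fpart 2 f x (χ : G → ℂ) c‖ ^ 2 with hr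
    have h2 : ((A χ χ : ℤ) : ℝ) = 4 * r := by exact_mod_cast h1
    have h3 : r ≠ 0 := fun h => hne (by rw [h]; simp)
    have h4 : (0 : ℝ) < (A χ χ : ℤ) := by
      rw [h2]
      have : 0 < r := lt_of_le_of_ne hnn (Ne.symm h3)
      linarith
    have h5 : 0 < A χ χ := by exact_mod_cast h4
    omega
  · have h1 := (pow_mul_mc_unit hM hx hind hχ0 hh0 hχ0 hh0).2
    rw [hq, hd] at h1
    have h2 : ((2 : ℕ) : ℂ) ^ 2 * mc 2 f x (χ0 : G → ℂ) (χ0 : G → ℂ) = (A χ0 χ0 : ℂ) := hA χ0 χ0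
    rw [h2, memLocalIdeal_intCast_iff hM] at h1
    rw [← Int.not_even_iff_odd, even_iff_two_dvd]
    exact_mod_cast h1
  · have h1 := sum_mc_sq_row hM hx hind (χ0 : G → ℂ)
    have h2 : ((∑ ψ ∈ S, (A χ0 ψ) ^ 2 : ℤ) : ℂ) = ((4 * A χ0 χ0 : ℤ) : ℂ) := by
      push_cast
      rw [hS, Finset.sum_filter, hA' χ0 χ0, ← h1, Finset.mul_sum, Finset.mul_sum]
      refine Finset.sum_congr rfl fun ψ _ => ?_
      by_cases hψ : ψ ∈ B
      · rw [if_pos hψ, Set.indicator_of_mem hψ, Pi.one_apply, one_mul]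
        have h3 : conj (mc 2 f x (χ0 : G → ℂ) (ψ : G → ℂ)) = mc 2 f x (χ0 : G → ℂ) (ψ : G → ℂ) := by
          have h4 : mc 2 f x (χ0 : G → ℂ) (ψ : G → ℂ) = (A χ0 ψ : ℂ) / 4 := by
            rw [hA']; ring
          rw [h4, map_div₀, map_intCast]
          congr 1
          exact Complex.conj_ofNat 4
        rw [h3, hA']
        ring
      · rw [if_neg hψ, Set.indicator_of_notMem hψ, zero_mul, mul_zero, mul_zero]
    exact_mod_cast h2

end Cfsg.Agent.Lib.Helper6
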