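import Mathlib
import Cfsg.Prelude.Def_Blocks
import Cfsg.Agent.Lib.Helper6.Klein2

/-!
# Blocks with Klein four defect groups III: the inertial quotient
-/

set_option autoImplicit false
set_option linter.unusedSectionVars false

namespace Cfsg.Agent.Lib.Helper6

open Cfsg Cfsg.Agent.Lib.Helper2 Cfsg.Agent.Lib.Helper24
open scoped Classical

section perm

theorem perm_three_trans {α : Type*} [Fintype α] (hα : Fintype.card α = 4)
    (σ : Equiv.Perm α) (h3 : σ ^ 3 = 1) (hne : σ ≠ 1) (o : α) (ho : σ o = o) (u z : α)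
    (hu : u ≠ o) (hz : z ≠ o) : ∃ k : ℕ, (σ ^ k) u = z := by
  obtain ⟨y, hy⟩ : ∃ y, σ y ≠ y := by
    by_contra hcon
    push Not at hcon
    exact hne (Equiv.ext hcon)
  have h3y : ∀ w, σ (σ (σ w)) = w := fun w => by
    have := congrArg (fun τ : Equiv.Perm α => τ w) h3
    simpa [pow_succ, Equiv.Perm.mul_apply] using this
  have hyo : y ≠ o := fun h => hy (by rw [h, ho])
  have h1o : σ y ≠ o := fun h => hyo (σ.injective (h.trans ho.symm))
  have h2o : σ (σ y) ≠ o := fun h => h1o (σ.injective (h.trans ho.symm))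
  have h21 : σ (σ y) ≠ σ y := fun h => hy (σ.injective h)
  have h20 : σ (σ y) ≠ y := fun h => hy (by
    have := h3y y
    rw [h] at this
    exact this)
  have hF : ({o, y, σ y, σ (σ y)} : Finset α) = Finset.univ := by
    apply Finset.eq_univ_of_card
    rw [hα, Finset.card_insert_of_notMem, Finset.card_insert_of_notMem,
      Finset.card_insert_of_notMem, Finset.card_singleton]
    · simpa using h21.symm
    · simp only [Finset.mem_insert, Finset.mem_singleton, not_or]
      exact ⟨hy.symm, h20.symm⟩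
    · simp only [Finset.mem_insert, Finset.mem_singleton, not_or]
      exact ⟨hyo.symm, h1o.symm, h2o.symm⟩
  have hmem : ∀ w, w ≠ o → w = y ∨ w = σ y ∨ w = σ (σ y) := by
    intro w hw
    have : w ∈ ({o, y, σ y, σ (σ y)} : Finset α) := by rw [hF]; exact Finset.mem_univ w
    simp only [Finset.mem_insert, Finset.mem_singleton] at this
    rcases this with h | h
    · exact absurd h hw
    · exact h
  have hp1 : ∀ w, (σ ^ 1) w = σ w := fun w => by simp
  have hp2 : ∀ w, (σ ^ 2) w = σ (σ w) := fun w => by simp [pow_succ, Equiv.Perm.mul_apply]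
  have hp0 : ∀ w, (σ ^ 0) w = w := fun w => by simp
  rcases hmem u hu with rfl | rfl | rfl <;> rcases hmem z hz with rfl | rfl | rfl
  · exact ⟨0, hp0 _⟩
  · exact ⟨1, hp1 _⟩
  · exact ⟨2, hp2 _⟩
  · exact ⟨2, by rw [hp2, h3y]⟩
  · exact ⟨0, hp0 _⟩
  · exact ⟨1, hp1 _⟩
  · exact ⟨1, by rw [hp1, h3y]⟩
  · exact ⟨2, by rw [hp2, h3y]⟩
  · exact ⟨0, hp0 _⟩

end perm

section grp

variable {G : Type*} [Group G] [Finite G]

/-- the action of a subgroup of the normalizer of `P` on `P` -/
noncomputable def nrmPerm {P T : Subgroup G} (hTN : T ≤ Subgroup.normalizer (P : Set G)) :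
    T →* Equiv.Perm P :=
  (MulAut.toPerm P).comp (P.normalizerMonoidHom.comp (Subgroup.inclusion hTN))

theorem nrmPerm_apply {P T : Subgroup G} (hTN : T ≤ Subgroup.normalizer (P : Set G)) (t : T)
    (x : P) : ((nrmPerm hTN t x : P) : G) = (t : G) * x * (t : G)⁻¹ := rfl

theorem nrmPerm_ker {P T : Subgroup G} (hTN : T ≤ Subgroup.normalizer (P : Set G)) :
    (nrmPerm hTN).ker = (cz P).subgroupOf T := by
  ext t
  rw [MonoidHom.mem_ker, Subgroup.mem_subgroupOf, Subgroup.mem_centralizer_iff]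
  constructor
  · intro h x hx
    have h1 := congrArg (fun σ : Equiv.Perm P => ((σ ⟨x, hx⟩ : P) : G)) h
    simp only [nrmPerm_apply, Equiv.Perm.coe_one, id_eq] at h1
    conv_lhs => rw [← h1]
    group
  · intro h
    ext x
    rw [nrmPerm_apply, Equiv.Perm.coe_one, id_eq, ← h x x.2]
    group

theorem relIndex_dvd_factorial {P T : Subgroup G} (hTN : T ≤ Subgroup.normalizer (P : Set G)) :
    (cz P).relIndex T ∣ (Nat.card P).factorial := by
  rw [Subgroup.relIndex, ← nrmPerm_ker hTN, Subgroup.index_ker]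
  have := Subgroup.card_subgroup_dvd_card (nrmPerm hTN).range
  rwa [Nat.card_perm] at this

theorem klein_relIndex {P T : Subgroup G} (hTN : T ≤ Subgroup.normalizer (P : Set G))
    (hP : Nat.card P = 4) (hodd : ¬ 2 ∣ (cz P).relIndex T) :
    (cz P).relIndex T = 1 ∨ (cz P).relIndex T = 3 := by
  have h1 := relIndex_dvd_factorial hTN
  rw [hP] at h1
  have h2 : (cz P).relIndex T ∣ 24 := h1
  have h3 := Nat.le_of_dvd (by norm_num) h2
  generalize (cz P).relIndex T = e at *
  interval_cases e <;> omega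

theorem klein_transitive {P T : Subgroup G} (hTN : T ≤ Subgroup.normalizer (P : Set G))
    (hP : Nat.card P = 4) (h3 : (cz P).relIndex T = 3) {u z : G} (hu : u ∈ P) (hz : z ∈ P)
    (hu1 : u ≠ 1) (hz1 : z ≠ 1) : ∃ t ∈ T, t * u * t⁻¹ = z := by
  have hidx : (nrmPerm hTN).ker.index = 3 := by
    rw [nrmPerm_ker hTN]
    exact h3
  obtain ⟨t, ht⟩ : ∃ t : T, t ∉ (nrmPerm hTN).ker := by
    by_contra hcon
    push Not at hcon
    have : (nrmPerm hTN).ker = ⊤ := by
      rw [eq_top_iff]
      intro t _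
      exact hcon t
    rw [this, Subgroup.index_top] at hidx
    omega
  have h4 := Subgroup.pow_index_mem (nrmPerm hTN).ker t
  rw [hidx, MonoidHom.mem_ker, map_pow] at h4
  let _ : Fintype P := Fintype.ofFinite P
  have hcard : Fintype.card P = 4 := by rw [← Nat.card_eq_fintype_card, hP]
  obtain ⟨k, hk⟩ := perm_three_trans hcard (nrmPerm hTN t) h4 ht 1
    (by apply Subtype.ext; rw [nrmPerm_apply]; simp) ⟨u, hu⟩ ⟨z, hz⟩
    (fun h => hu1 (congrArg Subtype.val h)) (fun h => hz1 (congrArg Subtype.val h))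
  refine ⟨((t ^ k : T) : G), (t ^ k).2, ?_⟩
  rw [← map_pow] at hk
  have := congrArg Subtype.val hk
  rwa [nrmPerm_apply] at this

end grp

end Cfsg.Agent.Lib.Helper6
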