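import Mathlib
import Cfsg.Prelude.Def_Blocks
import Cfsg.Agent.Lib.Helper6.Klein3

/-!
# Blocks with Klein four defect groups IV: sections
-/

set_option autoImplicit false
set_option linter.unusedSectionVars false

namespace Cfsg.Agent.Lib.Helper6

open Cfsg Cfsg.Agent.Lib.Helper2 Cfsg.Agent.Lib.Helper24 Cfsg.Agent.Lib.Helper23.Contrib
open scoped ComplexConjugate Classical

attribute [local instance] irrFintype

section basic

variable {K : Type*} [Group K] [Fintype K] {p : ℕ}

theorem classInner_self_eq (F : K → ℂ) :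
    classInner F F = (((Nat.card K : ℝ)⁻¹ * ∑ c : K, ‖F c‖ ^ 2 : ℝ) : ℂ) := by
  rw [classInner]
  push_cast
  congr 1
  refine Finset.sum_congr rfl fun c _ => ?_
  rw [Complex.mul_conj, Complex.normSq_eq_norm_sq]
  push_cast
  rfl

theorem classInner_self_nonneg (F : K → ℂ) :
    0 ≤ (Nat.card K : ℝ)⁻¹ * ∑ c : K, ‖F c‖ ^ 2 := by positivity

theorem classInner_regPart_eq_self (F : K → ℂ) :
    classInner (regPart p F) F = classInner (regPart p F) (regPart p F) := by
  rw [classInner, classInner]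
  congr 1
  refine Finset.sum_congr rfl fun s _ => ?_
  by_cases hs : p ∣ orderOf s
  · rw [regPart_of_dvd _ hs, zero_mul, zero_mul]
  · rw [regPart_of_not_dvd _ hs]

theorem isPPart_one_of_reg {g : K} (hg : ¬ p ∣ orderOf g) : IsPPart p g 1 :=
  ⟨g, one_mul g, Commute.one_left g, ⟨0, by rw [orderOf_one, pow_zero]⟩, hg⟩

theorem IsPPart.eq_one_of_reg (hp : p.Prime) {g y : K} (h : IsPPart p g y)
    (hg : ¬ p ∣ orderOf g) : y = 1 := IsPPart.unique hp h (isPPart_one_of_reg hg)

end basic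

variable {G : Type*} [Group G] [Fintype G] {p : ℕ} {M : Ideal AlgInt}

theorem PLE_unique' (hM : IsPModular p M) {a b c : BrauerPairIdx G} (ha : PLE p M a c)
    (hb : PLE p M b c) (h : a.1 = b.1) : a = b := by
  obtain ⟨Q, f⟩ := a
  obtain ⟨Q', f'⟩ := b
  simp only at h
  subst h
  rw [PLE_unique hM _ c Q f f' rfl ha hb]

section sec

variable {H : Subgroup G}

theorem secFun_eq_zero_of_reg (hp : p.Prime) {x : H} (hx : IsCenOf p x) (hx1 : (x : G) ≠ 1)
    (f : Set (IrrCharacter H)) (χ : G → ℂ) {g : G} (hg : ¬ p ∣ orderOf g) :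
    secFun p f x χ g = 0 := by
  rw [secFun]
  apply lift_eq_zero hp hx (fpart_of_dvd _ _ _) (isPPart_one_of_reg hg)
  intro hc
  apply hx1
  obtain ⟨r, hr⟩ := isConj_iff.mp hc
  rw [← hr]
  group

theorem classInner_regPart_secFun (hp : p.Prime) {x : H} (hx : IsCenOf p x) (hx1 : (x : G) ≠ 1)
    (f : Set (IrrCharacter H)) (χ ψ : G → ℂ) :
    classInner (regPart p ψ) (secFun p f x χ) = 0 := by
  rw [classInner, Finset.sum_eq_zero, mul_zero]
  intro g _
  by_cases hg : p ∣ orderOf g
  · rw [regPart_of_dvd _ hg, zero_mul]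
  · rw [secFun_eq_zero_of_reg hp hx hx1 f χ hg, map_zero, mul_zero]

theorem classInner_secFun_regPart (hp : p.Prime) {x : H} (hx : IsCenOf p x) (hx1 : (x : G) ≠ 1)
    (f : Set (IrrCharacter H)) (χ ψ : G → ℂ) :
    classInner (secFun p f x χ) (regPart p ψ) = 0 := by
  rw [← classInner_conj_symm, classInner_regPart_secFun hp hx hx1, map_zero]

theorem classInner_secFun_irr (hM : IsPModular p M) {x : H} (hx : IsCenOf p x)
    {f : Set (IrrCharacter H)} (hf : IsPBlock M f) (χ : IrrCharacter G) :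
    classInner (secFun p f x (χ : G → ℂ)) (χ : G → ℂ) = mc p f x (χ : G → ℂ) (χ : G → ℂ) := by
  rw [secFun, classInner_lift _ _ (irr_isClassFunction χ.2),
    classInner_fpart_tw hM hx hf _ (irr_isClassFunction χ.2)]

theorem classInner_secFun_self (hp : p.Prime) {x : H} (hx : IsCenOf p x)
    (f : Set (IrrCharacter H)) (χ : G → ℂ) :
    classInner (secFun p f x χ) (secFun p f x χ) = mc p f x χ χ := by
  rw [secFun, classInner_lift_lift hp hx (fpart_of_dvd _ _ _)
    (isClassFunction_fpart hx _ _) (fpart_of_dvd _ _ _)]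
  rfl

/-- if only one block of `H` induces `B`, its part of `χ` on the section is everything -/
theorem fpart_eq_regPart_tw (hM : IsPModular p M) {x : H} (hx : IsCenOf p x)
    (hdef : ∀ b : Set (IrrCharacter H), IsPBlock M b → InducedBlockDefined M H b)
    {B : Set (IrrCharacter G)} (hB : IsPBlock M B) {f : Set (IrrCharacter H)}
    (hf : IsInducedBlock M H f B) (huniq : ∀ b, IsInducedBlock M H b B → b = f)
    {χ : IrrCharacter G} (hχ : χ ∈ B) :
    fpart p f x (χ : G → ℂ) = regPart p (tw x (χ : G → ℂ)) := by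
  have := IsPModular.isPrime hM
  have hset : indSet M H B = f := by
    ext ξ
    constructor
    · intro h
      have h1 : IsInducedBlock M H (blockOf M (ξ : H → ℂ)) B := h
      rw [← huniq _ h1]
      exact mem_blockOf_self ξ
    · intro h
      show IsInducedBlock M H (blockOf M (ξ : H → ℂ)) B
      rw [← IsPBlock.eq_blockOf hf.1 h]
      exact hf
  ext s
  rw [fpart]
  by_cases hs : p ∣ orderOf s
  · rw [regPart_of_dvd _ hs, regPart_of_dvd _ hs]
  · rw [regPart_of_not_dvd _ hs, regPart_of_not_dvd _ hs, ← hset,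
      bPart_indSet_eq hM hx hdef hB hχ hs]

/-- if `χ` lives on the `p`-regular elements and the section of `x` -/
theorem classInner_regPart_add_mc (hM : IsPModular p M) {x : H} (hx : IsCenOf p x)
    (hx1 : (x : G) ≠ 1) {f : Set (IrrCharacter H)} (hfb : IsPBlock M f) {χ : IrrCharacter G}
    (hfp : fpart p f x (χ : G → ℂ) = regPart p (tw x (χ : G → ℂ)))
    (hvan : ∀ g y : G, IsPPart p g y → y ≠ 1 → ¬ IsConj y (x : G) → (χ : G → ℂ) g = 0) :
    classInner (regPart p (χ : G → ℂ)) (χ : G → ℂ) + mc p f x (χ : G → ℂ) (χ : G → ℂ) = 1 := by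
  have hp : p.Prime := hM.1
  have hdec : (χ : G → ℂ) = regPart p (χ : G → ℂ) + secFun p f x (χ : G → ℂ) := by
    ext g
    rw [Pi.add_apply]
    obtain ⟨y, hy⟩ := exists_isPPart hp g
    by_cases hg : p ∣ orderOf g
    · rw [regPart_of_dvd _ hg, zero_add]
      have hy1 : y ≠ 1 := by
        rintro rfl
        obtain ⟨w, hw, -, -, hw2⟩ := hy
        rw [one_mul] at hw
        rw [hw] at hw2
        exact hw2 hg
      by_cases hc : IsConj y (x : G)
      · rw [secFun, hfp, lift_regPart_tw hp hx (irr_isClassFunction χ.2) hy hc]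
      · rw [hvan g y hy hy1 hc, secFun, lift_eq_zero hp hx (fpart_of_dvd _ _ _) hy hc]
    · rw [regPart_of_not_dvd _ hg, secFun_eq_zero_of_reg hp hx hx1 f _ hg, add_zero]
  have h1 : classInner (χ : G → ℂ) (χ : G → ℂ) = 1 := by
    rw [classInner_irr χ.2 χ.2, if_pos rfl]
  have h2 := congrArg (fun F => classInner F (χ : G → ℂ)) hdec
  rw [h1, classInner_add_left, classInner_secFun_irr hM hx hfb] at h2
  exact h2.symm

end sec

/-- If fusion of `u` in `P` is controlled by `T = N_G(P, c)` then only one block of `C_G(u)`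
induces `B`. -/
theorem unique_block_of_control (hM : IsPModular p M) {B : Set (IrrCharacter G)}
    {P : Subgroup G} {c : Set (IrrCharacter (cz P))} (hmax : IsMaximalBrauerPair p M B P c)
    (T : Subgroup G)
    (hT : ∀ g, g ∈ T ↔ g ∈ Subgroup.normalizer (P : Set G) ∧ StabilizesBlock (cz P) c g)
    {u : G} (hu : u ∈ P)
    (htr : ∀ z ∈ P, (∃ g, g * u * g⁻¹ = z) → ∃ t ∈ T, t * u * t⁻¹ = z)
    {f : Set (IrrCharacter (cz (Subgroup.zpowers u)))}
    (hle : SubpairLE p M (Subgroup.zpowers u) f P c)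
    {b : Set (IrrCharacter (cz (Subgroup.zpowers u)))}
    (hb : IsInducedBlock M (cz (Subgroup.zpowers u)) b B) : b = f := by
  have hQP : Subgroup.zpowers u ≤ P := Subgroup.zpowers_le.mpr hu
  have hQp : IsPGroup p (Subgroup.zpowers u) := hmax.1.1.1.to_le hQP
  have hQab : Subgroup.zpowers u ≤ cz (Subgroup.zpowers u) := by
    rw [Subgroup.zpowers_le]
    exact cen_le_centralizer_zpowers u (Subgroup.mem_centralizer_singleton_iff.mpr rfl)
  have hpair := isBrauerPairOf_of_induced_cz hM hQp hQab hb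
  obtain ⟨x, hx⟩ := exists_conj_le_maximal hM hmax hpair
  have hx' : PLE p M (cjIdx x ⟨Subgroup.zpowers u, b⟩) ⟨P, c⟩ := hx
  have hz : x * u * x⁻¹ ∈ P := by
    apply PLE.le hx'
    exact ⟨u, Subgroup.mem_zpowers u, rfl⟩
  obtain ⟨t, ht, htz⟩ := htr _ hz ⟨x, rfl⟩
  have h1 : PLE p M (cjIdx t ⟨Subgroup.zpowers u, f⟩) (cjIdx t ⟨P, c⟩) := PLE_cjIdx t hle
  rw [cjIdx_eq_self_iff.mpr ((hT t).mp ht)] at h1
  have h2 : cjIdx x ⟨Subgroup.zpowers u, b⟩ = cjIdx t ⟨Subgroup.zpowers u, f⟩ := by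
    apply PLE_unique' hM hx' h1
    show (Subgroup.zpowers u).map (MulAut.conj x).toMonoidHom =
      (Subgroup.zpowers u).map (MulAut.conj t).toMonoidHom
    rw [MonoidHom.map_zpowers, MonoidHom.map_zpowers]
    congr 1
    exact htz.symm
  have h3 := congrArg (cjIdx t⁻¹) h2
  rw [← cjIdx_mul, ← cjIdx_mul, inv_mul_cancel, cjIdx_one] at h3
  have hg : t⁻¹ * x ∈ cz (Subgroup.zpowers u) := by
    apply cen_le_centralizer_zpowers u
    rw [Subgroup.mem_centralizer_singleton_iff]
    have : x * u = t * u * t⁻¹ * x := by rw [htz]; group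
    calc t⁻¹ * x * u = t⁻¹ * (x * u) := by group
      _ = t⁻¹ * (t * u * t⁻¹ * x) := by rw [this]
      _ = u * (t⁻¹ * x) := by group
  rw [cjIdx_eq_self_iff.mpr ⟨Subgroup.centralizer_le_normalizer _ hg, le_stabSub _ _ hg⟩] at h3
  simpa using h3

end Cfsg.Agent.Lib.Helper6
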