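import Mathlib
import Cfsg.Prelude.Def_Blocks
import Cfsg.Agent.Lib.Helper6.Klein4

/-!
# Blocks with Klein four defect groups V: the invariants
-/

set_option autoImplicit false
set_option linter.unusedSectionVars false

namespace Cfsg.Agent.Lib.Helper6

open Cfsg Cfsg.Agent.Lib.Helper2 Cfsg.Agent.Lib.Helper24 Cfsg.Agent.Lib.Helper23.Contrib
open scoped ComplexConjugate Classical

attribute [local instance] irrFintype

variable {G : Type*} [Group G] [Fintype G] {M : Ideal AlgInt}

theorem klein_main (hM : IsPModular 2 M) {B : Set (IrrCharacter G)} {P : Subgroup G}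
    {c : Set (IrrCharacter (cz P))} (hmax : IsMaximalBrauerPair 2 M B P c)
    (hP4 : Nat.card P = 4) (hexp : ∀ x ∈ P, x * x = 1) (hab : P ≤ cz P) (T : Subgroup G)
    (hT : ∀ g, g ∈ T ↔ g ∈ Subgroup.normalizer (P : Set G) ∧ StabilizesBlock (cz P) c g)
    (he : (cz P).relIndex T = 1 ∨ (cz P).relIndex T = 3) :
    Nat.card B = 4 ∧ blockRank 2 B = (cz P).relIndex T := by
  have : Fact (Nat.Prime 2) := ⟨Nat.prime_two⟩
  have := IsPModular.isPrime hM
  have hp : Nat.Prime 2 := Nat.prime_two
  have hB : IsPBlock M B := hmax.1.2.1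
  have hTN : T ≤ Subgroup.normalizer (P : Set G) := fun t ht => ((hT t).mp ht).1
  have hfam : ∀ Q : Subgroup G, ∃ f : Set (IrrCharacter (cz Q)),
      Q ≤ P → PLE 2 M ⟨Q, f⟩ ⟨P, c⟩ := by
    intro Q
    by_cases hQ : Q ≤ P
    · obtain ⟨f, hf⟩ := exists_PLE hM ⟨P, c⟩ hmax.1.1 _ Q hQ rfl
      exact ⟨f, fun _ => hf⟩
    · exact ⟨∅, fun h => absurd h hQ⟩
  choose fam hfam using hfam
  have hQD : ∀ w ∈ P, Subgroup.zpowers w ≤ P := fun w hw => Subgroup.zpowers_le.mpr hw
  have hDQ : ∀ w ∈ P, P ≤ cz (Subgroup.zpowers w) := fun w hw y hy =>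
    cen_le_centralizer_zpowers w (Subgroup.mem_centralizer_singleton_iff.mpr
      (Subgroup.mem_centralizer_iff.mp (hab hy) w hw).symm)
  have hle : ∀ w (hw : w ∈ P), SubpairLE 2 M (Subgroup.zpowers w) (fam _) P c :=
    fun w hw => hfam _ (hQD w hw)
  have hdata := fun w hw => major_data hM hmax (hle w hw) (hDQ w hw)
  have hord : ∀ w ∈ P, w ≠ 1 → orderOf w = 2 := fun w hw hw1 =>
    orderOf_eq_prime (by rw [sq]; exact hexp w hw) hw1
  have hcen : ∀ w ∈ P, IsCenOf 2 (cenElt' w) := by
    intro w hw
    apply isCenOf_cenElt'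
    by_cases hw1 : w = 1
    · exact ⟨0, by rw [hw1, orderOf_one, pow_zero]⟩
    · exact ⟨1, by rw [hord w hw hw1, pow_one]⟩
  have hPdef : IsDefectGroup 2 M B P := isDefectGroup_of_maximal hM hmax
  have hdB : blockDefect 2 B = 2 := by
    have h2 := IsDefectGroup.card_eq hM hB hPdef
    rw [hP4] at h2
    have h3 : (2 : ℕ) ^ 2 = 2 ^ blockDefect 2 B := by rw [← h2]; norm_num
    exact (Nat.pow_right_injective le_rfl h3).symm
  have hl : ∀ w (hw : w ∈ P), w ≠ 1 → blockRank 2 (fam (Subgroup.zpowers w)) = 1 := by
    intro w hw hw1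
    apply blockRank_eq_one_of_central_involution hM (hdata w hw).1.1
      (isDefectGroup_centralizer_of_le hM hmax (hle w hw) (hDQ w hw)) _
      (mem_center (hcen w hw)) _
    · rw [Nat.card_congr (Subgroup.subgroupOfEquivOfLe (hDQ w hw)).toEquiv, hP4]
    · rw [← Subgroup.orderOf_coe]
      exact hord w hw hw1
  have hcontrib : ∀ w (hw : w ∈ P), w ≠ 1 → Nat.card B = 4 ∧ ∀ χ : IrrCharacter G, χ ∈ B →
      mc 2 (fam (Subgroup.zpowers w)) (cenElt' w) (χ : G → ℂ) (χ : G → ℂ) = 1 / 4 := by
    intro w hw hw1
    apply klein_contrib hM (hcen w hw) _ (hdata w hw).1 (hdata w hw).2 hdB (hl w hw hw1)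
    apply Subtype.ext
    rw [Subgroup.coe_pow, sq]
    exact hexp w hw
  obtain ⟨u, hu, hu1⟩ : ∃ u ∈ P, u ≠ 1 := by
    have : Nontrivial P := by
      rw [← Finite.one_lt_card_iff_nontrivial, hP4]
      norm_num
    obtain ⟨u, hu⟩ := exists_ne (1 : P)
    exact ⟨u, u.2, fun h => hu (Subtype.ext h)⟩
  have hk : Nat.card B = 4 := (hcontrib u hu hu1).1
  refine ⟨hk, ?_⟩
  have hrank := blockRank_eq_sum' hM hB
  have hcard : (Nat.card B : ℂ) = ∑ χ : IrrCharacter G, B.indicator 1 χ := by
    rw [Nat.card_eq_fintype_card, Fintype.card_subtype, Finset.card_filter]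
    push_cast
    refine Finset.sum_congr rfl fun χ _ => ?_
    by_cases h : χ ∈ B
    · rw [if_pos h, Set.indicator_of_mem h, Pi.one_apply]
    · rw [if_neg h, Set.indicator_of_notMem h]
  rcases he with he | he
  · rw [he]
    have hTC : T ≤ cz P := Subgroup.relIndex_eq_one.mp he
    set r : IrrCharacter G → ℝ := fun χ =>
      (Nat.card G : ℝ)⁻¹ * ∑ g : G, ‖regPart 2 (χ : G → ℂ) g‖ ^ 2 with hr
    have hr0 : ∀ χ, 0 ≤ r χ := fun χ => classInner_self_nonneg _
    have hrc : ∀ χ : IrrCharacter G,
        classInner (regPart 2 (χ : G → ℂ)) (regPart 2 (χ : G → ℂ)) = (r χ : ℂ) :=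
      fun χ => classInner_self_eq _
    have hbes : ∀ χ : IrrCharacter G, χ ∈ B → r χ ≤ 1 / 4 := by
      intro χ hχ
      have hχc : IsClassFunction G (χ : G → ℂ) := irr_isClassFunction χ.2
      have hne : ∀ z : P, z ≠ 1 → (z : G) ≠ 1 := fun z hz h => hz (Subtype.ext h)
      have hsum := sum_le_of_orth (Z := P)
        (fun z => if z = 1 then regPart 2 (χ : G → ℂ) else
          secFun 2 (fam (Subgroup.zpowers (z : G))) (cenElt' (z : G)) (χ : G → ℂ))
        (fun z => if z = 1 then r χ else 1 / 4) ?_ χ ?_ ?_ ?_ (fun z z' => z = z') 1 ?_ ?_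
      · have h1 : ∀ z : P, (if z = 1 then r χ else 1 / 4) =
            1 / 4 + (if z = 1 then (r χ - 1 / 4) else 0) := by
          intro z
          split_ifs <;> ring
        rw [Finset.sum_congr rfl fun z _ => h1 z, Finset.sum_add_distrib, Finset.sum_const,
          Finset.card_univ, ← Nat.card_eq_fintype_card, hP4, Finset.sum_ite_eq' Finset.univ (1 : P),
          if_pos (Finset.mem_univ _)] at hsum
        norm_num at hsum
        linarith
      · intro z
        split_ifs
        · exact hr0 χ
        · norm_num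
      · intro z
        split_ifs
        · exact isClassFunction_regPart hχc
        · exact isClassFunction_secFun _ _ _
      · intro z
        split_ifs with hz
        · rw [classInner_regPart_eq_self, hrc]
        · rw [classInner_secFun_irr hM (hcen z z.2) (hdata z z.2).1.1,
            (hcontrib z z.2 (hne z hz)).2 χ hχ]
          push_cast
          rfl
      · intro z
        split_ifs with hz
        · exact hrc χ
        · rw [classInner_secFun_self hp (hcen z z.2), (hcontrib z z.2 (hne z hz)).2 χ hχ]
          push_cast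
          rfl
      · intro z z'
        by_cases hzz : z = z'
        · exact Or.inr ⟨by rw [hzz], hzz⟩
        · left
          by_cases hz : z = 1
          · have hz' : z' ≠ 1 := fun h => hzz (hz.trans h.symm)
            rw [if_pos hz, if_neg hz']
            exact classInner_regPart_secFun hp (hcen z' z'.2) (hne z' hz') _ _ _
          · rw [if_neg hz]
            by_cases hz' : z' = 1
            · rw [if_pos hz']
              exact classInner_secFun_regPart hp (hcen z z.2) (hne z hz) _ _ _
            · rw [if_neg hz']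
              rcases secFun_orth_or_eq hM (hcen z z.2) (hcen z' z'.2) rfl rfl (hdata z z.2).1.1
                (hdata z' z'.2).1.1 hχc with h | ⟨-, g, hg, hgg⟩
              · exact h
              · exfalso
                obtain ⟨c', hc', h1, h2⟩ := exists_stab_conj hM hmax (hle z z.2) (hle z' z'.2)
                  (hDQ z z.2) (hDQ z' z'.2) hgg
                have h3 : c' * g ∈ cz P := hTC ((hT _).mpr ⟨h1, h2⟩)
                have h4 : (z : G) * (c' * g) = c' * g * (z : G) :=
                  Subgroup.mem_centralizer_iff.mp h3 z z.2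
                have h5 : (z' : G) * c' = c' * (z' : G) :=
                  Subgroup.mem_centralizer_iff.mp hc' (z' : G) (Subgroup.mem_zpowers _)
                have hg' : g * (z : G) * g⁻¹ = (z' : G) := hg
                apply hzz
                apply Subtype.ext
                calc (z : G) = (z : G) * (c' * g) * (c' * g)⁻¹ := by group
                  _ = c' * (g * (z : G) * g⁻¹) * c'⁻¹ := by rw [h4]; group
                  _ = c' * (z' : G) * c'⁻¹ := by rw [hg']
                  _ = (z' : G) := by rw [← h5]; group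
      · intro z
        apply Finset.card_le_one.mpr
        intro a ha b hb
        have ha' := (@Finset.mem_filter _ (fun z' => z = z') (fun _ => Classical.propDecidable _)
          Finset.univ a).mp ha
        have hb' := (@Finset.mem_filter _ (fun z' => z = z') (fun _ => Classical.propDecidable _)
          Finset.univ b).mp hb
        exact ha'.2.symm.trans hb'.2
    have hrank' : (blockRank 2 B : ℝ) = ∑ χ : IrrCharacter G, if χ ∈ B then r χ else 0 := by
      have h1 : ((blockRank 2 B : ℝ) : ℂ) =
          ((∑ χ : IrrCharacter G, if χ ∈ B then r χ else 0 : ℝ) : ℂ) := by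
        push_cast
        rw [hrank]
        refine Finset.sum_congr rfl fun χ _ => ?_
        by_cases hχ : χ ∈ B
        · rw [Set.indicator_of_mem hχ, if_pos hχ, Pi.one_apply, one_mul,
            classInner_regPart_eq_self, hrc]
        · rw [Set.indicator_of_notMem hχ, if_neg hχ, zero_mul, Complex.ofReal_zero]
      exact_mod_cast h1
    have hle1 : (blockRank 2 B : ℝ) ≤ 1 := by
      rw [hrank']
      have h1 : ∀ χ : IrrCharacter G, (if χ ∈ B then r χ else 0) ≤
          if χ ∈ B then (1 / 4 : ℝ) else 0 := by
        intro χ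
        split_ifs with hχ
        · exact hbes χ hχ
        · exact le_rfl
      refine (Finset.sum_le_sum fun χ _ => h1 χ).trans ?_
      rw [← Finset.sum_filter, Finset.sum_const, ← Fintype.card_subtype,
        ← Nat.card_eq_fintype_card]
      have : Nat.card {x // x ∈ B} = 4 := hk
      rw [this]
      norm_num
    have hpos : (0 : ℝ) < (blockRank 2 B : ℝ) := by
      rw [hrank']
      obtain ⟨χ, hχ⟩ := IsPBlock.nonempty hB
      have h1 : 0 < r χ := by
        apply lt_of_le_of_ne (hr0 χ)
        intro h0
        have h2 := hrc χ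
        rw [← h0] at h2
        have h3 := Cfsg.Agent.Lib.Helper13.eq_zero_of_classInner_self_eq_zero _
          (by rw [h2]; simp)
        have h4 := congrFun h3 1
        rw [regPart_of_not_dvd _ (by rw [orderOf_one]; norm_num)] at h4
        exact irr_one_ne_zero χ.2 h4
      have h2 := Finset.single_le_sum (f := fun χ : IrrCharacter G => if χ ∈ B then r χ else 0)
        (fun ψ _ => by
          split_ifs
          · exact hr0 ψ
          · exact le_rfl) (Finset.mem_univ χ)
      simp only [if_pos hχ] at h2
      linarith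
    have h1 : blockRank 2 B ≤ 1 := by exact_mod_cast hle1
    have h2 : 0 < blockRank 2 B := by exact_mod_cast hpos
    omega
  · rw [he]
    have htr := fun {a b : G} => klein_transitive hTN hP4 he (u := a) (z := b)
    have hQp : IsPGroup 2 (Subgroup.zpowers u) := hmax.1.1.1.to_le (hQD u hu)
    have hQab : Subgroup.zpowers u ≤ cz (Subgroup.zpowers u) := (hQD u hu).trans (hDQ u hu)
    have key : ∀ χ : IrrCharacter G, χ ∈ B →
        classInner (regPart 2 (χ : G → ℂ)) (χ : G → ℂ) = 3 / 4 := by
      intro χ hχ
      have hfp := fpart_eq_regPart_tw hM (hcen u hu)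
        (fun b hb => inducedBlockDefined_of_le hM hQp hQab le_rfl
          (Subgroup.centralizer_le_normalizer _) hb) hB (hdata u hu).1
        (fun b hb => unique_block_of_control hM hmax T hT hu (fun z hz hg => by
          obtain ⟨g, hg⟩ := hg
          apply htr hu hz hu1
          rintro rfl
          apply hu1
          have : u = g⁻¹ * (g * u * g⁻¹) * g := by group
          rw [this, hg]
          group) (hle u hu) hb) hχ
      have h1 := classInner_regPart_add_mc hM (hcen u hu) hu1 (hdata u hu).1.1 hfp ?_
      · rw [(hcontrib u hu hu1).2 χ hχ] at h1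
        linear_combination h1
      · intro g y hy hy1 hnc
        apply irr_eq_zero_of_pPart_not_mem hM χ hy
        intro D' hD' hyD'
        rw [← IsPBlock.eq_blockOf hB hχ] at hD'
        obtain ⟨s, rfl⟩ := isDefectGroup_exists_conj hM hB hPdef hD'
        rw [mem_cj] at hyD'
        have hne : s⁻¹ * y * s ≠ 1 := by
          intro h
          apply hy1
          have : y = s * (s⁻¹ * y * s) * s⁻¹ := by group
          rw [this, h]
          group
        obtain ⟨t, -, ht⟩ := htr hu hyD' hu1 hne
        apply hnc
        rw [isConj_iff]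
        refine ⟨(s * t)⁻¹, ?_⟩
        have : y = s * (s⁻¹ * y * s) * s⁻¹ := by group
        rw [this, ← ht]
        show _ = u
        group
    apply Nat.cast_injective (R := ℂ)
    rw [hrank]
    have h2 : ∀ χ : IrrCharacter G, B.indicator 1 χ *
        classInner (regPart 2 (χ : G → ℂ)) (χ : G → ℂ) = B.indicator 1 χ * (3 / 4) := by
      intro χ
      by_cases hχ : χ ∈ B
      · rw [key χ hχ]
      · rw [Set.indicator_of_notMem hχ, zero_mul, zero_mul]
    rw [Finset.sum_congr rfl fun χ _ => h2 χ, ← Finset.sum_mul, ← hcard, hk]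
    norm_num

end Cfsg.Agent.Lib.Helper6
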