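import Mathlib
import Cfsg.Prelude.Def_Blocks
import Cfsg.Agent.Lib.Helper6.CentralProd3
import Cfsg.Agent.Lib.Helper24.FongReynolds2
import Cfsg.Agent.Lib.Helper24.Codegree
import Cfsg.Agent.Lib.Helper25.TwistClifford
import Cfsg.Agent.Lib.Helper13.Ito

/-!
# Blocks with a normal defect group: heights (Reynolds)
-/

set_option autoImplicit false
set_option linter.unusedSectionVars false

namespace Cfsg.Agent.Lib.Helper6

open Cfsg Cfsg.Agent.Lib.Helper2 Cfsg.Agent.Lib.Helper24
open scoped ComplexConjugate Classical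

attribute [local instance] irrFintype

section

variable {G : Type*} [Group G] [Fintype G] {p : ℕ} {M : Ideal AlgInt}

/-- Every irreducible character of a `p`-subgroup lies under a character of any given block. -/
theorem exists_over_of_pGroup [Fact p.Prime] (hM : IsPModular p M) {B : Set (IrrCharacter G)}
    (hB : IsPBlock M B) {P : Subgroup G} (hP : IsPGroup p P) (ζ : IrrCharacter P) :
    ∃ χ ∈ B, classInner (fun y : P => (χ : G → ℂ) y) (ζ : P → ℂ) ≠ 0 := by
  have := IsPModular.isPrime hM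
  obtain ⟨χ, hχ⟩ := IsPBlock.nonempty hB
  by_contra hcon
  push Not at hcon
  have hD0 : (Nat.card P : ℂ) ≠ 0 := card_subgroup_ne_zero _
  have h1 : ∀ θ ∈ B, ∑ y : P, (θ : G → ℂ) y * conj ((ζ : P → ℂ) y) = 0 := by
    intro θ hθ
    have h2 := hcon θ hθ
    rw [classInner] at h2
    exact (mul_eq_zero.mp h2).resolve_left (inv_ne_zero hD0)
  set f : P → ℂ := fun y => ∑ θ : IrrCharacter G, B.indicator 1 θ *
    ((θ : G → ℂ) y * conj ((θ : G → ℂ) 1)) with hf
  have h2 : ∑ y : P, f y * conj ((ζ : P → ℂ) y) = 0 := by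
    simp only [hf, Finset.sum_mul]
    rw [Finset.sum_comm]
    refine Finset.sum_eq_zero fun θ _ => ?_
    by_cases hθ : θ ∈ B
    · have h3 : ∀ y : P, B.indicator 1 θ * ((θ : G → ℂ) y * conj ((θ : G → ℂ) 1)) *
          conj ((ζ : P → ℂ) y) = conj ((θ : G → ℂ) 1) *
          ((θ : G → ℂ) y * conj ((ζ : P → ℂ) y)) := by
        intro y
        rw [Set.indicator_of_mem hθ, Pi.one_apply]; ring
      rw [Finset.sum_congr rfl (fun y _ => h3 y), ← Finset.mul_sum, h1 θ hθ, mul_zero]
    · refine Finset.sum_eq_zero fun y _ => ?_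
      rw [Set.indicator_of_notMem hθ, zero_mul, zero_mul]
  have h3 : ∀ y : P, y ≠ 1 → f y = 0 := by
    intro y hy
    apply weak_block_orthogonality' hM hB (not_dvd_orderOf_one hM.1)
    obtain ⟨k, hk⟩ := (IsPGroup.iff_orderOf.mp hP) y
    rw [Subgroup.orderOf_coe, hk]
    apply dvd_pow_self
    rintro rfl
    rw [pow_zero, orderOf_eq_one_iff] at hk
    exact hy hk
  rw [Finset.sum_eq_single (1 : P) (fun y _ hy => by rw [h3 y hy, zero_mul])
    (fun h => absurd (Finset.mem_univ _) h)] at h2
  rcases mul_eq_zero.mp h2 with h4 | h4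
  · have h5 : f 1 = ((∑ θ : IrrCharacter G, (if θ ∈ B then
        charDegree (θ : G → ℂ) * charDegree (θ : G → ℂ) else 0) : ℕ) : ℂ) := by
      rw [hf]
      push_cast
      refine Finset.sum_congr rfl fun θ _ => ?_
      rw [← charDegree_cast (IsIrrCharacter.isCharacter θ.2), Complex.conj_natCast]
      by_cases hθ : θ ∈ B
      · rw [Set.indicator_of_mem hθ, if_pos hθ, Pi.one_apply, one_mul]
      · rw [Set.indicator_of_notMem hθ, if_neg hθ, zero_mul]
    rw [h5] at h4
    have h6 := Nat.cast_eq_zero.mp h4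
    have h7 := (Finset.sum_eq_zero_iff.mp h6) χ (Finset.mem_univ _)
    rw [if_pos hχ] at h7
    have := charDegree_pos χ.2
    rcases Nat.mul_eq_zero.mp h7 with h | h <;> omega
  · rw [map_eq_zero] at h4
    exact irr_one_ne_zero ζ.2 h4

/-- If all irreducible constituents of `χ_P` have degree divisible by `p`, then `χ` vanishes
modulo the ideal on the centralizer of `P`. -/
theorem memLocalIdeal_of_constituents (hM : IsPModular p M) {P : Subgroup G} {g : G}
    (hg : g ∈ Subgroup.centralizer (P : Set G)) {χ : G → ℂ} (hχ : IsCharacter G χ)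
    (h : ∀ ζ : IrrCharacter P, classInner (fun y : P => χ y) (ζ : P → ℂ) ≠ 0 →
      p ∣ charDegree (ζ : P → ℂ)) : MemLocalIdeal M (χ g) := by
  have := IsPModular.isPrime hM
  have hPA : P ≤ cen g := by
    intro y hy
    rw [cen, Subgroup.mem_centralizer_singleton_iff]
    exact Subgroup.mem_centralizer_iff.mp hg y hy
  let gA : cen g := ⟨g, Subgroup.mem_centralizer_singleton_iff.mpr rfl⟩
  have hgc : gA ∈ Subgroup.center (cen g) := by
    rw [Subgroup.mem_center_iff]
    intro c
    apply Subtype.ext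
    exact (Subgroup.mem_centralizer_singleton_iff.mp c.2)
  have hχA : IsCharacter (cen g) (fun a : cen g => χ a) := IsCharacter.restrict _ hχ
  obtain ⟨n, hn⟩ := IsCharacter.exists_eq_sum hχA
  have hnξ : ∀ ξ : IrrCharacter (cen g), classInner (fun a : cen g => χ a) (ξ : cen g → ℂ) = n ξ := by
    intro ξ
    conv_lhs => rw [hn]
    exact classInner_sum_irr_left _ ξ
  have h1 : χ g = ∑ ξ : IrrCharacter (cen g), (n ξ : ℂ) * (ξ : cen g → ℂ) gA := by
    have := congrFun hn gA
    simpa using this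
  rw [h1]
  refine MemLocalIdeal.sum _ fun ξ _ => ?_
  by_cases hn0 : n ξ = 0
  · rw [hn0, Nat.cast_zero, zero_mul]
    exact memLocalIdeal_zero
  apply MemLocalIdeal.mul_left (memLocalRing_natCast _)
  have h2 := irr_central_mul ξ.2 hgc 1
  rw [mul_one] at h2
  rw [h2]
  apply MemLocalIdeal.mul_left (centralChar_memLocalRing ξ.2 _)
  rw [← charDegree_cast (IsIrrCharacter.isCharacter ξ.2), memLocalIdeal_natCast_iff hM]
  have hξP : IsCharacter P (fun y : P => (ξ : cen g → ℂ) (Subgroup.inclusion hPA y)) :=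
    IsCharacter.comp_hom (Subgroup.inclusion hPA) (IsIrrCharacter.isCharacter ξ.2)
  obtain ⟨m, hm⟩ := IsCharacter.exists_eq_sum hξP
  have hmζ : ∀ ζ : IrrCharacter P,
      classInner (fun y : P => (ξ : cen g → ℂ) (Subgroup.inclusion hPA y)) (ζ : P → ℂ) = m ζ := by
    intro ζ
    conv_lhs => rw [hm]
    exact classInner_sum_irr_left _ ζ
  have h3 : charDegree (ξ : cen g → ℂ) = ∑ ζ : IrrCharacter P, m ζ * charDegree (ζ : P → ℂ) := by
    have h4 := congrFun hm 1
    have h5 : ((charDegree (ξ : cen g → ℂ) : ℕ) : ℂ) =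
        ((∑ ζ : IrrCharacter P, m ζ * charDegree (ζ : P → ℂ) : ℕ) : ℂ) := by
      rw [charDegree_cast (IsIrrCharacter.isCharacter ξ.2)]
      push_cast
      simp only [map_one, Finset.sum_apply, Pi.smul_apply, smul_eq_mul] at h4
      rw [h4]
      refine Finset.sum_congr rfl fun ζ _ => ?_
      rw [charDegree_cast (IsIrrCharacter.isCharacter ζ.2)]
    exact_mod_cast h5
  rw [h3]
  refine Finset.dvd_sum fun ζ _ => ?_
  by_cases hm0 : m ζ = 0
  · rw [hm0, zero_mul]; exact dvd_zero _
  apply Dvd.dvd.mul_left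
  apply h ζ
  have h6 := (constituent_trans (Subgroup.inclusion hPA) hχA ζ).mpr ⟨ξ, by
    rw [hnξ]; exact_mod_cast hn0, by
    have := hmζ ζ
    rw [show ((ξ : cen g → ℂ) ∘ (Subgroup.inclusion hPA)) =
      (fun y : P => (ξ : cen g → ℂ) (Subgroup.inclusion hPA y)) from rfl, this]
    exact_mod_cast hm0⟩
  exact h6

/-- A group all of whose irreducible characters are linear is abelian. -/
theorem comm_of_all_linear {P : Type*} [Group P] [Finite P]
    (h : ∀ ζ : IrrCharacter P, charDegree (ζ : P → ℂ) = 1) (a c : P) : a * c = c * a := by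
  let _ := Fintype.ofFinite P
  have h1 := sum_degree_sq_nat (G := P)
  simp only [h, one_pow, Finset.sum_const, Finset.card_univ, smul_eq_mul, mul_one] at h1
  rw [← Nat.card_eq_fintype_card, card_irr_eq_card_conjClasses] at h1
  have h2 : commProb P = 1 := by
    rw [commProb_def', h1]
    exact div_self (by exact_mod_cast (Nat.card_pos (α := P)).ne')
  have h3 := commProb_eq_one_iff.mp h2
  exact h3.is_comm.comm a c

end

end Cfsg.Agent.Lib.Helper6
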