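import Mathlib
import Cfsg.Prelude.Def_Blocks
import Cfsg.Agent.Lib.Helper13.Clifford4
import Cfsg.Agent.Lib.Helper13.Gallagher
import Cfsg.Agent.Lib.Helper6.BlockBase

/-!
# Characters and abelian quotients
-/

set_option autoImplicit false
set_option linter.unusedSectionVars false

namespace Cfsg.Agent.Lib.Helper6

open Cfsg Cfsg.Agent.Lib.Helper2 Cfsg.Agent.Lib.Helper13
open scoped ComplexConjugate Classical

attribute [local instance] irrFintype

variable {G : Type*} [Group G] [Fintype G] (N : Subgroup G) [hN : N.Normal]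

/-- multiplicities in the permutation character of an abelian quotient -/
theorem classInner_indFun_one (hab : ∀ x y : G, x * y * x⁻¹ * y⁻¹ ∈ N) (β : IrrCharacter G) :
    classInner (indFun N (fun _ => 1)) (β : G → ℂ) =
      if (∀ n ∈ N, (β : G → ℂ) n = (β : G → ℂ) 1) then 1 else 0 := by
  by_cases hk : ∀ n ∈ N, (β : G → ℂ) n = (β : G → ℂ) 1
  · rw [if_pos hk, frobenius_reciprocity N _ _ (irr_isClassFunction β.2)]
    have h1 := degree_one_of_abelian_quotient N hab β.2 hk
    have e : (fun h : N => (β : G → ℂ) h) = fun _ => 1 := by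
      funext h
      rw [hk h h.2, h1]
    rw [e, classInner_irr isIrrCharacter_one isIrrCharacter_one, if_pos rfl]
  · rw [if_neg hk]
    by_contra hne
    exact hk ((classInner_indFun_one_ne_zero_iff N β.2).mp hne)

theorem restrict_irr_of_free (hab : ∀ x y : G, x * y * x⁻¹ * y⁻¹ ∈ N) {χ : IrrCharacter G}
    (hfree : ∀ β : G → ℂ, IsCharacter G β → β 1 = 1 → (∀ n ∈ N, β n = 1) →
      β * (χ : G → ℂ) = (χ : G → ℂ) → β = fun _ => 1) :
    IsIrrCharacter N (fun n : N => (χ : G → ℂ) n) := by
  have hχcl := irr_isClassFunction χ.2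
  apply isIrrCharacter_of_classInner_eq_one (IsCharacter.restrict N (IsIrrCharacter.isCharacter χ.2))
  rw [← frobenius_reciprocity N _ _ hχcl]
  have e : indFun N (fun n : N => (χ : G → ℂ) n) = indFun N (fun _ => 1) * (χ : G → ℂ) := by
    rw [← indFun_mul_restrict N _ hχcl]
    congr 1
    funext n
    simp
  have hcl : IsClassFunction G (indFun N (fun _ : N => (1 : ℂ))) :=
    IsCharacter.isClassFunction (IsCharacter.indFun N (IsIrrCharacter.isCharacter isIrrCharacter_one))
  rw [e, classFunction_eq_sum hcl, Finset.sum_mul, classInner_sum_left,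
    Finset.sum_eq_single (⟨fun _ => 1, isIrrCharacter_one⟩ : IrrCharacter G)]
  · rw [classInner_indFun_one N hab, if_pos (fun _ _ => rfl), one_smul]
    have e2 : (fun _ : G => (1 : ℂ)) * (χ : G → ℂ) = (χ : G → ℂ) := by
      funext g
      simp
    show classInner ((fun _ : G => (1 : ℂ)) * (χ : G → ℂ)) (χ : G → ℂ) = 1
    rw [e2, classInner_irr χ.2 χ.2, if_pos rfl]
  · intro β _ hβ
    rw [classInner_indFun_one N hab]
    by_cases hk : ∀ n ∈ N, (β : G → ℂ) n = (β : G → ℂ) 1
    · rw [if_pos hk, one_smul]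
      have h1 := degree_one_of_abelian_quotient N hab β.2 hk
      have hirr := IsIrrCharacter.linear_mul (IsIrrCharacter.isCharacter β.2) h1 χ.2
      rw [classInner_irr hirr χ.2, if_neg]
      intro heq
      apply hβ
      apply Subtype.ext
      exact hfree β (IsIrrCharacter.isCharacter β.2) h1 (fun n hn => by rw [hk n hn, h1]) heq
    · rw [if_neg hk, zero_smul, zero_mul, classInner_zero_left]
  · intro h
    exact absurd (Finset.mem_univ _) h

theorem card_irr_ker (hab : ∀ x y : G, x * y * x⁻¹ * y⁻¹ ∈ N) :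
    Nat.card {β : IrrCharacter G // ∀ n ∈ N, (β : G → ℂ) n = (β : G → ℂ) 1} = N.index := by
  have hcl : IsClassFunction G (indFun N (fun _ : N => (1 : ℂ))) :=
    IsCharacter.isClassFunction (IsCharacter.indFun N (IsIrrCharacter.isCharacter isIrrCharacter_one))
  have h1 := congrFun (classFunction_eq_sum hcl) 1
  have h2 : indFun N (fun _ : N => (1 : ℂ)) 1 = (N.index : ℂ) := by
    rw [indFun]
    have : ∀ x : G, extendByZero N (fun _ : N => (1 : ℂ)) (x⁻¹ * 1 * x) = 1 := by
      intro x
      rw [extendByZero_mem N _ (by simp : x⁻¹ * 1 * x ∈ N)]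
    rw [Finset.sum_congr rfl fun x _ => this x, Finset.sum_const, Finset.card_univ, nsmul_eq_mul,
      mul_one, ← Nat.card_eq_fintype_card, ← N.card_mul_index]
    push_cast
    rw [inv_mul_cancel_left₀ (card_subgroup_ne_zero N)]
  rw [h2, Finset.sum_apply] at h1
  apply Nat.cast_injective (R := ℂ)
  rw [h1, Nat.card_eq_fintype_card, Fintype.card_subtype, Finset.card_filter]
  push_cast
  refine Finset.sum_congr rfl fun β _ => ?_
  rw [Pi.smul_apply, classInner_indFun_one N hab, smul_eq_mul]
  by_cases hk : ∀ n ∈ N, (β : G → ℂ) n = (β : G → ℂ) 1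
  · rw [if_pos hk, one_mul, degree_one_of_abelian_quotient N hab β.2 hk]
  · rw [if_neg hk, zero_mul]

end Cfsg.Agent.Lib.Helper6
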