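import Mathlib
import Cfsg.Prelude.Def_Blocks
import Cfsg.Agent.Lib.Helper6.Subsection
import Cfsg.Agent.S4426

/-!
# The weak Brauer-Feit bound `k(B) ≤ p^(2a)`
-/

set_option autoImplicit false
set_option linter.unusedSectionVars false

namespace Cfsg.Agent.Lib.Helper6

open Cfsg Cfsg.Agent.Lib.Helper2
open scoped ComplexConjugate Classical

attribute [local instance] irrFintype

section

variable {G : Type*} [Group G] [Fintype G] {p : ℕ} {M : Ideal AlgInt}

theorem sum_normSq_classInner {F : G → ℂ} (hF : IsClassFunction G F) :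
    ∑ ξ : IrrCharacter G, Complex.normSq (classInner F (ξ : G → ℂ)) =
      (Nat.card G : ℝ)⁻¹ * ∑ g : G, Complex.normSq (F g) := by
  apply Complex.ofReal_injective
  push_cast
  have h1 := classInner_eq_sum_irr hF hF
  simp only [Complex.mul_conj] at h1
  rw [← h1, classInner]
  simp only [Complex.mul_conj]

theorem card_block_le [Fact p.Prime] (hM : IsPModular p M) {B : Set (IrrCharacter G)}
    (hB : IsPBlock M B) : Nat.card B ≤ p ^ (2 * (Nat.card G).factorization p) := by
  have := IsPModular.isPrime hM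
  obtain ⟨χ, hχ, h0⟩ := exists_height_zero (p := p) (IsPBlock.nonempty hB)
  set a := (Nat.card G).factorization p with ha
  set F : G → ℂ := fun x => if p ∣ orderOf x then (0 : ℂ) else ((p ^ a : ℕ) : ℂ) * (χ : G → ℂ) x
    with hFdef
  have hF : IsClassFunction G F := by
    intro g h
    simp only [hFdef]
    rw [orderOf_conj_eq, irr_isClassFunction χ.2]
  have hn := (Cfsg.Agent.S4426.result p M hM B hB χ hχ).2.mp h0
  have h1 := sum_normSq_classInner hF
  have h2 := sum_normSq_classInner (irr_isClassFunction χ.2)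
  have h3 : ∑ ξ : IrrCharacter G, Complex.normSq (classInner (χ : G → ℂ) (ξ : G → ℂ)) = 1 := by
    rw [Finset.sum_eq_single χ]
    · rw [classInner_irr χ.2 χ.2, if_pos rfl]; simp
    · intro ξ _ hξ
      rw [classInner_irr χ.2 ξ.2, if_neg (fun h => hξ (Subtype.ext h.symm))]; simp
    · intro h; exact absurd (Finset.mem_univ _) h
  rw [h3] at h2
  have hG : (0 : ℝ) < (Nat.card G : ℝ)⁻¹ := by
    apply inv_pos.mpr
    exact_mod_cast Nat.card_pos (α := G)
  have h4 : ∑ g : G, Complex.normSq (F g) ≤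
      ((p : ℝ) ^ a) ^ 2 * ∑ g : G, Complex.normSq ((χ : G → ℂ) g) := by
    rw [Finset.mul_sum]
    refine Finset.sum_le_sum fun g _ => ?_
    simp only [hFdef]
    split_ifs
    · rw [map_zero]
      exact mul_nonneg (by positivity) (Complex.normSq_nonneg _)
    · rw [map_mul, Complex.normSq_natCast]
      push_cast
      apply le_of_eq
      ring
  have h5 : ∑ ξ : IrrCharacter G, Complex.normSq (classInner F (ξ : G → ℂ)) ≤ ((p : ℝ) ^ a) ^ 2 := by
    rw [h1]
    calc (Nat.card G : ℝ)⁻¹ * ∑ g : G, Complex.normSq (F g)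
        ≤ (Nat.card G : ℝ)⁻¹ * (((p : ℝ) ^ a) ^ 2 * ∑ g : G, Complex.normSq ((χ : G → ℂ) g)) :=
          mul_le_mul_of_nonneg_left h4 hG.le
      _ = ((p : ℝ) ^ a) ^ 2 * ((Nat.card G : ℝ)⁻¹ * ∑ g : G, Complex.normSq ((χ : G → ℂ) g)) := by
          ring
      _ = ((p : ℝ) ^ a) ^ 2 := by rw [← h2, mul_one]
  have h6 : (Nat.card B : ℝ) ≤ ∑ ξ : IrrCharacter G, Complex.normSq (classInner F (ξ : G → ℂ)) := by
    rw [Nat.card_eq_fintype_card, Fintype.card_subtype, Finset.card_filter]
    push_cast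
    refine Finset.sum_le_sum fun ξ _ => ?_
    split_ifs with hξ
    · obtain ⟨n, hn1, hn2, -⟩ := hn ξ hξ
      rw [hn1, Complex.normSq_intCast]
      have : (1 : ℤ) ≤ n * n := by
        rcases lt_or_gt_of_ne hn2 with h | h
        · nlinarith
        · nlinarith
      exact_mod_cast this
    · exact Complex.normSq_nonneg _
  have h7 : (Nat.card B : ℝ) ≤ ((p ^ (2 * a) : ℕ) : ℝ) := by
    push_cast
    rw [mul_comm 2 a, pow_mul]
    exact h6.trans h5
  exact_mod_cast h7

end

end Cfsg.Agent.Lib.Helper6
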