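import Mathlib
import Cfsg.Prelude.Def_Blocks
import Cfsg.Agent.Lib.Helper1.Coprime
import Cfsg.Agent.Lib.Helper22.Frat
import Cfsg.Agent.Lib.Helper6.CentralProd4
import Cfsg.Agent.Lib.Helper6.QuotDefect

/-!
# Blocks of `G` and of `G ⧸ D'` for a normal `p`-subgroup `D`
-/

set_option autoImplicit false
set_option linter.unusedSectionVars false

namespace Cfsg.Agent.Lib.Helper6

open Cfsg Cfsg.Agent.Lib.Helper2
open scoped ComplexConjugate Classical

attribute [local instance] irrFintype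

section group

variable {G : Type*} [Group G] [Finite G] {p : ℕ}

/-- A subgroup of a `p`-group generating it together with the derived subgroup is everything. -/
theorem le_of_le_sup_commutator [Fact p.Prime] {D H : Subgroup G} (hD : IsPGroup p D)
    (hHD : H ≤ D) (h : D ≤ H ⊔ ⁅D, D⁆) : D ≤ H := by
  have h1 : H.subgroupOf D ⊔ commutator D = ⊤ := by
    apply Subgroup.map_injective D.subtype_injective
    rw [Subgroup.map_sup, Subgroup.map_subgroupOf_eq_of_le hHD, Subgroup.map_subtype_commutator,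
      ← MonoidHom.range_eq_map, Subgroup.range_subtype]
    exact le_antisymm (sup_le hHD (Subgroup.commutator_le_self D)) h
  have h2 : H.subgroupOf D ⊔ frattini D = ⊤ := by
    rw [eq_top_iff, ← h1]
    exact sup_le_sup_left (Cfsg.Agent.Lib.Helper22.commutator_le_frattini hD) _
  have h3 := frattini_nongenerating h2
  exact Subgroup.subgroupOf_eq_top.mp h3

/-- A `p`-regular element centralizing `D ⧸ D'` centralizes the normal `p`-subgroup `D`. -/
theorem le_cen_of_map_le_cen [Fact p.Prime] {D : Subgroup G} [D.Normal] (hD : IsPGroup p D)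
    {x : G} (hx : ¬ p ∣ orderOf x)
    (h : D.map (QuotientGroup.mk' ⁅D, D⁆) ≤ cen (x : G ⧸ ⁅D, D⁆)) : D ≤ cen x := by
  have hp : p.Prime := Fact.out
  set A := Subgroup.zpowers x with hA
  have hAK : A ≤ Subgroup.normalizer (D : Set G) := by
    rw [Subgroup.normalizer_eq_top_iff.mpr inferInstance]; exact le_top
  obtain ⟨k, hk⟩ := IsPGroup.iff_card.mp hD
  have hcop : (Nat.card A).Coprime (Nat.card D) := by
    rw [hk, hA, Nat.card_zpowers]
    exact Nat.Coprime.pow_right _ (Nat.coprime_comm.mp ((Nat.Prime.coprime_iff_not_dvd hp).mpr hx))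
  have h1 := Cfsg.Agent.Lib.Helper1.coprime_commutator_sup_centralizer A D hAK hcop
    (Or.inl inferInstance)
  have h2 : ⁅D, A⁆ ≤ ⁅D, D⁆ := by
    rw [Subgroup.commutator_le]
    intro u hu z hz
    rw [← QuotientGroup.eq_one_iff]
    have h3 : (u : G ⧸ ⁅D, D⁆) * (x : G ⧸ ⁅D, D⁆) = (x : G ⧸ ⁅D, D⁆) * (u : G ⧸ ⁅D, D⁆) :=
      Subgroup.mem_centralizer_singleton_iff.mp (h ⟨u, hu, rfl⟩)
    obtain ⟨n, rfl⟩ := Subgroup.mem_zpowers_iff.mp hz
    have h4 : Commute (u : G ⧸ ⁅D, D⁆) ((x : G ⧸ ⁅D, D⁆) ^ n) := (show Commute _ _ from h3).zpow_right n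
    show ((u * x ^ n * u⁻¹ * (x ^ n)⁻¹ : G) : G ⧸ ⁅D, D⁆) = 1
    rw [QuotientGroup.mk_mul, QuotientGroup.mk_mul, QuotientGroup.mk_mul, QuotientGroup.mk_inv,
      QuotientGroup.mk_inv, QuotientGroup.mk_zpow, h4.eq]
    group
  have h5 : D ≤ (D ⊓ Subgroup.centralizer (A : Set G)) ⊔ ⁅D, D⁆ := by
    conv_lhs => rw [← h1]
    rw [sup_comm]
    exact sup_le_sup_left h2 _
  have h6 := le_of_le_sup_commutator hD inf_le_left h5
  intro u hu
  have h7 : u ∈ Subgroup.centralizer (A : Set G) := (h6 hu).2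
  rw [Subgroup.mem_centralizer_iff] at h7
  exact Subgroup.mem_centralizer_singleton_iff.mpr (h7 x (Subgroup.mem_zpowers x)).symm

end group

section blocks

variable {G : Type*} [Group G] [Fintype G] {p : ℕ} {M : Ideal AlgInt}
  (N : Subgroup G) [N.Normal]

theorem dvd_orderOf_mul_of_le_cen (hp : p.Prime) (hN : IsPGroup p N) {y : G} (hyN : y ∈ N)
    (hy : y ≠ 1) {x : G} (hx : ¬ p ∣ orderOf x) (hNx : N ≤ cen x) : p ∣ orderOf (y * x) := by
  have : Fact p.Prime := ⟨hp⟩
  have hcomm : Commute y x := Subgroup.mem_centralizer_singleton_iff.mp (hNx hyN)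
  obtain ⟨k, hk⟩ := (IsPGroup.iff_orderOf.mp hN) ⟨y, hyN⟩
  rw [Subgroup.orderOf_mk] at hk
  have hk0 : k ≠ 0 := by
    rintro rfl
    rw [pow_zero, orderOf_eq_one_iff] at hk
    exact hy hk
  have hcop : Nat.Coprime (orderOf y) (orderOf x) := by
    rw [hk]
    exact Nat.Coprime.pow_left _ ((Nat.Prime.coprime_iff_not_dvd hp).mpr hx)
  rw [hcomm.orderOf_mul_eq_mul_orderOf_of_coprime hcop, hk]
  exact Dvd.dvd.mul_right (dvd_pow_self p hk0) _

theorem le_cen_conj {x : G} (hNx : N ≤ cen x) (s : G) : N ≤ cen (s * x * s⁻¹) := by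
  intro n hn
  have h1 : s⁻¹ * n * s ∈ N := by
    have := (inferInstance : N.Normal).conj_mem n hn s⁻¹
    simpa using this
  have h2 : s⁻¹ * n * s * x = x * (s⁻¹ * n * s) :=
    Subgroup.mem_centralizer_singleton_iff.mp (hNx h1)
  apply Subgroup.mem_centralizer_singleton_iff.mpr
  calc n * (s * x * s⁻¹) = s * (s⁻¹ * n * s * x) * s⁻¹ := by group
    _ = s * (x * (s⁻¹ * n * s)) * s⁻¹ := by rw [h2]
    _ = _ := by group

theorem push_classInd_of_le_cen (hp : p.Prime) (hN : IsPGroup p N) {x : G}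
    (hx : ¬ p ∣ orderOf x) (hNx : N ≤ cen x) :
    push N (classInd x) = classInd (x : G ⧸ N) := by
  funext q
  rw [push_apply, classInd_apply]
  split_ifs with hq
  · obtain ⟨t, ht⟩ := isConj_iff.mp hq
    obtain ⟨s, rfl⟩ := QuotientGroup.mk_surjective t
    rw [Finset.sum_eq_single (s * x * s⁻¹)]
    · rw [if_pos (by rw [← ht]; rfl), classInd_apply, if_pos (isConj_iff.mpr ⟨s, rfl⟩)]
    · intro g _ hg
      split_ifs with hgq
      · rw [classInd_apply, if_neg]
        intro hc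
        have h1 : g * (s * x * s⁻¹)⁻¹ ∈ N := by
          rw [← QuotientGroup.eq_one_iff, QuotientGroup.mk_mul, QuotientGroup.mk_inv, hgq, ← ht]
          exact mul_inv_cancel _
        have h2 : g * (s * x * s⁻¹)⁻¹ ≠ 1 := by
          intro h
          exact hg (mul_inv_eq_one.mp h)
        have h3 : ¬ p ∣ orderOf (s * x * s⁻¹) := by rwa [orderOf_conj_eq]
        have h4 := dvd_orderOf_mul_of_le_cen N hp hN h1 h2 h3 (le_cen_conj N hNx s)
        rw [inv_mul_cancel_right] at h4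
        obtain ⟨r, rfl⟩ := isConj_iff.mp hc
        rw [orderOf_conj_eq] at h4
        exact hx h4
      · rfl
    · intro h; exact absurd (Finset.mem_univ _) h
  · refine Finset.sum_eq_zero fun g _ => ?_
    split_ifs with hgq
    · rw [classInd_apply, if_neg]
      intro hc
      apply hq
      rw [← hgq]
      obtain ⟨r, rfl⟩ := isConj_iff.mp hc
      exact isConj_iff.mpr ⟨(r : G ⧸ N), rfl⟩
    · rfl

/-- The central characters vanish mod `M` on the classes not centralizing a normal `p`-subgroup. -/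
theorem centralChar_memLocalIdeal_of_not_le_cen [Fact p.Prime] (hM : IsPModular p M)
    (hN : IsPGroup p N) (χ : IrrCharacter G) {q : G} (hq : ¬ N ≤ cen q) :
    MemLocalIdeal M (centralChar (χ : G → ℂ) q) := by
  have := IsPModular.isPrime hM
  by_contra hcon
  apply hq
  have hB : IsPBlock M (blockOf M (χ : G → ℂ)) := ⟨χ, rfl⟩
  obtain ⟨D₀, hD₀⟩ := exists_isDefectGroup hM hB
  obtain ⟨g₀, hg₀, hS₀⟩ := isDefectGroup_iff.mp hD₀
  obtain ⟨S, hS⟩ := exists_isSylIn p (cen q)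
  obtain ⟨t, ht⟩ := exists_le_cj_of_unit hM hB
    (not_memLocalIdeal_centralChar_of_exists hB ⟨χ, mem_blockOf_self χ, hcon⟩)
    (isDefectClass_iff.mp hg₀).2.1 hS₀.isPGroup hS₀.le hS
  have h1 : N ≤ cj t (cen q) :=
    ((normal_le_defectGroup hM hB hD₀ inferInstance hN).trans ht).trans (cj_mono hS.le)
  rw [← centralizer_singleton_cj] at h1
  have h2 := le_cen_conj N h1 t⁻¹
  have h3 : t⁻¹ * (t * q * t⁻¹) * t⁻¹⁻¹ = q := by group
  rwa [h3] at h2

/-- Inflation from `G ⧸ D'` reflects blocks, for a normal `p`-subgroup `D`. -/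
theorem sameBlock_of_infl_commutator [Fact p.Prime] (hM : IsPModular p M) (D : Subgroup G)
    [D.Normal] (hD : IsPGroup p D) (χ ψ : IrrCharacter (G ⧸ ⁅D, D⁆))
    (h : SameBlock M (infl ⁅D, D⁆ (χ : G ⧸ ⁅D, D⁆ → ℂ)) (infl ⁅D, D⁆ (ψ : G ⧸ ⁅D, D⁆ → ℂ))) :
    SameBlock M (χ : G ⧸ ⁅D, D⁆ → ℂ) (ψ : G ⧸ ⁅D, D⁆ → ℂ) := by
  have := IsPModular.isPrime hM
  have hN : IsPGroup p (⁅D, D⁆ : Subgroup G) := hD.to_le (Subgroup.commutator_le_self D)
  apply sameBlock_of_reg hM
  intro q hq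
  by_cases hDq : D.map (QuotientGroup.mk' ⁅D, D⁆) ≤ cen q
  · obtain ⟨x, hx, rfl⟩ := exists_reg_lift ⁅D, D⁆ hM.1 hq
    have hDx := le_cen_of_map_le_cen hD hx hDq
    rw [← om_classInd (irr_isClassFunction χ.2), ← om_classInd (irr_isClassFunction ψ.2),
      ← push_classInd_of_le_cen ⁅D, D⁆ hM.1 hN hx ((Subgroup.commutator_le_self D).trans hDx),
      ← om_infl, ← om_infl,
      om_classInd (irr_isClassFunction (isIrrCharacter_infl ⁅D, D⁆ χ.2)),
      om_classInd (irr_isClassFunction (isIrrCharacter_infl ⁅D, D⁆ ψ.2))]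
    exact h x
  · have hn : (D.map (QuotientGroup.mk' ⁅D, D⁆)).Normal :=
      Subgroup.Normal.map inferInstance _ (QuotientGroup.mk'_surjective _)
    exact MemLocalIdeal.sub
      (centralChar_memLocalIdeal_of_not_le_cen _ hM (hD.map _) χ hDq)
      (centralChar_memLocalIdeal_of_not_le_cen _ hM (hD.map _) ψ hDq)

end blocks

end Cfsg.Agent.Lib.Helper6
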