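import Mathlib
import Cfsg.Prelude.Def_Blocks
import Cfsg.Agent.Lib.Helper6.Cover3
import Cfsg.Agent.Lib.Helper6.NilClass2
import Cfsg.Agent.Lib.Helper6.BrauerHom

/-!
# Covering and induction for normal subgroups containing `C_G(Q)`, `Q` a normal `p`-subgroup
-/

set_option autoImplicit false
set_option linter.unusedSectionVars false

namespace Cfsg.Agent.Lib.Helper6

open Cfsg Cfsg.Agent.Lib.Helper2
open scoped ComplexConjugate Classical

attribute [local instance] irrFintype

section

variable {G : Type*} [Group G] [Fintype G] (N : Subgroup G) [hN : N.Normal] [Fintype N]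
  {M : Ideal AlgInt} {p : ℕ}

theorem inducedCentralChar_eq_zero_of_not_mem (ξ : N → ℂ) {g : G} (hg : g ∉ N) :
    inducedCentralChar N ξ g = 0 := by
  rw [inducedCentralChar_eq_om]
  unfold om
  rw [Finset.sum_eq_zero, zero_div]
  intro h _
  show classInd g (h : G) * ξ h = 0
  rw [classInd_apply, if_neg, zero_mul]
  intro hc
  obtain ⟨t, ht⟩ := isConj_iff.mp hc
  apply hg
  have h1 : g = t⁻¹ * (h : G) * t⁻¹⁻¹ := by rw [← ht]; group
  rw [h1]
  exact hN.conj_mem _ h.2 _

/-- If `N` contains the centralizer of a normal `p`-subgroup, a block covering `b` is induced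
by `b`. -/
theorem isInducedBlock_of_covers (hM : IsPModular p M) (Q : Subgroup G) [Q.Normal]
    (hQ : IsPGroup p Q) (hC : Subgroup.centralizer (Q : Set G) ≤ N)
    {b : Set (IrrCharacter N)} (hb : IsPBlock M b) {B : Set (IrrCharacter G)}
    (hB : IsPBlock M B) (h : Covers N B b) : IsInducedBlock M N b B := by
  have := IsPModular.isPrime hM
  refine ⟨hb, hB, fun ξ hξ χ hχ g => ?_⟩
  by_cases hg : g ∈ N
  · have h1 := MemLocalIdeal.neg (h.congr N hB hb χ hχ ξ hξ ⟨g, hg⟩)
    rwa [neg_sub] at h1
  · rw [inducedCentralChar_eq_zero_of_not_mem N _ hg, zero_sub]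
    exact MemLocalIdeal.neg (centralChar_memLocalIdeal_of_not_mem_centralizer hM Q hQ
      (fun hc => hg (hC hc)) χ.2)

end

end Cfsg.Agent.Lib.Helper6
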