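import Mathlib
import Cfsg.Prelude.Def_Blocks
import Cfsg.Agent.Lib.Helper6.Trace
import Cfsg.Agent.Lib.Helper6.NilClass2

/-!
# The Frobenius congruence for traces of `p^k`-th powers in the group algebra
-/

set_option autoImplicit false

namespace Cfsg.Agent.Lib.Helper6

open Cfsg Cfsg.Agent.Lib.Helper2
open scoped ComplexConjugate Classical

attribute [local instance] irrFintype

section words

variable {G : Type*} [Group G] [Fintype G] {p : ℕ}

omit [Fintype G] in
theorem wrot_one_eq_self_iff {N : ℕ} [NeZero N] (w : Fin N → G) :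
    wrot (1 : G) w = w ↔ ∃ g, w = fun _ => g := by
  constructor
  · intro h
    have h1 : (wrot (1 : G))^[1] w = w := h
    have h2 : ∀ i, wext (1 : G) w i = wext (1 : G) w 0 := by
      intro i
      induction i with
      | zero => rfl
      | succ i ih => rw [wext_periodic_of_iterate (1 : G) h1 i, ih]
    refine ⟨wext (1 : G) w 0, ?_⟩
    ext i
    rw [← wext_coe (1 : G) w i, h2]
  · rintro ⟨g, rfl⟩
    ext i
    simp [wrot, wext]

/-- Frobenius congruence: the trace of `x^(p^k)` against a class function. -/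
theorem words_frobenius (hp : p.Prime) (k : ℕ) (x : G → ℂ)
    (φ : G → ℂ) (hφ : ∀ g y, φ (y * g * y⁻¹) = φ g)
    (S : Subring ℂ) (hxS : ∀ g, x g ∈ S) (hφS : ∀ g, φ g ∈ S) :
    ∃ t ∈ S, ∑ w : Fin (p ^ k) → G, (∏ i, x (w i)) * φ (List.ofFn w).prod =
      ∑ g, x g ^ (p ^ k) * φ (g ^ (p ^ k)) + (p : ℂ) * t := by
  have : NeZero (p ^ k) := ⟨pow_ne_zero k hp.ne_zero⟩
  have hL : (1 : G) ^ 1 = 1 := one_pow 1
  let F : (Fin (p ^ k) → G) → ℂ := fun w => (∏ i, x (w i)) * φ (List.ofFn w).prod
  have hF : ∀ w, F (wrot (1 : G) w) = F w := by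
    intro w
    simp only [F]
    rw [prod_wrot (1 : G) x (by simp)]
    have := ofFn_wrot_mul (1 : G) φ hφ w
    rw [mul_one, mul_one] at this
    rw [this]
  let σ := wrotPerm (N := p ^ k) (1 : G) Nat.one_pos hL
  have hσ : ∀ w, σ w = wrot (1 : G) w := fun w => rfl
  obtain ⟨t, ht, hsum⟩ := sum_eq_mul_of_dvd_period σ p
    (fun w => if wrot (1 : G) w = w then 0 else F w) (by
      intro w
      rw [hσ, hF]
      refine if_congr ?_ rfl rfl
      constructor
      · intro h
        exact σ.injective h
      · intro h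
        rw [h, h]) (by
      intro w hw
      have hne : wrot (1 : G) w ≠ w := by
        intro h
        apply hw
        rw [if_pos h]
      have h1 : Function.minimalPeriod σ w ∣ p ^ k := by
        apply Function.IsPeriodicPt.minimalPeriod_dvd
        have := wrot_iterate_eq_self (N := p ^ k) (1 : G) hL w
        rw [mul_one] at this
        exact this
      obtain ⟨j, -, hj⟩ := (Nat.dvd_prime_pow hp).mp h1
      rw [hj]
      cases j with
      | zero =>
        exfalso
        apply hne
        rw [pow_zero] at hj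
        have := Function.isPeriodicPt_minimalPeriod σ w
        rw [hj] at this
        exact this
      | succ j => exact dvd_pow_self p (Nat.succ_ne_zero j)) S.toAddSubgroup (by
      intro w
      split_ifs
      · exact S.zero_mem
      · exact S.mul_mem (S.prod_mem fun i _ => hxS _) (hφS _))
  refine ⟨t, ht, ?_⟩
  have h1 : ∑ w : Fin (p ^ k) → G, F w = ∑ w : Fin (p ^ k) → G,
      ((if wrot (1 : G) w = w then F w else 0) + if wrot (1 : G) w = w then 0 else F w) := by
    refine Finset.sum_congr rfl fun w _ => ?_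
    split_ifs <;> simp
  have h2 : ∑ w : Fin (p ^ k) → G, (if wrot (1 : G) w = w then F w else 0) =
      ∑ g, x g ^ (p ^ k) * φ (g ^ (p ^ k)) := by
    rw [← Finset.sum_filter]
    have h3 : (Finset.univ.filter fun w : Fin (p ^ k) → G => wrot (1 : G) w = w) =
        Finset.univ.image (fun g : G => fun _ : Fin (p ^ k) => g) := by
      ext w
      simp only [Finset.mem_filter, Finset.mem_univ, true_and, Finset.mem_image]
      rw [wrot_one_eq_self_iff]
      constructor
      · rintro ⟨g, rfl⟩; exact ⟨g, rfl⟩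
      · rintro ⟨g, rfl⟩; exact ⟨g, rfl⟩
    rw [h3, Finset.sum_image]
    · refine Finset.sum_congr rfl fun g _ => ?_
      simp only [F, Finset.prod_const, Finset.card_univ, Fintype.card_fin, List.ofFn_const,
        List.prod_replicate]
    · intro a _ b _ hab
      exact congrFun hab ⟨0, NeZero.pos _⟩
  change ∑ w : Fin (p ^ k) → G, F w = _
  rw [h1, Finset.sum_add_distrib, h2, hsum]

/-- Right translation of an element of the group algebra by a group element. -/
noncomputable def rsh (h : G) (A : G → ℂ) : G → ℂ := fun y => A (y * h⁻¹)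

omit [Fintype G] in
theorem rsh_apply (h : G) (A : G → ℂ) (y : G) : rsh h A y = A (y * h⁻¹) := rfl

theorem conv_rsh (h k : G) (A : G → ℂ) {C : G → ℂ} (hC : IsClassFunction G C) :
    conv (rsh h A) (rsh k C) = rsh (h * k) (conv A C) := by
  ext y
  simp only [conv_apply, rsh]
  refine Fintype.sum_equiv (Equiv.mulRight h⁻¹) _ _ fun x => ?_
  simp only [Equiv.coe_mulRight]
  congr 1
  have := hC (x⁻¹ * y * k⁻¹) h
  rw [← this]
  congr 1
  group

theorem cpow_rsh (h : G) {w : G → ℂ} (hw : IsClassFunction G w) (n : ℕ) :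
    cpow (rsh h w) n = rsh (h ^ n) (cpow w n) := by
  induction n with
  | zero =>
    ext y
    simp [cpow_zero, rsh]
  | succ n ih =>
    rw [cpow_succ, ih, conv_rsh h (h ^ n) w (isClassFunction_cpow hw n), ← pow_succ', cpow_succ]

end words

section approx

variable {G : Type*} [Group G] [Fintype G] {M : Ideal AlgInt} {p : ℕ}

/-- High `p`-power powers of a central element which is congruent to an idempotent on all central
characters converge to the idempotent. -/
theorem exists_cpow_sub_memLocalIdeal (hM : IsPModular p M) [M.IsPrime]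
    {a : IrrCharacter G → ℂ} (ha : a ∈ ZS M G) {B : Set (IrrCharacter G)}
    (hBZ : B.indicator 1 ∈ ZS M G) (hcong : ∀ χ, MemLocalIdeal M (a χ - B.indicator 1 χ)) :
    ∃ K, ∀ k, K ≤ k → ∀ g, MemLocalIdeal M (cpow (coef a) (p ^ k) g - coef (B.indicator 1) g) := by
  set n : IrrCharacter G → ℂ := a - B.indicator 1 with hn
  have hnZ : n ∈ ZS M G := Subring.sub_mem _ ha hBZ
  obtain ⟨K, hK⟩ := topNil_coef hM (a := n) hcong 1
  refine ⟨K, fun k hk g => ?_⟩
  obtain ⟨r, hr⟩ := exists_add_pow_prime_pow_eq hM.1 (⟨B.indicator 1, hBZ⟩ : ZS M G) ⟨n, hnZ⟩ k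
  have hr' : (B.indicator 1 + n) ^ (p ^ k) = (B.indicator 1 : IrrCharacter G → ℂ) ^ (p ^ k) +
      n ^ (p ^ k) + (p : ℂ) • ((B.indicator 1 : IrrCharacter G → ℂ) * n *
        (r : IrrCharacter G → ℂ)) := by
    have := congrArg (fun z : ZS M G => (z : IrrCharacter G → ℂ)) hr
    simp only [Subring.coe_add, Subring.coe_pow, Subring.coe_mul, Subring.coe_natCast] at this
    rw [this]
    congr 1
    ext ψ
    simp [mul_assoc]
  have hidem : (B.indicator 1 : IrrCharacter G → ℂ) ^ (p ^ k) = B.indicator 1 := by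
    ext ψ
    rw [Pi.pow_apply]
    by_cases hψ : ψ ∈ B
    · simp [Set.indicator_of_mem hψ]
    · rw [Set.indicator_of_notMem hψ]
      exact zero_pow (pow_pos hM.1.pos k).ne'
  have hadd : B.indicator 1 + n = a := by rw [hn]; ring
  rw [hadd, hidem] at hr'
  have h1 := congrArg (fun a => coef a g) hr'
  simp only [coef_add, coef_smul, coef_pow, Pi.add_apply, Pi.smul_apply, smul_eq_mul] at h1
  rw [h1]
  have h2 : coef (B.indicator 1) g + cpow (coef n) (p ^ k) g +
      (p : ℂ) * coef ((B.indicator 1 : IrrCharacter G → ℂ) * n * (r : IrrCharacter G → ℂ)) g -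
      coef (B.indicator 1) g = cpow (coef n) (p ^ k) g +
      (p : ℂ) * coef ((B.indicator 1 : IrrCharacter G → ℂ) * n * (r : IrrCharacter G → ℂ)) g := by
    ring
  rw [h2]
  refine MemLocalIdeal.add ?_ ?_
  · exact PDiv.memLocalIdeal hM one_pos (hK (p ^ k) (hk.trans (Nat.lt_pow_self hM.1.one_lt).le) g)
  · exact MemLocalIdeal.mul_right (memLocalIdeal_p hM)
      ((Subring.mul_mem _ (Subring.mul_mem _ hBZ hnZ) r.2) g)

end approx

end Cfsg.Agent.Lib.Helper6
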