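import Mathlib
import Cfsg.Prelude.Def_Blocks
import Cfsg.Agent.Lib.Helper6.Green
import Cfsg.Agent.Lib.Helper6.Cover

/-!
# Green's theorem on defect groups as Sylow intersections (weak form)
-/

set_option autoImplicit false

namespace Cfsg.Agent.Lib.Helper6

open Cfsg Cfsg.Agent.Lib.Helper2 Cfsg.Agent.Lib.Helper24
open scoped ComplexConjugate Classical

attribute [local instance] irrFintype

section coset

variable {G : Type*} [Group G] [Fintype G]

theorem card_orbit_mul_card_stabilizer {K Ω : Type*} [Group K] [MulAction K Ω] (w : Ω) :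
    Nat.card (MulAction.orbit K w) * Nat.card (MulAction.stabilizer K w) = Nat.card K := by
  rw [← Nat.card_prod]
  exact Nat.card_congr (MulAction.orbitProdStabilizerEquivGroup K w)

/-- The sum of `e` over the coset `s P`. -/
noncomputable def cosetSum (P : Subgroup G) (e : G → ℂ) (s : G) : ℂ :=
  ∑ g, if s⁻¹ * g ∈ P then e g else 0

theorem cosetSum_eq (P : Subgroup G) (e : G → ℂ) (s : G) :
    cosetSum P e s = ∑ u : P, e (s * u) := by
  rw [cosetSum, ← Equiv.sum_comp (Equiv.mulLeft s)]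
  simp only [Equiv.coe_mulLeft, inv_mul_cancel_left]
  rw [sum_eq_sum_subgroup_of_support P (f := fun x => if x ∈ P then e (s * x) else 0)
    (fun g hg => if_neg hg)]
  refine Finset.sum_congr rfl fun u _ => ?_
  rw [if_pos u.2]

theorem cosetSum_mul_right (P : Subgroup G) (e : G → ℂ) (s : G) {v : G} (hv : v ∈ P) :
    cosetSum P e (s * v) = cosetSum P e s := by
  rw [cosetSum, cosetSum]
  refine Finset.sum_congr rfl fun g _ => ?_
  refine if_congr ?_ rfl rfl
  rw [mul_inv_rev, mul_assoc]
  exact P.mul_mem_cancel_left (P.inv_mem hv)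

theorem cosetSum_mul_left (P : Subgroup G) {e : G → ℂ} (he : IsClassFunction G e) (s : G) {v : G}
    (hv : v ∈ P) : cosetSum P e (v * s) = cosetSum P e s := by
  rw [cosetSum, cosetSum]
  refine Fintype.sum_equiv (MulAut.conj v⁻¹).toEquiv _ _ fun g => ?_
  have h1 : (MulAut.conj v⁻¹).toEquiv g = v⁻¹ * g * v := by simp
  rw [h1]
  have h2 : e (v⁻¹ * g * v) = e g := by
    have := he g v⁻¹
    rwa [inv_inv] at this
  rw [h2]
  refine if_congr ?_ rfl rfl
  have h3 : s⁻¹ * (v⁻¹ * g * v) = (v * s)⁻¹ * g * v := by group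
  rw [h3]
  exact (P.mul_mem_cancel_right hv).symm

theorem sum_cosetSum_mul (P : Subgroup G) {e : G → ℂ} (he : IsClassFunction G e)
    (hidem : conv e e = e) (hvan : ∀ u : P, u ≠ 1 → e u = 0) :
    ∑ s, cosetSum P e s * cosetSum P e s⁻¹ = (Nat.card P : ℂ) * e 1 := by
  simp only [cosetSum_eq, Finset.sum_mul_sum]
  rw [Finset.sum_comm]
  have h1 : ∀ u u' : P, ∑ s : G, e (s * u) * e (s⁻¹ * u') = e ((u' * u : P) : G) := by
    intro u u'
    conv_rhs => rw [← hidem]
    rw [conv_apply]
    refine Fintype.sum_equiv (Equiv.mulRight (u : G)) _ _ fun s => ?_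
    simp only [Equiv.coe_mulRight]
    congr 1
    have := he ((s * (u : G))⁻¹ * ((u' * u : P) : G)) (u : G)
    rw [← this]
    congr 1
    simp only [Subgroup.coe_mul]
    group
  have h2 : ∀ u : P, ∑ s : G, ∑ u' : P, e (s * u) * e (s⁻¹ * u') = e 1 := by
    intro u
    rw [Finset.sum_comm]
    simp only [h1]
    have h3 : ∑ x : P, e ((x * u : P) : G) = ∑ x : P, e (x : G) :=
      Equiv.sum_comp (Equiv.mulRight u) (fun x : P => e (x : G))
    rw [h3, Finset.sum_eq_single (1 : P)]
    · rfl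
    · intro x _ hx
      exact hvan x hx
    · intro h; exact absurd (Finset.mem_univ _) h
  simp only [h2]
  rw [Finset.sum_const, Finset.card_univ, nsmul_eq_mul, Nat.card_eq_fintype_card]

end coset

section green

variable {G : Type*} [Group G] [Fintype G] {M : Ideal AlgInt} {p : ℕ}

theorem coset_mem_conj_iff {P : Subgroup G} {s v g : G} (hv : v ∈ P ⊓ cj s P) :
    s⁻¹ * (v * g * v⁻¹) ∈ P ↔ s⁻¹ * g ∈ P := by
  have h1 : s⁻¹ * v * s ∈ P := mem_cj.mp hv.2
  have h2 : s⁻¹ * (v * g * v⁻¹) = (s⁻¹ * v * s) * (s⁻¹ * g) * v⁻¹ := by group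
  rw [h2, P.mul_mem_cancel_right (P.inv_mem hv.1), P.mul_mem_cancel_left h1]

theorem pDiv_cosetSum [Fact p.Prime] (hM : IsPModular p M) {B : Set (IrrCharacter G)}
    (hB : IsPBlock M B) {P : Subgroup G} (hP : IsPGroup p P) (s : G) {m r : ℕ}
    (hm : ∀ χ ∈ B, m ≤ (charDegree (χ : G → ℂ)).factorization p)
    (hr : Nat.card (P ⊓ cj s P : Subgroup G) = p ^ r) :
    PDiv M p (m + r - (Nat.card G).factorization p)
      (cosetSum P (coef (B.indicator 1)) s) := by
  have := IsPModular.isPrime hM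
  set R : Subgroup G := P ⊓ cj s P with hR
  have hRp : IsPGroup p R := hP.to_le inf_le_left
  set e : G → ℂ := coef (B.indicator 1) with he
  have hecl : IsClassFunction G e := isClassFunction_coef _
  let _ : MulAction R G := MulAction.compHom G (conjPerm R)
  have hsmul : ∀ (v : R) (g : G), v • g = (v : G) * g * (v : G)⁻¹ := fun _ _ => rfl
  rw [← mem_pDivGroup, cosetSum]
  apply sum_mem_of_orbit (K := R)
  · intro v g
    rw [hsmul, hecl]
    exact if_congr (coset_mem_conj_iff v.2) rfl rfl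
  · intro g
    by_cases hg : s⁻¹ * g ∈ P
    · rw [if_pos hg, mem_pDivGroup]
      obtain ⟨n, hn⟩ := hRp.card_orbit g
      obtain ⟨c, hc⟩ := IsPGroup.iff_card.mp (hRp.to_subgroup (MulAction.stabilizer R g))
      have h1 := card_orbit_mul_card_stabilizer (K := R) g
      rw [hn, hc, hr, ← pow_add] at h1
      have h2 : n + c = r := Nat.pow_right_injective hM.1.two_le h1
      have h3 : PDiv M p (m + c - (Nat.card G).factorization p) (e g) := by
        apply pDiv_coef_indicator hM hB (Q := (MulAction.stabilizer R g).map R.subtype) _ _ hm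
        · rw [Subgroup.card_map_of_injective R.subtype_injective, hc]
        · exact (hRp.to_subgroup _).map _
        · rintro _ ⟨v, hv, rfl⟩
          have h4 : v • g = g := hv
          rw [hsmul] at h4
          rw [Subgroup.mem_centralizer_singleton_iff]
          exact mul_inv_eq_iff_eq_mul.mp h4
      rw [hn]
      have h5 : PDiv M p n ((p ^ n : ℕ) : ℂ) := ⟨1, memLocalRing_one, by push_cast; ring⟩
      exact PDiv.mono (by omega) (PDiv.mul h5 h3)
    · rw [if_neg hg, mul_zero]
      exact AddSubgroup.zero_mem _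

/-- The action of `P × P` on `G` by left and right multiplication. -/
def biAction (P : Subgroup G) : MulAction (P × P) G where
  smul := fun k x => (k.1 : G) * x * (k.2 : G)⁻¹
  one_smul := by
    intro x
    change ((1 : P × P).1 : G) * x * ((1 : P × P).2 : G)⁻¹ = x
    simp
  mul_smul := by
    intro k k' x
    change ((k * k').1 : G) * x * ((k * k').2 : G)⁻¹ =
      (k.1 : G) * ((k'.1 : G) * x * (k'.2 : G)⁻¹) * (k.2 : G)⁻¹
    simp [mul_assoc]

omit [Fintype G] in
theorem card_stabilizer_biAction (P : Subgroup G) (s : G) :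
    Nat.card (@MulAction.stabilizer (P × P) G _ (biAction P) s) =
      Nat.card (P ⊓ cj s P : Subgroup G) := by
  let _ := biAction P
  have hsmul : ∀ (k : P × P) (x : G), k • x = (k.1 : G) * x * (k.2 : G)⁻¹ := fun _ _ => rfl
  apply Nat.card_congr
  refine ⟨fun k => ⟨(k.1.1 : G), k.1.1.2, ?_⟩,
    fun v => ⟨(⟨v.1, v.2.1⟩, ⟨s⁻¹ * v.1 * s, mem_cj.mp v.2.2⟩), ?_⟩, ?_, ?_⟩
  · have h1 : k.1 • s = s := k.2
    rw [hsmul] at h1
    refine mem_cj.mpr ?_
    have h2 : s⁻¹ * (k.1.1 : G) * s = (k.1.2 : G) := by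
      have h3 : (k.1.1 : G) * s = s * (k.1.2 : G) := mul_inv_eq_iff_eq_mul.mp h1
      rw [mul_assoc, h3]
      group
    rw [h2]
    exact k.1.2.2
  · change ((⟨v.1, v.2.1⟩, ⟨s⁻¹ * v.1 * s, mem_cj.mp v.2.2⟩) : P × P) • s = s
    rw [hsmul]
    simp only
    group
  · intro k
    apply Subtype.ext
    apply Prod.ext
    · rfl
    · apply Subtype.ext
      have h1 : k.1 • s = s := k.2
      rw [hsmul] at h1
      have h3 : (k.1.1 : G) * s = s * (k.1.2 : G) := mul_inv_eq_iff_eq_mul.mp h1
      change s⁻¹ * (k.1.1 : G) * s = (k.1.2 : G)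
      rw [mul_assoc, h3]
      group
  · intro v
    rfl

omit [Fintype G] in
theorem card_inf_cj_inv (P : Subgroup G) (s : G) :
    Nat.card (P ⊓ cj s⁻¹ P : Subgroup G) = Nat.card (P ⊓ cj s P : Subgroup G) := by
  have h1 : cj s (P ⊓ cj s⁻¹ P) = P ⊓ cj s P := by
    have h2 : cj s (P ⊓ cj s⁻¹ P) = cj s P ⊓ cj s (cj s⁻¹ P) :=
      Subgroup.map_inf P (cj s⁻¹ P) (MulAut.conj s).toMonoidHom (MulAut.conj s).injective
    rw [h2, cj_cj, mul_inv_cancel, cj_one, inf_comm]
  rw [← h1, card_cj]

theorem exists_cosetSum_unit [Fact p.Prime] (hM : IsPModular p M) {B : Set (IrrCharacter G)}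
    (hB : IsPBlock M B) (P : Subgroup G) (hPp : IsPGroup p P)
    (hPc : Nat.card P = p ^ (Nat.card G).factorization p) {χ₀ : IrrCharacter G} (hχ₀ : χ₀ ∈ B)
    (h0 : blockHeight p B (χ₀ : G → ℂ) = 0) :
    ∃ s : G, Nat.card (P ⊓ cj s P : Subgroup G) =
        p ^ ((Nat.card G).factorization p - (charDegree (χ₀ : G → ℂ)).factorization p) ∧
      ¬ MemLocalIdeal M (cosetSum P (coef (B.indicator 1)) s) := by
  have := IsPModular.isPrime hM
  have hp : p.Prime := hM.1
  set a := (Nat.card G).factorization p with ha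
  set m := (charDegree (χ₀ : G → ℂ)).factorization p with hm
  have hma : m ≤ a := (Nat.factorization_le_iff_dvd (charDegree_pos χ₀.2).ne'
      Nat.card_pos.ne').mpr (degree_dvd_card χ₀.2) p
  have hmB : ∀ χ ∈ B, m ≤ (charDegree (χ : G → ℂ)).factorization p :=
    fun χ hχ => factorization_le_of_height_zero h0 hχ
  set e : G → ℂ := coef (B.indicator 1) with he
  have hecl : IsClassFunction G e := isClassFunction_coef _
  by_contra hcon
  push Not at hcon
  have hstar := sum_cosetSum_mul P hecl (coef_indicator_idem B) (by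
    intro u hu
    apply coef_indicator_eq_zero hM hB
    obtain ⟨k, hk⟩ := (IsPGroup.iff_orderOf.mp hPp) u
    rw [Subgroup.orderOf_coe, hk]
    cases k with
    | zero =>
      rw [pow_zero, orderOf_eq_one_iff] at hk
      exact absurd hk hu
    | succ k => exact dvd_pow_self p (Nat.succ_ne_zero k))
  let _ := biAction P
  have hsmul : ∀ (k : P × P) (x : G), k • x = (k.1 : G) * x * (k.2 : G)⁻¹ := fun _ _ => rfl
  have hKp : IsPGroup p (P × P) := by
    apply IsPGroup.of_card (n := a + a)
    rw [Nat.card_prod, hPc, pow_add]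
  have hmem : ∑ s, cosetSum P e s * cosetSum P e s⁻¹ ∈ pDivIGroup M p (a + m) := by
    apply sum_mem_of_orbit (K := P × P)
    · intro k s
      rw [hsmul]
      have h1 : ((k.1 : G) * s * (k.2 : G)⁻¹)⁻¹ = (k.2 : G) * s⁻¹ * (k.1 : G)⁻¹ := by group
      rw [h1, cosetSum_mul_right _ _ _ (Subgroup.inv_mem _ k.2.2),
        cosetSum_mul_left _ hecl _ k.1.2, cosetSum_mul_right _ _ _ (Subgroup.inv_mem _ k.1.2),
        cosetSum_mul_left _ hecl _ k.2.2]
    · intro s
      obtain ⟨n, hn⟩ := hKp.card_orbit s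
      obtain ⟨r, hr⟩ := IsPGroup.iff_card.mp (hPp.to_le (inf_le_left : P ⊓ cj s P ≤ P))
      have h1 := card_orbit_mul_card_stabilizer (K := P × P) s
      rw [hn, card_stabilizer_biAction, hr, Nat.card_prod, hPc, ← pow_add, ← pow_add] at h1
      have h2 : n + r = a + a := Nat.pow_right_injective hp.two_le h1
      have h3 := pDiv_cosetSum hM hB hPp s hmB hr
      have h4 := pDiv_cosetSum hM hB hPp s⁻¹ hmB ((card_inf_cj_inv _ s).trans hr)
      rw [hn]
      have h5 : PDiv M p n ((p ^ n : ℕ) : ℂ) := ⟨1, memLocalRing_one, by push_cast; ring⟩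
      have h6 := PDiv.mul h5 (PDiv.mul h3 h4)
      by_cases hrd : r = a - m
      · have h7 := hcon s (by rw [hr, hrd])
        have hn' : n = a + m := by omega
        refine ⟨cosetSum P e s * cosetSum P e s⁻¹,
          MemLocalIdeal.mul_right h7 h4.memLocalRing, ?_⟩
        rw [hn']
        push_cast
        ring
      · exact mem_pDivIGroup_of_pDiv hM (by omega) h6
  rw [hstar, hPc] at hmem
  obtain ⟨y, hy, hye⟩ := hmem
  have hp0 : (p : ℂ) ≠ 0 := by exact_mod_cast hp.ne_zero
  have h8 : e 1 = (p : ℂ) ^ m * y := by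
    push_cast at hye
    rw [pow_add, mul_assoc] at hye
    exact mul_left_cancel₀ (pow_ne_zero a hp0) hye
  apply (coef_indicator_one_div hM hB hχ₀ h0).2
  rw [← he, h8, ← charDegree_cast (IsIrrCharacter.isCharacter χ₀.2)]
  have h9 : MemLocalRing M (((p ^ m : ℕ) : ℂ) / ((charDegree (χ₀ : G → ℂ) : ℕ) : ℂ)) := by
    apply memLocalRing_natCast_div hM (pow_pos hp.pos m).ne' (charDegree_pos χ₀.2).ne'
    rw [Nat.factorization_pow, hp.factorization]
    simp [hm]
  have h10 := MemLocalIdeal.mul_left h9 hy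
  convert h10 using 1
  push_cast
  ring

/-- **Green's theorem**, weak form: for every Sylow `p`-subgroup `P` some defect group of `B` has
the form `P ∩ g P g⁻¹` with `g` a `p`-regular element in whose centralizer it is Sylow. -/
theorem weak_green [Fact p.Prime] (hM : IsPModular p M) {B : Set (IrrCharacter G)}
    (hB : IsPBlock M B) (P : Subgroup G) (hPp : IsPGroup p P)
    (hPc : Nat.card P = p ^ (Nat.card G).factorization p) :
    ∃ g : G, ¬ p ∣ orderOf g ∧ IsSylIn p (cen g) (P ⊓ cj g P) ∧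
      IsDefectGroup p M B (P ⊓ cj g P) := by
  have := IsPModular.isPrime hM
  obtain ⟨χ₀, hχ₀, h0⟩ := exists_height_zero (p := p) (IsPBlock.nonempty hB)
  obtain ⟨s, hs, hu⟩ := exists_cosetSum_unit hM hB P hPp hPc hχ₀ h0
  set R : Subgroup G := P ⊓ cj s P with hR
  have hRp : IsPGroup p R := hPp.to_le inf_le_left
  set e : G → ℂ := coef (B.indicator 1) with he
  have hecl : IsClassFunction G e := isClassFunction_coef _
  have heS : ∀ g, MemLocalRing M (e g) := IsPBlock.indicator_mem_ZS hB
  obtain ⟨t, ht, hsum⟩ := sum_eq_sum_fixed_add hRp (conjPerm R)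
    (fun g => if s⁻¹ * g ∈ P then e g else 0) (by
      intro v g
      rw [conjPerm_apply, hecl]
      exact if_congr (coset_mem_conj_iff v.2) rfl rfl) (localSubring M).toAddSubgroup (by
      intro g
      split_ifs
      · exact heS g
      · exact memLocalRing_zero)
  obtain ⟨g, hg1, hg2, hg3⟩ : ∃ g, g ∈ Subgroup.centralizer (R : Set G) ∧ s⁻¹ * g ∈ P ∧
      ¬ MemLocalIdeal M (e g) := by
    by_contra hcon
    push Not at hcon
    apply hu
    rw [cosetSum, hsum]
    refine MemLocalIdeal.add (MemLocalIdeal.sum _ fun g _ => ?_)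
      (MemLocalIdeal.mul_right (memLocalIdeal_p hM) ht)
    by_cases h1 : ∀ k, conjPerm R k g = g
    · rw [if_pos h1]
      by_cases h2 : s⁻¹ * g ∈ P
      · rw [if_pos h2]
        exact hcon g ((conjPerm_fixed_iff R g).mp h1) h2
      · rw [if_neg h2]
        exact memLocalIdeal_zero
    · rw [if_neg h1]
      exact memLocalIdeal_zero
  have hcj : cj g P = cj s P := by
    have h1 : g = s * (s⁻¹ * g) := by group
    rw [h1, ← cj_cj, cj_of_mem hg2]
  refine ⟨g, ?_, ?_⟩
  · intro h
    apply hg3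
    rw [he, coef_indicator_eq_zero hM hB h]
    exact memLocalIdeal_zero
  rw [hcj, ← hR]
  have hRg : R ≤ cen g := le_cen_iff.mpr hg1
  obtain ⟨Q', hQ', hRQ'⟩ := exists_isSylIn_ge hRp hRg
  obtain ⟨D', hD', hQD'⟩ := exists_isDefectGroup_ge hM hB hg3 hQ'.isPGroup hQ'.le
  have hcD' := IsDefectGroup.card_eq hM hB hD'
  have hdef : blockDefect p B =
      (Nat.card G).factorization p - (charDegree (χ₀ : G → ℂ)).factorization p := by
    rw [blockDefect]
    rw [blockHeight] at h0
    have h1 : sInf ((fun ψ : IrrCharacter G => (charDegree (ψ : G → ℂ)).factorization p) '' B) ≤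
      (charDegree (χ₀ : G → ℂ)).factorization p := Nat.sInf_le ⟨χ₀, hχ₀, rfl⟩
    have h2 : sInf ((fun ψ : IrrCharacter G => (charDegree (ψ : G → ℂ)).factorization p) '' B) =
      (charDegree (χ₀ : G → ℂ)).factorization p := by omega
    rw [h2]
  have hcard : Nat.card D' ≤ Nat.card R := by rw [hcD', hs, hdef]
  have hRD' : R = D' := Subgroup.eq_of_le_of_card_ge (hRQ'.trans hQD') hcard
  have hRQ : R = Q' := le_antisymm hRQ' (by rw [hRD']; exact hQD')
  constructor
  · rw [hRQ]; exact hQ'
  · rw [hRD']; exact hD'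

end green

end Cfsg.Agent.Lib.Helper6
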