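import Mathlib
import Cfsg.Prelude.Def_Blocks
import Cfsg.Agent.Lib.Helper6.Subsection2
import Cfsg.Agent.Lib.Helper6.IndBase
import Cfsg.Agent.Lib.Helper6.DefectOrder
import Cfsg.Agent.Lib.Helper2.Induction

/-!
# The block parts of an induced character
-/

set_option autoImplicit false
set_option linter.unusedSectionVars false

namespace Cfsg.Agent.Lib.Helper6

open Cfsg Cfsg.Agent.Lib.Helper2
open scoped ComplexConjugate Classical

attribute [local instance] irrFintype

section

variable {G : Type*} [Group G] [Fintype G] {p : ℕ} {M : Ideal AlgInt}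

/-- The degree of the `S`-part of an induced class function. -/
theorem bPart_indFun_one (H : Subgroup G) [Fintype H] (ξ : H → ℂ) (hξ : ξ 1 ≠ 0)
    (S : Set (IrrCharacter G)) :
    bPart S (indFun H ξ) 1 =
      indFun H ξ 1 * om ξ (fun h : H => coef (S.indicator 1) (h : G)) := by
  have h1 := sum_mul_indFun H ξ (isClassFunction_coef (S.indicator 1))
  have h2 : ∑ g, coef (S.indicator 1) g * indFun H ξ g = bPart S (indFun H ξ) 1 := by
    rw [bPart_apply, Finset.mul_sum]
    refine Finset.sum_congr rfl fun g _ => ?_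
    rw [coef_apply]
    ring
  rw [← h2, h1, indFun_one, om]
  field_simp

/-- comparison of `p`-parts through a local unit. -/
theorem factorization_eq_of_unit (hM : IsPModular p M) {n N : ℕ} (hN : N ≠ 0) {r : ℂ}
    (h : (n : ℂ) = (N : ℂ) * r) (hr : MemLocalRing M r) (hr' : ¬ MemLocalIdeal M r) :
    n ≠ 0 ∧ n.factorization p = N.factorization p := by
  have := IsPModular.isPrime hM
  have hN0 : (N : ℂ) ≠ 0 := by exact_mod_cast hN
  have hn : n ≠ 0 := by
    rintro rfl
    apply hr'
    have : r = 0 := by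
      have h' : (N : ℂ) * r = 0 := by rw [← h]; simp
      rcases mul_eq_zero.mp h' with h | h
      · exact absurd h hN0
      · exact h
    rw [this]
    exact memLocalIdeal_zero
  refine ⟨hn, ?_⟩
  have hr2 : r = (n : ℂ) / (N : ℂ) := by field_simp; rw [h]; ring
  rcases lt_trichotomy (n.factorization p) (N.factorization p) with hlt | heq | hgt
  · exfalso
    have h1 := memLocalIdeal_natCast_div hM hN hn hlt
    apply not_memLocalIdeal_one (M := M)
    have h2 := MemLocalIdeal.mul_right h1 hr
    have hn0 : (n : ℂ) ≠ 0 := by exact_mod_cast hn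
    have h3 : (N : ℂ) / (n : ℂ) * r = 1 := by rw [hr2]; field_simp
    rwa [h3] at h2
  · exact heq
  · exfalso
    apply hr'
    rw [hr2]
    exact memLocalIdeal_natCast_div hM hn hN hgt

theorem factorization_lt_of_memLocalIdeal (hM : IsPModular p M) {n N : ℕ} (hN : N ≠ 0) {r : ℂ}
    (h : (n : ℂ) = (N : ℂ) * r) (hr : MemLocalIdeal M r) :
    n = 0 ∨ N.factorization p < n.factorization p := by
  have := IsPModular.isPrime hM
  by_cases hn : n = 0
  · exact Or.inl hn
  right
  by_contra hcon
  push Not at hcon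
  have hN0 : (N : ℂ) ≠ 0 := by exact_mod_cast hN
  have hn0 : (n : ℂ) ≠ 0 := by exact_mod_cast hn
  have h1 := memLocalRing_natCast_div hM hN hn hcon
  apply not_memLocalIdeal_one (M := M)
  have h2 := MemLocalIdeal.mul_left h1 hr
  have h3 : (N : ℂ) / (n : ℂ) * r = 1 := by
    rw [div_mul_eq_mul_div, ← h, div_self hn0]
  rwa [h3] at h2

/-- The value of the restricted block idempotent under the central character of `ξ ∈ b`. -/
theorem om_res_coef_sub (hM : IsPModular p M) (H : Subgroup G) [Fintype H]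
    {b : Set (IrrCharacter H)} {B₀ : Set (IrrCharacter G)} (hind : IsInducedBlock M H b B₀)
    {ξ : IrrCharacter H} (hξ : ξ ∈ b) {B : Set (IrrCharacter G)} (hB : IsPBlock M B) :
    MemLocalIdeal M (om (ξ : H → ℂ) (fun h : H => coef (B.indicator 1) (h : G)) -
      (if B = B₀ then 1 else 0)) := by
  have := IsPModular.isPrime hM
  obtain ⟨hb, hB₀, hcong⟩ := hind
  obtain ⟨χ, hχ⟩ := IsPBlock.nonempty hB₀
  have h1 := om_res_sub_memLocalIdeal H (irr_isClassFunction χ.2) (hcong ξ hξ χ hχ)
    (isClassFunction_coef (B.indicator 1)) (IsPBlock.indicator_mem_ZS hB)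
  rw [om_coef] at h1
  have h2 : (B.indicator 1 χ : ℂ) = if B = B₀ then 1 else 0 := by
    split_ifs with h
    · rw [h, Set.indicator_of_mem hχ, Pi.one_apply]
    · rw [Set.indicator_of_notMem]
      intro hχB
      exact h (IsPBlock.eq_of_mem_of_mem hB hB₀ hχB hχ)
  rwa [h2] at h1

theorem bPart_one_nat {θ : G → ℂ} (hθ : IsCharacter G θ) (S : Set (IrrCharacter G)) :
    ∃ n : ℕ, bPart S θ 1 = (n : ℂ) := by
  have h1 : ∀ ψ : IrrCharacter G, ∃ n : ℕ,
      (S.indicator 1 ψ * classInner θ (ψ : G → ℂ)) * (ψ : G → ℂ) 1 = (n : ℂ) := by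
    intro ψ
    obtain ⟨m, hm⟩ := IsCharacter.classInner_nat hθ (IsIrrCharacter.isCharacter ψ.2)
    by_cases hψ : ψ ∈ S
    · refine ⟨m * charDegree (ψ : G → ℂ), ?_⟩
      rw [Set.indicator_of_mem hψ, Pi.one_apply, one_mul, hm]
      push_cast
      rw [Cfsg.Agent.Lib.Helper24.charDegree_cast (IsIrrCharacter.isCharacter ψ.2)]
    · exact ⟨0, by rw [Set.indicator_of_notMem hψ]; simp⟩
  choose n hn using h1
  refine ⟨∑ ψ, n ψ, ?_⟩
  simp only [bPart, Finset.sum_apply, Pi.smul_apply, smul_eq_mul]
  push_cast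
  exact Finset.sum_congr rfl fun ψ _ => hn ψ

end

end Cfsg.Agent.Lib.Helper6
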