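import Mathlib
import Cfsg.Prelude.Def_Blocks
import Cfsg.Agent.Lib.Helper6.FirstMain
import Cfsg.Agent.Lib.Helper6.FirstMain2
import Cfsg.Agent.Lib.Helper6.SubAlg
import Cfsg.Agent.Lib.Helper6.CentralHom

/-!
# Blocks of `H` inducing `B` whose idempotent has a unit coefficient at a prescribed element
-/

set_option autoImplicit false
set_option linter.unusedSectionVars false

namespace Cfsg.Agent.Lib.Helper6

open Cfsg Cfsg.Agent.Lib.Helper2
open scoped ComplexConjugate Classical

attribute [local instance] irrFintype

section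

variable {G : Type*} [Group G] [Fintype G] {P H : Subgroup G} [Fintype H] {M : Ideal AlgInt}
  {p : ℕ}

theorem exists_induced_coef_unit (hM : IsPModular p M) (hP : IsPGroup p P) (hPH : P ≤ H)
    (hCH : Subgroup.centralizer (P : Set G) ≤ H) (hHN : H ≤ Subgroup.normalizer (P : Set G))
    {B : Set (IrrCharacter G)} (hB : IsPBlock M B) {g : G}
    (hgP : g ∈ Subgroup.centralizer (P : Set G))
    (hg : ¬ MemLocalIdeal M (coef (B.indicator 1) g)) :
    ∃ b : Set (IrrCharacter H), IsInducedBlock M H b B ∧
      ¬ MemLocalIdeal M (coef (b.indicator 1) (⟨g, hCH hgP⟩ : H)) := by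
  have := IsPModular.isPrime hM
  set e : G → ℂ := coef (B.indicator 1) with he
  have hecl : IsClassFunction G e := isClassFunction_coef _
  have heS : ∀ u, MemLocalRing M (e u) := IsPBlock.indicator_mem_ZS hB
  set f : H → ℂ := brMap P H e with hf
  have hfcl : IsClassFunction H f := isClassFunction_brMap hHN hecl
  have hfS : ∀ u, MemLocalRing M (f u) := memLocalRing_brMap heS
  have hff : ∀ x, MemLocalIdeal M (conv f f x - f x) := by
    intro x
    have h1 := brMap_conv hM hP hCH hecl hecl heS heS x
    rw [he, coef_indicator_idem, ← he] at h1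
    have := MemLocalIdeal.neg h1
    rwa [neg_sub] at this
  set g' : H := ⟨g, hCH hgP⟩ with hg'
  have hfg : ¬ MemLocalIdeal M (f g') := by
    rw [hf, brMap_apply, if_pos hgP]
    exact hg
  set a : IrrCharacter H → ℂ := fun ξ => om (ξ : H → ℂ) f with ha
  have hfa : f = coef a := eq_coef_om hfcl
  -- decomposition of `f`
  have hdec : f = ∑ b ∈ Finset.univ.image (fun χ : IrrCharacter H => blockOf M (χ : H → ℂ)),
      coef (a * b.indicator 1) := by
    rw [← coef_sum, ← Finset.mul_sum, sum_indicator_blocks (M := M), mul_one]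
    exact hfa
  obtain ⟨b, hbmem, hb1⟩ : ∃ b ∈ Finset.univ.image
      (fun χ : IrrCharacter H => blockOf M (χ : H → ℂ)),
      ¬ MemLocalIdeal M (coef (a * b.indicator 1) g') := by
    by_contra hcon
    push Not at hcon
    apply hfg
    rw [hdec, Finset.sum_apply]
    exact MemLocalIdeal.sum _ hcon
  obtain ⟨ξ₀, -, rfl⟩ := Finset.mem_image.mp hbmem
  set b : Set (IrrCharacter H) := blockOf M (ξ₀ : H → ℂ) with hbdef
  have hb : IsPBlock M b := ⟨ξ₀, rfl⟩
  set eb : H → ℂ := coef (b.indicator 1) with heb
  have hebS : ∀ u, MemLocalRing M (eb u) := IsPBlock.indicator_mem_ZS hb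
  have hind2 : (b.indicator 1 : IrrCharacter H → ℂ) * b.indicator 1 = b.indicator 1 := by
    ext ξ
    by_cases h : ξ ∈ b
    · simp [Set.indicator_of_mem h]
    · simp [Set.indicator_of_notMem h]
  -- the error term
  have herr : ∀ x, MemLocalIdeal M (coef ((a * a - a) * b.indicator 1) x) := by
    intro x
    rw [coef_mul, coef_sub, coef_mul, ← hfa, conv_comm_of_class
      (by
        intro u v
        simp only [Pi.sub_apply]
        rw [isClassFunction_conv hfcl hfcl, hfcl]), conv_apply]
    refine MemLocalIdeal.sum _ fun y _ => ?_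
    exact MemLocalIdeal.mul_left (hebS y) (hff _)
  have hwS : ∀ u, MemLocalRing M (coef (a * b.indicator 1) u) := by
    intro u
    rw [coef_mul, ← hfa]
    exact memLocalRing_conv hfS hebS u
  obtain ⟨ξ, hξ⟩ := exists_om_not_memLocalIdeal hM (f := coef (a * b.indicator 1))
    (isClassFunction_coef _) hwS (by
      intro x
      rw [← coef_mul, ← Pi.sub_apply, ← coef_sub]
      have : a * b.indicator 1 * (a * b.indicator 1) - a * b.indicator 1 =
          (a * a - a) * b.indicator 1 := by
        calc a * b.indicator 1 * (a * b.indicator 1) - a * b.indicator 1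
            = a * a * (b.indicator 1 * b.indicator 1) - a * b.indicator 1 := by ring
          _ = (a * a - a) * b.indicator 1 := by rw [hind2]; ring
      rw [this]
      exact herr x) hb1
  rw [om_coef, Pi.mul_apply] at hξ
  have hξb : ξ ∈ b := by
    by_contra hcon
    rw [Set.indicator_of_notMem hcon, mul_zero] at hξ
    exact hξ memLocalIdeal_zero
  rw [Set.indicator_of_mem hξb, Pi.one_apply, mul_one] at hξ
  obtain ⟨B', hind⟩ := inducedBlockDefined_of_le hM hP hPH hCH hHN hb
  obtain ⟨χ', hχ'⟩ := IsPBlock.nonempty hind.2.1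
  have h2 := om_brMap_sub_om hM hP hPH hHN hind hξb hχ' hecl heS
  have h3 : χ' ∈ B := by
    by_contra hcon
    rw [he, om_coef, Set.indicator_of_notMem hcon, sub_zero] at h2
    exact hξ h2
  have hBB : B' = B := (IsPBlock.eq_of_mem_of_mem hB hind.2.1 h3 hχ').symm
  rw [hBB] at hind
  refine ⟨b, hind, ?_⟩
  intro hcon
  apply hb1
  -- `e_b - f e_b ≡ 0`
  have hkey : MemLocalIdeal M (coef ((1 - a) * b.indicator 1) g') := by
    by_contra hne
    obtain ⟨ξ', hξ'⟩ := exists_om_not_memLocalIdeal hM (f := coef ((1 - a) * b.indicator 1))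
      (isClassFunction_coef _) (by
        intro u
        have : (1 - a) * b.indicator 1 = b.indicator 1 - a * b.indicator 1 := by ring
        rw [this, coef_sub]
        exact MemLocalRing.sub (hebS u) (hwS u)) (by
        intro x
        rw [← coef_mul, ← Pi.sub_apply, ← coef_sub]
        have : (1 - a) * b.indicator 1 * ((1 - a) * b.indicator 1) - (1 - a) * b.indicator 1 =
            (a * a - a) * b.indicator 1 := by
          calc (1 - a) * b.indicator 1 * ((1 - a) * b.indicator 1) - (1 - a) * b.indicator 1
              = (1 - a) * (1 - a) * (b.indicator 1 * b.indicator 1) - (1 - a) * b.indicator 1 := by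
                ring
            _ = (a * a - a) * b.indicator 1 := by rw [hind2]; ring
        rw [this]
        exact herr x) hne
    apply hξ'
    rw [om_coef, Pi.mul_apply]
    by_cases h : ξ' ∈ b
    · rw [Set.indicator_of_mem h, Pi.one_apply, mul_one, Pi.sub_apply, Pi.one_apply]
      have h4 := om_brMap_sub_om hM hP hPH hHN hind h h3 hecl heS
      rw [he, om_coef, Set.indicator_of_mem h3, Pi.one_apply, ← he] at h4
      have := MemLocalIdeal.neg h4
      rwa [neg_sub] at this
    · rw [Set.indicator_of_notMem h, mul_zero]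
      exact memLocalIdeal_zero
  have h5 : (1 - a) * b.indicator 1 = b.indicator 1 - a * b.indicator 1 := by ring
  rw [h5, coef_sub, Pi.sub_apply] at hkey
  exact (memLocalIdeal_congr hkey).mp hcon

end

end Cfsg.Agent.Lib.Helper6
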