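import Mathlib
import Cfsg.Prelude.Def_Blocks
import Cfsg.Agent.Lib.Helper6.Klein5

/-!
# Towards perfect isometries for Klein four defect groups, I: integrality lemmas
-/

set_option autoImplicit false
set_option linter.unusedSectionVars false

namespace Cfsg.Agent.Lib.Helper6

open Cfsg Cfsg.Agent.Lib.Helper2 Cfsg.Agent.Lib.Helper24 Cfsg.Agent.Lib.Helper23.Contrib
open Cfsg.Agent.Lib.Helper23.BrauerFeit
open scoped ComplexConjugate Classical

attribute [local instance] irrFintype

section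

variable {G : Type*} [Group G] [Fintype G] {p : ℕ} {M : Ideal AlgInt}

/-- `p^d χ(g) / |C_G(g)|` is a local integer for `χ` in a block of defect `d` -/
theorem memLocalRing_pow_defect_mul_div [Fact p.Prime] (hM : IsPModular p M)
    {B : Set (IrrCharacter G)} {χ : IrrCharacter G} (hχ : χ ∈ B) (g : G) :
    MemLocalRing M ((p : ℂ) ^ blockDefect p B * (χ : G → ℂ) g / (Nat.card (cen g) : ℂ)) := by
  have := IsPModular.isPrime hM
  have h1 := irr_one_ne_zero χ.2
  have hC : (Nat.card (cen g) : ℂ) ≠ 0 := by exact_mod_cast Nat.card_pos.ne'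
  have hI : ((cen g).index : ℂ) ≠ 0 := by exact_mod_cast Subgroup.index_ne_zero_of_finite
  have hG : (Nat.card G : ℂ) = (Nat.card (cen g) : ℂ) * ((cen g).index : ℂ) := by
    exact_mod_cast (Subgroup.card_mul_index (cen g)).symm
  have e : (p : ℂ) ^ blockDefect p B * (χ : G → ℂ) g / (Nat.card (cen g) : ℂ) =
      (((p ^ blockDefect p B * charDegree (χ : G → ℂ) : ℕ) : ℂ) / ((Nat.card G : ℕ) : ℂ)) *
        centralChar (χ : G → ℂ) g := by
    rw [centralChar, hG]
    push_cast
    rw [charDegree_cast (IsIrrCharacter.isCharacter χ.2)]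
    field_simp
  rw [e]
  apply MemLocalRing.mul _ (memLocalRing_of_isIntegral (centralChar_isIntegral χ.2 g))
  have hp : p.Prime := hM.1
  have hd0 : charDegree (χ : G → ℂ) ≠ 0 := (charDegree_pos χ.2).ne'
  apply memLocalRing_natCast_div hM (mul_ne_zero (pow_pos hp.pos _).ne' hd0) Nat.card_pos.ne'
  rw [Nat.factorization_mul (pow_pos hp.pos _).ne' hd0, Finsupp.add_apply, Nat.factorization_pow,
    Finsupp.smul_apply, hp.factorization_self, smul_eq_mul, mul_one]
  have := factorization_degree_add (p := p) hχ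
  omega

/-- the lattice lemma -/
theorem memLocalRing_sum_mul_div_four [M.IsPrime] {ι : Type*} (S : Finset ι) (hS : S.card = 4)
    (v w : ι → ℂ) (hv0 : ∀ i ∈ S, MemLocalRing M (v i))
    (hv1 : MemLocalRing M ((∑ i ∈ S, v i) / 4))
    (hv2 : ∀ i ∈ S, ∀ j ∈ S, MemLocalRing M ((v i - v j) / 2))
    (hw0 : ∀ i ∈ S, MemLocalRing M (w i))
    (hw1 : MemLocalRing M ((∑ i ∈ S, w i) / 4))
    (hw2 : ∀ i ∈ S, ∀ j ∈ S, MemLocalRing M ((w i - w j) / 2)) :
    MemLocalRing M ((∑ i ∈ S, v i * w i) / 4) := by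
  obtain ⟨i0, hi0⟩ : S.Nonempty := by
    rw [← Finset.card_pos, hS]
    norm_num
  have e : (∑ i ∈ S, v i * w i) / 4 = v i0 * ((∑ i ∈ S, w i) / 4 - w i0) +
      w i0 * ((∑ i ∈ S, v i) / 4 - v i0) + v i0 * w i0 +
      ∑ i ∈ S, ((v i - v i0) / 2) * ((w i - w i0) / 2) := by
    have h1 : ∀ i ∈ S, ((v i - v i0) / 2) * ((w i - w i0) / 2) =
        (v i * w i) / 4 - (w i0 / 4) * v i - (v i0 / 4) * w i + v i0 * w i0 / 4 := by
      intro i _
      ring
    rw [Finset.sum_congr rfl h1, Finset.sum_add_distrib, Finset.sum_sub_distrib,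
      Finset.sum_sub_distrib, Finset.sum_const, hS, ← Finset.mul_sum, ← Finset.mul_sum,
      ← Finset.sum_div]
    simp only [nsmul_eq_mul]
    push_cast
    ring
  rw [e]
  refine MemLocalRing.add (MemLocalRing.add (MemLocalRing.add
    (MemLocalRing.mul (hv0 i0 hi0) (MemLocalRing.sub hw1 (hw0 i0 hi0)))
    (MemLocalRing.mul (hw0 i0 hi0) (MemLocalRing.sub hv1 (hv0 i0 hi0))))
    (MemLocalRing.mul (hv0 i0 hi0) (hw0 i0 hi0))) ?_
  exact MemLocalRing.sum _ fun i hi => MemLocalRing.mul (hv2 i hi i0 hi0) (hw2 i hi i0 hi0)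

end

section

variable {G : Type*} [Group G] [Fintype G] {H : Subgroup G} {p : ℕ} {M : Ideal AlgInt}

theorem memLocalRing_pow_defect_mul_fpart_div [Fact p.Prime] (hM : IsPModular p M) {x : H}
    (hx : IsCenOf p x) (f : Set (IrrCharacter H)) (χ : IrrCharacter G) (c : H) :
    MemLocalRing M ((p : ℂ) ^ blockDefect p f * fpart p f x (χ : G → ℂ) c /
      (Nat.card (cen c) : ℂ)) := by
  have := IsPModular.isPrime hM
  rw [fpart, regPart_apply]
  split_ifs
  · rw [mul_zero, zero_div]
    exact memLocalRing_zero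
  · simp only [bPart, Finset.sum_apply, Pi.smul_apply, smul_eq_mul]
    rw [Finset.mul_sum, Finset.sum_div]
    refine MemLocalRing.sum _ fun ξ _ => ?_
    by_cases hξ : ξ ∈ f
    · have e : (p : ℂ) ^ blockDefect p f * (f.indicator 1 ξ *
          classInner (tw x (χ : G → ℂ)) (ξ : H → ℂ) * (ξ : H → ℂ) c) / (Nat.card (cen c) : ℂ) =
          classInner (tw x (χ : G → ℂ)) (ξ : H → ℂ) *
            ((p : ℂ) ^ blockDefect p f * (ξ : H → ℂ) c / (Nat.card (cen c) : ℂ)) := by
        rw [Set.indicator_of_mem hξ, Pi.one_apply]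
        ring
      rw [e, classInner_tw hx]
      exact MemLocalRing.mul (MemLocalRing.mul (memLocalRing_natCast _)
        (memLocalRing_of_isIntegral (centralChar_isIntegral ξ.2 _)))
        (memLocalRing_pow_defect_mul_div hM hξ c)
    · rw [Set.indicator_of_notMem hξ, zero_mul, zero_mul, mul_zero, zero_div]
      exact memLocalRing_zero

theorem lift_eq_zero_or' (hp : p.Prime) {x : H} (hx : IsCenOf p x) {F : H → ℂ}
    (hF : IsClassFunction H F) (hF0 : ∀ c, p ∣ orderOf c → F c = 0) (g : G) :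
    lift x F g = 0 ∨ ∃ (c : H) (r : G), ¬ p ∣ orderOf c ∧ r * g * r⁻¹ = (x : G) * (c : G) ∧
      lift x F g = F c := by
  obtain ⟨z, hz⟩ := exists_isPPart hp g
  by_cases hc : IsConj z (x : G)
  · right
    obtain ⟨r, hr⟩ := isConj_iff.mp hc
    obtain ⟨y, hzy, hcomm, -, hy⟩ := hz
    have hcm : r * y * r⁻¹ ∈ H := by
      apply hx.le
      rw [Subgroup.mem_centralizer_singleton_iff, ← hr]
      calc r * y * r⁻¹ * (r * z * r⁻¹) = r * (y * z) * r⁻¹ := by group
        _ = r * (z * y) * r⁻¹ := by rw [hcomm.eq]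
        _ = r * z * r⁻¹ * (r * y * r⁻¹) := by group
    set c : H := ⟨r * y * r⁻¹, hcm⟩ with hcdef
    have hco : ¬ p ∣ orderOf c := by
      rw [← Subgroup.orderOf_coe]
      show ¬ p ∣ orderOf (r * y * r⁻¹)
      rw [orderOf_conj_eq]
      exact hy
    have hg : r * g * r⁻¹ = (x : G) * (c : G) := by
      rw [← hr, ← hzy]
      show r * (z * y) * r⁻¹ = r * z * r⁻¹ * (r * y * r⁻¹)
      group
    refine ⟨c, r, hco, hg, ?_⟩
    rw [← isClassFunction_lift x _ g r, hg, lift_apply hp hx hF hF0 hco]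
  · left
    exact lift_eq_zero hp hx hF0 hz hc

theorem isCopy_cen_mul (hp : p.Prime) {x : H} (hx : IsCenOf p x) {c : H}
    (hc : ¬ p ∣ orderOf c) : IsCopy (cen c) (cen ((x : G) * (c : G))) := by
  intro t
  rw [Subgroup.mem_centralizer_singleton_iff]
  constructor
  · intro ht
    have hpp := isPPart_mul hx hc
    obtain ⟨a, s, hs, hcard⟩ := Nat.exists_eq_pow_mul_and_not_dvd (Nat.card_pos (α := G)).ne' p
      hp.ne_one
    obtain ⟨m, hm⟩ := IsPPart.exists_pow hp hs hpp
    have h1 := IsPPart.pow_eq hp hcard hpp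
    have hcm : Commute t ((x : G) * (c : G)) := ht
    have h2 : Commute t (x : G) := by
      rw [← hm, ← h1]
      exact (hcm.pow_right s).pow_right m
    have htH : t ∈ H := hx.le (Subgroup.mem_centralizer_singleton_iff.mpr h2.eq)
    refine ⟨htH, ?_⟩
    rw [Subgroup.mem_centralizer_singleton_iff]
    apply Subtype.ext
    show t * (c : G) = (c : G) * t
    have h3 : Commute t ((x : G)⁻¹ * ((x : G) * (c : G))) := h2.inv_right.mul_right hcm
    rw [inv_mul_cancel_left] at h3
    exact h3.eq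
  · rintro ⟨htH, ht⟩
    rw [Subgroup.mem_centralizer_singleton_iff] at ht
    have h1 : t * (c : G) = (c : G) * t := congrArg Subtype.val ht
    have h2 : t * (x : G) = (x : G) * t := congrArg Subtype.val (hx.comm ⟨t, htH⟩)
    calc t * ((x : G) * (c : G)) = (t * (x : G)) * (c : G) := by group
      _ = (x : G) * (t * (c : G)) := by rw [h2]; group
      _ = (x : G) * (c : G) * t := by rw [h1]; group

theorem memLocalRing_pow_defect_mul_secFun_div [Fact p.Prime] (hM : IsPModular p M) {x : H}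
    (hx : IsCenOf p x) (f : Set (IrrCharacter H)) (χ : IrrCharacter G) (g : G) :
    MemLocalRing M ((p : ℂ) ^ blockDefect p f * secFun p f x (χ : G → ℂ) g /
      (Nat.card (cen g) : ℂ)) := by
  have := IsPModular.isPrime hM
  have hp : p.Prime := hM.1
  rcases lift_eq_zero_or' hp hx (isClassFunction_fpart hx f (χ : G → ℂ))
    (fpart_of_dvd f x (χ : G → ℂ)) g with h | ⟨c, r, hc, hr, h⟩
  · rw [secFun, h, mul_zero, zero_div]
    exact memLocalRing_zero
  · have h1 : Nat.card (cen g) = Nat.card (cen c) := by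
      rw [(isCopy_cen_mul hp hx hc).card_eq, ← hr]
      have h2 : cen (r * g * r⁻¹) = cj r (cen g) := centralizer_singleton_cj r g
      rw [h2, card_cj]
    rw [secFun, h, h1]
    exact memLocalRing_pow_defect_mul_fpart_div hM hx f χ c

end

section

variable {G : Type*} [Group G] [Fintype G] {p : ℕ} {M : Ideal AlgInt}

/-- averaging a character over a subgroup of the centralizer of `g` -/
theorem isIntegral_avg (χ : IrrCharacter G) (g : G) (Q : Subgroup (cen g)) :
    IsIntegral ℤ ((Nat.card Q : ℂ)⁻¹ * ∑ q : Q, (χ : G → ℂ) (g * ((q : cen g) : G))) := by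
  set gH : cen g := ⟨g, Subgroup.mem_centralizer_singleton_iff.mpr rfl⟩ with hgH
  have hcen : gH ∈ Subgroup.center (cen g) := by
    rw [Subgroup.mem_center_iff]
    intro c
    apply Subtype.ext
    exact Subgroup.mem_centralizer_singleton_iff.mp c.2
  set θ : cen g → ℂ := fun c => (χ : G → ℂ) c with hθ
  have hθcl : IsClassFunction (cen g) θ := isClassFunction_res _ (irr_isClassFunction χ.2)
  have h1 : ∀ q : Q, (χ : G → ℂ) (g * ((q : cen g) : G)) = ∑ ξ : IrrCharacter (cen g),
      ((mu χ ξ : ℂ) * centralChar (ξ : cen g → ℂ) gH) * (ξ : cen g → ℂ) q := by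
    intro q
    have h2 : (χ : G → ℂ) (g * ((q : cen g) : G)) = θ (gH * q) := rfl
    rw [h2]
    conv_lhs => rw [classFunction_eq_sum hθcl]
    simp only [Finset.sum_apply, Pi.smul_apply, smul_eq_mul]
    refine Finset.sum_congr rfl fun ξ _ => ?_
    rw [irr_central_mul ξ.2 hcen, hθ, mu_spec]
    ring
  rw [Finset.sum_congr rfl fun q _ => h1 q, Finset.sum_comm, Finset.mul_sum]
  refine IsIntegral.sum _ fun ξ _ => ?_
  obtain ⟨n, hn⟩ := IsCharacter.classInner_nat
    (IsCharacter.restrict Q (IsIrrCharacter.isCharacter ξ.2))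
    (IsIrrCharacter.isCharacter (isIrrCharacter_one (G := Q)))
  have e : (Nat.card Q : ℂ)⁻¹ * ∑ q : Q, ((mu χ ξ : ℂ) * centralChar (ξ : cen g → ℂ) gH) *
      (ξ : cen g → ℂ) q = ((mu χ ξ : ℂ) * centralChar (ξ : cen g → ℂ) gH) * n := by
    rw [← hn, classInner, ← Finset.mul_sum]
    simp only [map_one, mul_one]
    ring
  rw [e]
  exact IsIntegral.mul (IsIntegral.mul (isIntegral_natCast _) (centralChar_isIntegral ξ.2 _))
    (isIntegral_natCast _)

/-- a local combination of characters vanishing on the `p`-singular elements -/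
theorem memLocalRing_div_card_cen_of_vanish [Fact p.Prime] (hM : IsPModular p M) {ι : Type*}
    (S : Finset ι) (a : ι → ℂ) (Φ : ι → IrrCharacter G) (ha : ∀ i ∈ S, MemLocalRing M (a i))
    (hvan : ∀ x : G, p ∣ orderOf x → ∑ i ∈ S, a i * (Φ i : G → ℂ) x = 0) (g : G) :
    MemLocalRing M ((∑ i ∈ S, a i * (Φ i : G → ℂ) g) / (Nat.card (cen g) : ℂ)) := by
  have := IsPModular.isPrime hM
  have hp : p.Prime := hM.1
  by_cases hg : p ∣ orderOf g
  · rw [hvan g hg, zero_div]
    exact memLocalRing_zero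
  obtain ⟨Q⟩ : Nonempty (Sylow p (cen g)) := inferInstance
  have hQ0 : (Nat.card (Q : Subgroup (cen g)) : ℂ) ≠ 0 := by exact_mod_cast Nat.card_pos.ne'
  have hsum : ∑ q : (Q : Subgroup (cen g)), ∑ i ∈ S, a i * (Φ i : G → ℂ) (g * ((q : cen g) : G)) =
      ∑ i ∈ S, a i * (Φ i : G → ℂ) g := by
    rw [Finset.sum_eq_single (1 : (Q : Subgroup (cen g)))]
    · simp
    · intro q _ hq
      apply hvan
      have hcomm : Commute g ((q : cen g) : G) :=
        (Subgroup.mem_centralizer_singleton_iff.mp (q : cen g).2).symm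
      obtain ⟨k, hk⟩ := (IsPGroup.iff_orderOf.mp Q.isPGroup') q
      have hk' : orderOf ((q : cen g) : G) = p ^ k := by
        rw [Subgroup.orderOf_coe, Subgroup.orderOf_coe, hk]
      have hk0 : k ≠ 0 := by
        rintro rfl
        rw [pow_zero, orderOf_eq_one_iff] at hk
        exact hq hk
      rw [hcomm.orderOf_mul_eq_mul_orderOf_of_coprime (by
        rw [hk']
        exact Nat.Coprime.pow_right k ((Nat.Prime.coprime_iff_not_dvd hp).mpr hg).symm), hk']
      exact Dvd.dvd.mul_left (dvd_pow_self p hk0) _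
    · intro h
      exact absurd (Finset.mem_univ _) h
  have e : (∑ i ∈ S, a i * (Φ i : G → ℂ) g) / (Nat.card (cen g) : ℂ) =
      (((Nat.card (Q : Subgroup (cen g)) : ℕ) : ℂ) / ((Nat.card (cen g) : ℕ) : ℂ)) *
        ∑ i ∈ S, a i * ((Nat.card (Q : Subgroup (cen g)) : ℂ)⁻¹ *
          ∑ q : (Q : Subgroup (cen g)), (Φ i : G → ℂ) (g * ((q : cen g) : G))) := by
    rw [← hsum, Finset.sum_comm]
    simp only [← Finset.mul_sum]
    have h2 : ∀ i ∈ S, a i * ((Nat.card (Q : Subgroup (cen g)) : ℂ)⁻¹ *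
        ∑ q : (Q : Subgroup (cen g)), (Φ i : G → ℂ) (g * ((q : cen g) : G))) =
        (Nat.card (Q : Subgroup (cen g)) : ℂ)⁻¹ * (a i *
        ∑ q : (Q : Subgroup (cen g)), (Φ i : G → ℂ) (g * ((q : cen g) : G))) := by
      intro i _
      ring
    rw [Finset.sum_congr rfl h2, ← Finset.mul_sum]
    field_simp
  rw [e]
  apply MemLocalRing.mul
  · apply memLocalRing_natCast_div hM Nat.card_pos.ne' Nat.card_pos.ne'
    rw [Q.card_eq_multiplicity, Nat.factorization_pow, Finsupp.smul_apply, hp.factorization_self,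
      smul_eq_mul, mul_one]
  · exact MemLocalRing.sum _ fun i hi => MemLocalRing.mul (ha i hi)
      (memLocalRing_of_isIntegral (isIntegral_avg (Φ i) g Q))

end

end Cfsg.Agent.Lib.Helper6
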