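import Mathlib
import Cfsg.Prelude.Def_Blocks
import Cfsg.Prelude.Def_BlockLocal
import Cfsg.Agent.Lib.Helper6.KleinIso1

/-!
# Towards perfect isometries for Klein four defect groups, II: assembling the isometry
-/

set_option autoImplicit false
set_option linter.unusedSectionVars false

namespace Cfsg.Agent.Lib.Helper6

open Cfsg Cfsg.Agent.Lib.Helper2 Cfsg.Agent.Lib.Helper24
open scoped ComplexConjugate Classical

attribute [local instance] irrFintype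

section

variable {X : Type*} [Group X] [Fintype X] {X' : Type*} [Group X'] [Fintype X']
  {M : Ideal AlgInt}

/-- the finset of members of a set of irreducible characters -/
noncomputable def fs (Y : Set (IrrCharacter X)) : Finset (IrrCharacter X) :=
  Finset.univ.filter (fun χ => χ ∈ Y)

theorem mem_fs {Y : Set (IrrCharacter X)} {χ : IrrCharacter X} : χ ∈ fs Y ↔ χ ∈ Y := by
  simp [fs]

theorem kernel_eq_sum (c : Set (IrrCharacter X')) (I : IrrCharacter X' → IrrCharacter X)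
    (ε : IrrCharacter X' → ℤ) (x : X) (y : X') :
    signedBijectionKernel c I ε x y =
      ∑ η ∈ fs c, (ε η : ℂ) * (I η : X → ℂ) x * (η : X' → ℂ) y := by
  unfold signedBijectionKernel
  rw [finsum_mem_eq_finite_toFinset_sum _ (Set.toFinite c)]
  apply Finset.sum_congr _ fun _ _ => rfl
  ext η
  simp [fs]

theorem sum_reindex {Y : Set (IrrCharacter X)} {Y' : Set (IrrCharacter X')}
    {I : IrrCharacter X' → IrrCharacter X} (hI : Set.BijOn I Y' Y) (F : IrrCharacter X → ℂ) :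
    ∑ η ∈ fs Y', F (I η) = ∑ χ ∈ fs Y, F χ := by
  apply Finset.sum_nbij I
  · intro η hη
    exact mem_fs.mpr (hI.mapsTo (mem_fs.mp hη))
  · intro a ha b hb h
    exact hI.injOn (mem_fs.mp ha) (mem_fs.mp hb) h
  · intro χ hχ
    obtain ⟨η, hη, rfl⟩ := hI.surjOn (mem_fs.mp hχ)
    exact ⟨η, mem_fs.mpr hη, rfl⟩
  · intro _ _
    rfl

/-- blocks looking like a nilpotent block with Klein four defect group -/
structure KType1 (M : Ideal AlgInt) (Y : Set (IrrCharacter X)) : Prop where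
  card : (fs Y).card = 4
  reg : ∀ χ ∈ Y, ∀ ψ ∈ Y, ∀ g : X, ¬ 2 ∣ orderOf g → (χ : X → ℂ) g = (ψ : X → ℂ) g
  sing : ∀ g : X, 2 ∣ orderOf g → ∑ χ ∈ fs Y, (χ : X → ℂ) g = 0
  half : ∀ χ ∈ Y, ∀ ψ ∈ Y, ∀ g : X, MemLocalRing M (((χ : X → ℂ) g - (ψ : X → ℂ) g) / 2)
  half' : ∀ χ ∈ Y, ∀ ψ ∈ Y, ∀ g : X, MemLocalRing M
    ((4 * (χ : X → ℂ) g / (Nat.card (cen g) : ℂ) - 4 * (ψ : X → ℂ) g / (Nat.card (cen g) : ℂ)) / 2)
  int4 : ∀ χ ∈ Y, ∀ g : X, MemLocalRing M (4 * (χ : X → ℂ) g / (Nat.card (cen g) : ℂ))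

theorem KType1.sum_eq {Y : Set (IrrCharacter X)} (h : KType1 M Y) {χ₀ : IrrCharacter X}
    (hχ₀ : χ₀ ∈ Y) {g : X} (hg : ¬ 2 ∣ orderOf g) :
    ∑ χ ∈ fs Y, (χ : X → ℂ) g = 4 * (χ₀ : X → ℂ) g := by
  rw [Finset.sum_congr rfl fun χ hχ => h.reg χ (mem_fs.mp hχ) χ₀ hχ₀ g hg, Finset.sum_const,
    h.card]
  simp

theorem KType1.nonempty {Y : Set (IrrCharacter X)} (h : KType1 M Y) : ∃ χ₀, χ₀ ∈ Y := by
  have : (fs Y).Nonempty := by
    rw [← Finset.card_pos, h.card]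
    norm_num
  obtain ⟨χ, hχ⟩ := this
  exact ⟨χ, mem_fs.mp hχ⟩

theorem KType1.avg1 [M.IsPrime] {Y : Set (IrrCharacter X)} (h : KType1 M Y) (g : X) :
    MemLocalRing M ((∑ χ ∈ fs Y, (χ : X → ℂ) g) / 4) := by
  obtain ⟨χ₀, hχ₀⟩ := h.nonempty
  by_cases hg : 2 ∣ orderOf g
  · rw [h.sing g hg, zero_div]
    exact memLocalRing_zero
  · rw [h.sum_eq hχ₀ hg, mul_div_cancel_left₀ _ (by norm_num)]
    exact memLocalRing_of_isIntegral (irr_isIntegral χ₀.2 g)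

theorem KType1.avg2 [M.IsPrime] {Y : Set (IrrCharacter X)} (h : KType1 M Y) (g : X) :
    MemLocalRing M ((∑ χ ∈ fs Y, 4 * (χ : X → ℂ) g / (Nat.card (cen g) : ℂ)) / 4) := by
  obtain ⟨χ₀, hχ₀⟩ := h.nonempty
  have e : (∑ χ ∈ fs Y, 4 * (χ : X → ℂ) g / (Nat.card (cen g) : ℂ)) / 4 =
      (∑ χ ∈ fs Y, (χ : X → ℂ) g) / (Nat.card (cen g) : ℂ) := by
    rw [← Finset.sum_div, ← Finset.mul_sum]
    ring
  rw [e]
  by_cases hg : 2 ∣ orderOf g
  · rw [h.sing g hg, zero_div]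
    exact memLocalRing_zero
  · rw [h.sum_eq hχ₀ hg]
    exact h.int4 χ₀ hχ₀ g

theorem perfect_of_type1 [M.IsPrime] {Y : Set (IrrCharacter X)} {Y' : Set (IrrCharacter X')}
    (hY : KType1 M Y) (hY' : KType1 M Y') {I : IrrCharacter X' → IrrCharacter X}
    (hI : Set.BijOn I Y' Y) : IsPerfectIsometry 2 M Y' Y I (fun _ => 1) := by
  refine ⟨hI, fun _ _ => Or.inl rfl, fun x y => ?_⟩
  rw [kernel_eq_sum]
  have hIm : ∀ η ∈ fs Y', I η ∈ Y := fun η hη => hI.mapsTo (mem_fs.mp hη)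
  obtain ⟨χ₀, hχ₀⟩ := hY.nonempty
  obtain ⟨η₀, hη₀⟩ := hY'.nonempty
  refine ⟨?_, ?_, ?_⟩
  · have e : (∑ η ∈ fs Y', (((1 : ℤ) : ℂ)) * (I η : X → ℂ) x * (η : X' → ℂ) y) /
        (Nat.card (cen x) : ℂ) = (∑ η ∈ fs Y', (4 * (I η : X → ℂ) x / (Nat.card (cen x) : ℂ)) *
          (η : X' → ℂ) y) / 4 := by
      rw [Finset.sum_div, Finset.sum_div]
      refine Finset.sum_congr rfl fun η _ => ?_
      push_cast
      ring
    show MemLocalRing M ((∑ η ∈ fs Y', (((1 : ℤ) : ℂ)) * (I η : X → ℂ) x * (η : X' → ℂ) y) /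
        (Nat.card (cen x) : ℂ))
    rw [e]
    apply memLocalRing_sum_mul_div_four _ hY'.card
    · exact fun η hη => hY.int4 _ (hIm η hη) x
    · rw [sum_reindex hI (fun χ => 4 * (χ : X → ℂ) x / (Nat.card (cen x) : ℂ))]
      exact hY.avg2 x
    · exact fun η hη η' hη' => hY.half' _ (hIm η hη) _ (hIm η' hη') x
    · exact fun η _ => memLocalRing_of_isIntegral (irr_isIntegral η.2 y)
    · exact hY'.avg1 y
    · exact fun η hη η' hη' => hY'.half _ (mem_fs.mp hη) _ (mem_fs.mp hη') y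
  · have e : (∑ η ∈ fs Y', (((1 : ℤ) : ℂ)) * (I η : X → ℂ) x * (η : X' → ℂ) y) /
        (Nat.card (cen y) : ℂ) = (∑ η ∈ fs Y', (I η : X → ℂ) x *
          (4 * (η : X' → ℂ) y / (Nat.card (cen y) : ℂ))) / 4 := by
      rw [Finset.sum_div, Finset.sum_div]
      refine Finset.sum_congr rfl fun η _ => ?_
      push_cast
      ring
    show MemLocalRing M ((∑ η ∈ fs Y', (((1 : ℤ) : ℂ)) * (I η : X → ℂ) x * (η : X' → ℂ) y) /
        (Nat.card (cen y) : ℂ))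
    rw [e]
    apply memLocalRing_sum_mul_div_four _ hY'.card
    · exact fun η _ => memLocalRing_of_isIntegral (irr_isIntegral (I η).2 x)
    · rw [sum_reindex hI (fun χ => (χ : X → ℂ) x)]
      exact hY.avg1 x
    · exact fun η hη η' hη' => hY.half _ (hIm η hη) _ (hIm η' hη') x
    · exact fun η hη => hY'.int4 _ (mem_fs.mp hη) y
    · exact hY'.avg2 y
    · exact fun η hη η' hη' => hY'.half' _ (mem_fs.mp hη) _ (mem_fs.mp hη') y
  · by_cases hx : 2 ∣ orderOf x <;> by_cases hy : 2 ∣ orderOf y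
    · left
      exact ⟨fun h => absurd hx h, fun h => absurd hy h⟩
    · right
      rw [Finset.sum_congr rfl fun η hη => by
        rw [hY'.reg η (mem_fs.mp hη) η₀ hη₀ y hy], ← Finset.sum_mul]
      have := sum_reindex hI (fun χ => (((1 : ℤ) : ℂ)) * (χ : X → ℂ) x)
      rw [this, ← Finset.mul_sum, hY.sing x hx, mul_zero, zero_mul]
    · right
      rw [Finset.sum_congr rfl fun η hη => by
        rw [hY.reg (I η) (hIm η hη) χ₀ hχ₀ x hx], ← Finset.mul_sum, hY'.sing y hy, mul_zero]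
    · left
      exact ⟨fun _ => hy, fun _ => hx⟩

/-- blocks looking like the principal block of `A₄` -/
structure KType3 (M : Ideal AlgInt) (Y : Set (IrrCharacter X)) (δ : IrrCharacter X → ℤ) :
    Prop where
  card : (fs Y).card = 4
  sign : ∀ χ ∈ Y, δ χ = 1 ∨ δ χ = -1
  sing : ∀ χ ∈ Y, ∀ ψ ∈ Y, ∀ g : X, 2 ∣ orderOf g →
    (δ χ : ℂ) * (χ : X → ℂ) g = (δ ψ : ℂ) * (ψ : X → ℂ) g
  reg : ∀ g : X, ¬ 2 ∣ orderOf g → ∑ χ ∈ fs Y, (δ χ : ℂ) * (χ : X → ℂ) g = 0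
  int4 : ∀ χ ∈ Y, ∀ g : X, MemLocalRing M (4 * (χ : X → ℂ) g / (Nat.card (cen g) : ℂ))

theorem KType3.nonempty {Y : Set (IrrCharacter X)} {δ : IrrCharacter X → ℤ}
    (h : KType3 M Y δ) : ∃ χ₀, χ₀ ∈ Y := by
  have : (fs Y).Nonempty := by
    rw [← Finset.card_pos, h.card]
    norm_num
  obtain ⟨χ, hχ⟩ := this
  exact ⟨χ, mem_fs.mp hχ⟩

theorem KType3.sum_eq {Y : Set (IrrCharacter X)} {δ : IrrCharacter X → ℤ}
    (h : KType3 M Y δ) {χ₀ : IrrCharacter X}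
    (hχ₀ : χ₀ ∈ Y) {g : X} (hg : 2 ∣ orderOf g) :
    ∑ χ ∈ fs Y, (δ χ : ℂ) * (χ : X → ℂ) g = 4 * ((δ χ₀ : ℂ) * (χ₀ : X → ℂ) g) := by
  rw [Finset.sum_congr rfl fun χ hχ => h.sing χ (mem_fs.mp hχ) χ₀ hχ₀ g hg, Finset.sum_const,
    h.card]
  simp

theorem perfect_of_type3 (hM : IsPModular 2 M) {Y : Set (IrrCharacter X)}
    {Y' : Set (IrrCharacter X')} {δ : IrrCharacter X → ℤ} {δ' : IrrCharacter X' → ℤ}
    (hY : KType3 M Y δ) (hY' : KType3 M Y' δ') {I : IrrCharacter X' → IrrCharacter X}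
    (hI : Set.BijOn I Y' Y) : IsPerfectIsometry 2 M Y' Y I (fun η => δ (I η) * δ' η) := by
  have := IsPModular.isPrime hM
  have : Fact (Nat.Prime 2) := ⟨Nat.prime_two⟩
  have hIm : ∀ η ∈ fs Y', I η ∈ Y := fun η hη => hI.mapsTo (mem_fs.mp hη)
  obtain ⟨χ₀, hχ₀⟩ := hY.nonempty
  obtain ⟨η₀, hη₀⟩ := hY'.nonempty
  have hxs : ∀ (x : X) (y : X'), 2 ∣ orderOf x →
      ∑ η ∈ fs Y', ((δ (I η) * δ' η : ℤ) : ℂ) * (I η : X → ℂ) x * (η : X' → ℂ) y =
        ((δ χ₀ : ℂ) * (χ₀ : X → ℂ) x) * ∑ η ∈ fs Y', (δ' η : ℂ) * (η : X' → ℂ) y := by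
    intro x y hx
    rw [Finset.mul_sum]
    refine Finset.sum_congr rfl fun η hη => ?_
    rw [← hY.sing (I η) (hIm η hη) χ₀ hχ₀ x hx]
    push_cast
    ring
  have hys : ∀ (x : X) (y : X'), 2 ∣ orderOf y →
      ∑ η ∈ fs Y', ((δ (I η) * δ' η : ℤ) : ℂ) * (I η : X → ℂ) x * (η : X' → ℂ) y =
        ((δ' η₀ : ℂ) * (η₀ : X' → ℂ) y) * ∑ χ ∈ fs Y, (δ χ : ℂ) * (χ : X → ℂ) x := by
    intro x y hy
    rw [← sum_reindex hI (fun χ => (δ χ : ℂ) * (χ : X → ℂ) x), Finset.mul_sum]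
    refine Finset.sum_congr rfl fun η hη => ?_
    rw [← hY'.sing η (mem_fs.mp hη) η₀ hη₀ y hy]
    push_cast
    ring
  have hint : ∀ n : ℤ, MemLocalRing M (n : ℂ) := fun n =>
    memLocalRing_of_isIntegral (by exact_mod_cast (isIntegral_algebraMap (R := ℤ) (A := ℂ) (x := n)))
  refine ⟨hI, fun η hη => ?_, fun x y => ?_⟩
  · rcases hY.sign (I η) (hI.mapsTo hη) with h | h <;> rcases hY'.sign η hη with h' | h' <;>
      simp [h, h']
  rw [kernel_eq_sum]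
  by_cases hx : 2 ∣ orderOf x <;> by_cases hy : 2 ∣ orderOf y
  · refine ⟨?_, ?_, Or.inl ⟨fun h => absurd hx h, fun h => absurd hy h⟩⟩
    · rw [hxs x y hx, hY'.sum_eq hη₀ hy]
      have e : (δ χ₀ : ℂ) * (χ₀ : X → ℂ) x * (4 * ((δ' η₀ : ℂ) * (η₀ : X' → ℂ) y)) /
          (Nat.card (Subgroup.centralizer ({x} : Set X)) : ℂ) =
          (δ χ₀ : ℂ) * (4 * (χ₀ : X → ℂ) x / (Nat.card (cen x) : ℂ)) *
            ((δ' η₀ : ℂ) * (η₀ : X' → ℂ) y) := by
        ring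
      rw [e]
      exact MemLocalRing.mul (MemLocalRing.mul (hint _) (hY.int4 χ₀ hχ₀ x))
        (MemLocalRing.mul (hint _) (memLocalRing_of_isIntegral (irr_isIntegral η₀.2 y)))
    · rw [hxs x y hx, hY'.sum_eq hη₀ hy]
      have e : (δ χ₀ : ℂ) * (χ₀ : X → ℂ) x * (4 * ((δ' η₀ : ℂ) * (η₀ : X' → ℂ) y)) /
          (Nat.card (Subgroup.centralizer ({y} : Set X')) : ℂ) =
          (δ χ₀ : ℂ) * (χ₀ : X → ℂ) x *
            ((δ' η₀ : ℂ) * (4 * (η₀ : X' → ℂ) y / (Nat.card (cen y) : ℂ))) := by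
        ring
      rw [e]
      exact MemLocalRing.mul
        (MemLocalRing.mul (hint _) (memLocalRing_of_isIntegral (irr_isIntegral χ₀.2 x)))
        (MemLocalRing.mul (hint _) (hY'.int4 η₀ hη₀ y))
  · rw [hxs x y hx, hY'.reg y hy, mul_zero, zero_div, zero_div]
    exact ⟨memLocalRing_zero, memLocalRing_zero, Or.inr rfl⟩
  · rw [hys x y hy, hY.reg x hx, mul_zero, zero_div, zero_div]
    exact ⟨memLocalRing_zero, memLocalRing_zero, Or.inr rfl⟩
  · refine ⟨?_, ?_, Or.inl ⟨fun _ => hy, fun _ => hx⟩⟩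
    · have := memLocalRing_div_card_cen_of_vanish hM (fs Y')
        (fun η => ((δ (I η) * δ' η : ℤ) : ℂ) * (η : X' → ℂ) y) I
        (fun η _ => MemLocalRing.mul (hint _) (memLocalRing_of_isIntegral (irr_isIntegral η.2 y)))
        (fun x' hx' => by
          have := hxs x' y hx'
          rw [hY'.reg y hy, mul_zero] at this
          rw [← this]
          exact Finset.sum_congr rfl fun η _ => by ring) x
      convert this using 2
      exact Finset.sum_congr rfl fun η _ => by ring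
    · have := memLocalRing_div_card_cen_of_vanish hM (fs Y')
        (fun η => ((δ (I η) * δ' η : ℤ) : ℂ) * (I η : X → ℂ) x) id
        (fun η _ => MemLocalRing.mul (hint _)
          (memLocalRing_of_isIntegral (irr_isIntegral (I η).2 x)))
        (fun y' hy' => by
          have := hys x y' hy'
          rw [hY.reg x hx, mul_zero] at this
          rw [← this]
          rfl) y
      exact this

end

end Cfsg.Agent.Lib.Helper6
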