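import Mathlib
import Cfsg.Prelude.Def_Blocks
import Cfsg.Prelude.Def_BlockLocal
import Cfsg.Agent.Lib.Helper6.KleinIso2

/-!
# Towards perfect isometries for Klein four defect groups, III: pieces of characters
-/

set_option autoImplicit false
set_option linter.unusedSectionVars false

namespace Cfsg.Agent.Lib.Helper6

open Cfsg Cfsg.Agent.Lib.Helper2 Cfsg.Agent.Lib.Helper24 Cfsg.Agent.Lib.Helper23.Contrib
open Cfsg.Agent.Lib.Helper23.BrauerFeit
open scoped ComplexConjugate Classical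

attribute [local instance] irrFintype

section

variable {G : Type*} [Group G] [Fintype G] {p : ℕ} {M : Ideal AlgInt}

theorem int_row {ι : Type*} (S : Finset ι) (hS : S.card = 4) (a : ι → ℤ) (χ0 : ι) (h0 : χ0 ∈ S)
    (h1 : a χ0 = 1) (hsum : ∑ ψ ∈ S, (a ψ) ^ 2 = 4) : ∀ ψ ∈ S, a ψ = 1 ∨ a ψ = -1 := by
  have h2 : (a χ0) ^ 2 + ∑ ψ ∈ S.erase χ0, (a ψ) ^ 2 = 4 := by
    rw [Finset.add_sum_erase S (fun ψ => (a ψ) ^ 2) h0, hsum]
  have h3 : ∑ ψ ∈ S.erase χ0, (a ψ) ^ 2 = 3 := by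
    rw [h1] at h2
    linarith
  have h4 : ∀ ψ ∈ S.erase χ0, (a ψ) ^ 2 ≤ 1 := by
    intro ψ hψ
    have h5 := Finset.single_le_sum (f := fun ψ => (a ψ) ^ 2) (fun i _ => sq_nonneg _) hψ
    rw [h3] at h5
    have h6 : -1 ≤ a ψ ∧ a ψ ≤ 1 := by
      constructor <;> nlinarith
    nlinarith
  have hc : (S.erase χ0).card = 3 := by
    rw [Finset.card_erase_of_mem h0, hS]
  have h6 : ∑ ψ ∈ S.erase χ0, (1 - (a ψ) ^ 2) = 0 := by
    rw [Finset.sum_sub_distrib, h3]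
    simp [hc]
  have h7 := (Finset.sum_eq_zero_iff_of_nonneg (fun ψ hψ => by
    have := h4 ψ hψ
    linarith)).mp h6
  intro ψ hψ
  by_cases hψ0 : ψ = χ0
  · left
    rw [hψ0, h1]
  · have h8 := h7 ψ (Finset.mem_erase.mpr ⟨hψ0, hψ⟩)
    have h9 : (a ψ - 1) * (a ψ + 1) = 0 := by linarith
    rcases mul_eq_zero.mp h9 with h | h
    · left; linarith
    · right; linarith

/-- the structure of a rank one piece of a block with four characters -/
theorem piece_lemma {B : Set (IrrCharacter G)} (hcard : (fs B).card = 4)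
    (θ : IrrCharacter G → G → ℂ) (hθc : ∀ χ, IsClassFunction G (θ χ))
    (A : IrrCharacter G → IrrCharacter G → ℤ)
    (h1 : ∀ χ ∈ B, ∀ ψ ∈ B, classInner (θ χ) (ψ : G → ℂ) = (A χ ψ : ℂ) / 4)
    (h0 : ∀ χ ∈ B, ∀ ψ ∉ B, classInner (θ χ) (ψ : G → ℂ) = 0)
    (h2 : ∀ χ ∈ B, ∀ ψ ∈ B, classInner (θ χ) (θ ψ) = (A χ ψ : ℂ) / 4)
    (hd : ∀ χ ∈ B, A χ χ = 1) :
    (∀ χ ∈ B, ∀ g, 4 * θ χ g = ∑ ψ ∈ fs B, (A χ ψ : ℂ) * (ψ : G → ℂ) g) ∧
    (∀ χ ∈ B, ∀ ψ ∈ B, A χ ψ = 1 ∨ A χ ψ = -1) ∧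
    (∀ χ ∈ B, ∀ ψ ∈ B, ∀ g, θ ψ g = (A χ ψ : ℂ) * θ χ g) := by
  have hexp : ∀ χ ∈ B, θ χ = ∑ ψ ∈ fs B, ((A χ ψ : ℂ) / 4) • (ψ : G → ℂ) := by
    intro χ hχ
    conv_lhs => rw [classFunction_eq_sum (hθc χ)]
    rw [fs, Finset.sum_filter]
    refine Finset.sum_congr rfl fun ψ _ => ?_
    by_cases hψ : ψ ∈ B
    · rw [if_pos hψ, h1 χ hχ ψ hψ]
    · rw [if_neg hψ, h0 χ hχ ψ hψ, zero_smul]
  have hsign : ∀ χ ∈ B, ∀ ψ ∈ B, A χ ψ = 1 ∨ A χ ψ = -1 := by
    intro χ hχ ψ hψ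
    apply int_row (fs B) hcard (A χ) χ (mem_fs.mpr hχ) (hd χ hχ) _ ψ (mem_fs.mpr hψ)
    have h3 : classInner (∑ ψ ∈ fs B, ((A χ ψ : ℂ) / 4) • (ψ : G → ℂ)) (θ χ) =
        (A χ χ : ℂ) / 4 := by
      rw [← hexp χ hχ]
      exact h2 χ hχ χ hχ
    rw [classInner_sum_left, hd χ hχ] at h3
    have h4 : ∀ ψ ∈ fs B, classInner (((A χ ψ : ℂ) / 4) • (ψ : G → ℂ)) (θ χ) =
        ((A χ ψ : ℂ)) ^ 2 / 16 := by
      intro ψ hψ
      rw [classInner_smul_left, ← classInner_conj_symm, h1 χ hχ ψ (mem_fs.mp hψ), map_div₀,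
        map_intCast, Complex.conj_ofNat]
      ring
    rw [Finset.sum_congr rfl h4, ← Finset.sum_div] at h3
    have h5 : ((∑ ψ ∈ fs B, (A χ ψ) ^ 2 : ℤ) : ℂ) = ((4 : ℤ) : ℂ) := by
      push_cast
      push_cast at h3
      linear_combination 16 * h3
    exact_mod_cast h5
  refine ⟨fun χ hχ g => ?_, hsign, fun χ hχ ψ hψ g => ?_⟩
  · rw [hexp χ hχ, Finset.sum_apply, Finset.mul_sum]
    refine Finset.sum_congr rfl fun ψ _ => ?_
    rw [Pi.smul_apply, smul_eq_mul]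
    ring
  · have hsq : ((A χ ψ : ℂ)) ^ 2 = 1 := by
      rcases hsign χ hχ ψ hψ with h | h <;> rw [h] <;> norm_num
    have hz : θ ψ - (A χ ψ : ℂ) • θ χ = 0 := by
      apply Cfsg.Agent.Lib.Helper13.eq_zero_of_classInner_self_eq_zero
      have hsym : classInner (θ ψ) (θ χ) = (A χ ψ : ℂ) / 4 := by
        rw [← classInner_conj_symm, h2 χ hχ ψ hψ, map_div₀, map_intCast, Complex.conj_ofNat]
      rw [classInner_sub_left, classInner_sub_right, classInner_sub_right, classInner_smul_left,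
        classInner_smul_left, classInner_smul_right, classInner_smul_right, h2 ψ hψ ψ hψ,
        h2 χ hχ ψ hψ, h2 χ hχ χ hχ, hsym, hd χ hχ, hd ψ hψ, map_intCast]
      push_cast
      linear_combination (-1 / 4 : ℂ) * hsq
    have := congrFun hz g
    rw [Pi.sub_apply, Pi.smul_apply, smul_eq_mul, Pi.zero_apply, sub_eq_zero] at this
    exact this

/-- the equality case of Bessel's inequality -/
theorem eq_sum_of_orth {Z : Type*} [Fintype Z] (θ : Z → G → ℂ) (μ : Z → ℂ) (χ : IrrCharacter G)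
    (h1 : ∀ z, classInner (θ z) (χ : G → ℂ) = μ z) (h2 : ∀ z, classInner (θ z) (θ z) = μ z)
    (h3 : ∀ z z', z ≠ z' → classInner (θ z) (θ z') = 0) (hsum : ∑ z, μ z = 1) :
    (χ : G → ℂ) = ∑ z, θ z := by
  rw [← sub_eq_zero]
  apply Cfsg.Agent.Lib.Helper13.eq_zero_of_classInner_self_eq_zero
  have hχ : classInner (χ : G → ℂ) (χ : G → ℂ) = 1 := by
    rw [classInner_irr χ.2 χ.2, if_pos rfl]
  have ha : classInner (∑ z, θ z) (χ : G → ℂ) = 1 := by
    rw [classInner_sum_left, Finset.sum_congr rfl fun z _ => h1 z, hsum]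
  have hb : classInner (χ : G → ℂ) (∑ z, θ z) = 1 := by
    rw [← classInner_conj_symm, ha, map_one]
  have hc : classInner (∑ z, θ z) (∑ z, θ z) = 1 := by
    rw [classInner_sum_left, ← hsum]
    refine Finset.sum_congr rfl fun z _ => ?_
    rw [classInner_sum_right, Finset.sum_eq_single z, h2]
    · intro z' _ hz'
      exact h3 z z' (Ne.symm hz')
    · intro h
      exact absurd (Finset.mem_univ _) h
  rw [classInner_sub_left, classInner_sub_right, classInner_sub_right, hχ, ha, hb, hc]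
  ring

section sec

variable {H : Subgroup G}

theorem classInner_secFun_irr' (hM : IsPModular p M) {x : H} (hx : IsCenOf p x)
    {f : Set (IrrCharacter H)} (hf : IsPBlock M f) (χ ψ : IrrCharacter G) :
    classInner (secFun p f x (χ : G → ℂ)) (ψ : G → ℂ) = mc p f x (χ : G → ℂ) (ψ : G → ℂ) := by
  rw [secFun, classInner_lift _ _ (irr_isClassFunction ψ.2),
    classInner_fpart_tw hM hx hf _ (irr_isClassFunction ψ.2)]

theorem classInner_secFun_secFun (hp : p.Prime) {x : H} (hx : IsCenOf p x)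
    (f : Set (IrrCharacter H)) (χ ψ : G → ℂ) :
    classInner (secFun p f x χ) (secFun p f x ψ) = mc p f x χ ψ := by
  rw [secFun, secFun, classInner_lift_lift hp hx (fpart_of_dvd _ _ _)
    (isClassFunction_fpart hx _ _) (fpart_of_dvd _ _ _)]
  rfl

/-- if `χ` lives on the `p`-regular elements and the section of `x` -/
theorem eq_regPart_add_secFun (hM : IsPModular p M) {x : H} (hx : IsCenOf p x)
    (hx1 : (x : G) ≠ 1) {f : Set (IrrCharacter H)} {χ : IrrCharacter G}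
    (hfp : fpart p f x (χ : G → ℂ) = regPart p (tw x (χ : G → ℂ)))
    (hvan : ∀ g y : G, IsPPart p g y → y ≠ 1 → ¬ IsConj y (x : G) → (χ : G → ℂ) g = 0) :
    (χ : G → ℂ) = regPart p (χ : G → ℂ) + secFun p f x (χ : G → ℂ) := by
  have hp : p.Prime := hM.1
  ext g
  rw [Pi.add_apply]
  obtain ⟨y, hy⟩ := exists_isPPart hp g
  by_cases hg : p ∣ orderOf g
  · rw [regPart_of_dvd _ hg, zero_add]
    have hy1 : y ≠ 1 := by
      rintro rfl
      obtain ⟨w, hw, -, -, hw2⟩ := hy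
      rw [one_mul] at hw
      rw [hw] at hw2
      exact hw2 hg
    by_cases hc : IsConj y (x : G)
    · rw [secFun, hfp, lift_regPart_tw hp hx (irr_isClassFunction χ.2) hy hc]
    · rw [hvan g y hy hy1 hc, secFun, lift_eq_zero hp hx (fpart_of_dvd _ _ _) hy hc]
  · rw [regPart_of_not_dvd _ hg, secFun_eq_zero_of_reg hp hx hx1 f _ hg, add_zero]

end sec

end

end Cfsg.Agent.Lib.Helper6
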