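import Mathlib
import Cfsg.Prelude.Def_Blocks
import Cfsg.Agent.Lib.Helper6.Subsection2
import Cfsg.Agent.Lib.Helper6.DefectOrder
import Cfsg.Agent.S4425

/-!
# Integrality of `p^d [χ°, ξ]`
-/

set_option autoImplicit false
set_option linter.unusedSectionVars false

namespace Cfsg.Agent.Lib.Helper6

open Cfsg Cfsg.Agent.Lib.Helper2
open scoped ComplexConjugate Classical

attribute [local instance] irrFintype

section

variable {G : Type*} [Group G] [Fintype G] {p : ℕ} {M : Ideal AlgInt}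

theorem IsGeneralizedCharacter.classInner_int' {θ : G → ℂ} (hθ : IsGeneralizedCharacter G θ)
    (ξ : IrrCharacter G) : ∃ n : ℤ, classInner θ (ξ : G → ℂ) = (n : ℂ) := by
  obtain ⟨α, β, hα, hβ, rfl⟩ := hθ
  obtain ⟨a, ha⟩ := IsCharacter.classInner_nat hα (IsIrrCharacter.isCharacter ξ.2)
  obtain ⟨b, hb⟩ := IsCharacter.classInner_nat hβ (IsIrrCharacter.isCharacter ξ.2)
  refine ⟨(a : ℤ) - b, ?_⟩
  rw [classInner_sub_left, ha, hb]
  push_cast
  rfl

/-- `p^d [χ°, ξ]` is an integer for `χ` in a block of defect `d`. -/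
theorem exists_int_pow_defect_mul [Fact p.Prime] {B : Set (IrrCharacter G)}
    {χ : IrrCharacter G} (hχ : χ ∈ B) (ξ : IrrCharacter G) :
    ∃ n : ℤ, ((p : ℂ) ^ blockDefect p B) * classInner (regPart p (χ : G → ℂ)) (ξ : G → ℂ) =
      (n : ℂ) := by
  have hp : p.Prime := Fact.out
  obtain ⟨m, hm⟩ := IsGeneralizedCharacter.classInner_int' (Cfsg.Agent.S4425.result p χ).1 ξ
  set a := (Nat.card G).factorization p with ha
  set b := (charDegree (χ : G → ℂ)).factorization p with hb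
  set m₀ := sInf ((fun χ : IrrCharacter G => (charDegree (χ : G → ℂ)).factorization p) '' B)
    with hm₀
  have h1 : m₀ ≤ b := Nat.sInf_le ⟨χ, hχ, rfl⟩
  have h2 : b ≤ a := (Nat.factorization_le_iff_dvd
      (Cfsg.Agent.Lib.Helper24.charDegree_pos χ.2).ne' (Nat.card_pos (α := G)).ne').mpr
      (Cfsg.Agent.Lib.Helper24.degree_dvd_card χ.2) p
  have h3 : (fun x : G => if p ∣ orderOf x then (0 : ℂ) else
      ((p ^ (a - b) : ℕ) : ℂ) * (χ : G → ℂ) x) = ((p ^ (a - b) : ℕ) : ℂ) • regPart p (χ : G → ℂ) := by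
    ext x
    simp only [Pi.smul_apply, smul_eq_mul, regPart_apply]
    split_ifs <;> simp
  rw [h3, classInner_smul_left] at hm
  refine ⟨(p : ℤ) ^ (b - m₀) * m, ?_⟩
  have h4 : blockDefect p B = (b - m₀) + (a - b) := by
    rw [blockDefect, ← hm₀, ← ha]; omega
  rw [h4, pow_add, mul_assoc]
  push_cast at hm ⊢
  rw [hm]

end

end Cfsg.Agent.Lib.Helper6
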