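import Mathlib
import Cfsg.Prelude.Def_Blocks
import Cfsg.Prelude.Def_BlockLocal
import Cfsg.Agent.Lib.Helper6.KleinIso3
import Cfsg.Agent.Lib.Helper6.RegInt

/-!
# Towards perfect isometries for Klein four defect groups, IV: the structure of the block
-/

set_option autoImplicit false
set_option linter.unusedSectionVars false

namespace Cfsg.Agent.Lib.Helper6

open Cfsg Cfsg.Agent.Lib.Helper2 Cfsg.Agent.Lib.Helper24 Cfsg.Agent.Lib.Helper23.Contrib
open scoped ComplexConjugate Classical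

attribute [local instance] irrFintype

variable {G : Type*} [Group G] [Fintype G] {M : Ideal AlgInt}

theorem classInner_regPart_regPart' {p : ℕ} (f f' : G → ℂ) :
    classInner (regPart p f) (regPart p f') = classInner (regPart p f) f' := by
  rw [classInner, classInner]
  congr 1
  refine Finset.sum_congr rfl fun s _ => ?_
  simp only [regPart_apply]
  split_ifs <;> simp

theorem klein_type3 (hM : IsPModular 2 M) {B : Set (IrrCharacter G)} {P : Subgroup G}
    {c : Set (IrrCharacter (cz P))} (hmax : IsMaximalBrauerPair 2 M B P c)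
    (hP4 : Nat.card P = 4) (hexp : ∀ x ∈ P, x * x = 1) (hab : P ≤ cz P) (T : Subgroup G)
    (hT : ∀ g, g ∈ T ↔ g ∈ Subgroup.normalizer (P : Set G) ∧ StabilizesBlock (cz P) c g)
    (he : (cz P).relIndex T = 3) : ∃ δ : IrrCharacter G → ℤ, KType3 M B δ := by
  have : Fact (Nat.Prime 2) := ⟨Nat.prime_two⟩
  have := IsPModular.isPrime hM
  have hp : Nat.Prime 2 := Nat.prime_two
  have hB : IsPBlock M B := hmax.1.2.1
  have hTN : T ≤ Subgroup.normalizer (P : Set G) := fun t ht => ((hT t).mp ht).1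
  have hfam : ∀ Q : Subgroup G, ∃ f : Set (IrrCharacter (cz Q)),
      Q ≤ P → PLE 2 M ⟨Q, f⟩ ⟨P, c⟩ := by
    intro Q
    by_cases hQ : Q ≤ P
    · obtain ⟨f, hf⟩ := exists_PLE hM ⟨P, c⟩ hmax.1.1 _ Q hQ rfl
      exact ⟨f, fun _ => hf⟩
    · exact ⟨∅, fun h => absurd h hQ⟩
  choose fam hfam using hfam
  have hQD : ∀ w ∈ P, Subgroup.zpowers w ≤ P := fun w hw => Subgroup.zpowers_le.mpr hw
  have hDQ : ∀ w ∈ P, P ≤ cz (Subgroup.zpowers w) := fun w hw y hy =>
    cen_le_centralizer_zpowers w (Subgroup.mem_centralizer_singleton_iff.mpr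
      (Subgroup.mem_centralizer_iff.mp (hab hy) w hw).symm)
  have hle : ∀ w (hw : w ∈ P), SubpairLE 2 M (Subgroup.zpowers w) (fam _) P c :=
    fun w hw => hfam _ (hQD w hw)
  have hdata := fun w hw => major_data hM hmax (hle w hw) (hDQ w hw)
  have hord : ∀ w ∈ P, w ≠ 1 → orderOf w = 2 := fun w hw hw1 =>
    orderOf_eq_prime (by rw [sq]; exact hexp w hw) hw1
  have hcen : ∀ w ∈ P, IsCenOf 2 (cenElt' w) := by
    intro w hw
    apply isCenOf_cenElt'
    by_cases hw1 : w = 1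
    · exact ⟨0, by rw [hw1, orderOf_one, pow_zero]⟩
    · exact ⟨1, by rw [hord w hw hw1, pow_one]⟩
  have hPdef : IsDefectGroup 2 M B P := isDefectGroup_of_maximal hM hmax
  have hdB : blockDefect 2 B = 2 := by
    have h2 := IsDefectGroup.card_eq hM hB hPdef
    rw [hP4] at h2
    have h3 : (2 : ℕ) ^ 2 = 2 ^ blockDefect 2 B := by rw [← h2]; norm_num
    exact (Nat.pow_right_injective le_rfl h3).symm
  have hl : ∀ w (hw : w ∈ P), w ≠ 1 → blockRank 2 (fam (Subgroup.zpowers w)) = 1 := by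
    intro w hw hw1
    apply blockRank_eq_one_of_central_involution hM (hdata w hw).1.1
      (isDefectGroup_centralizer_of_le hM hmax (hle w hw) (hDQ w hw)) _
      (mem_center (hcen w hw)) _
    · rw [Nat.card_congr (Subgroup.subgroupOfEquivOfLe (hDQ w hw)).toEquiv, hP4]
    · rw [← Subgroup.orderOf_coe]
      exact hord w hw hw1
  have hx2 : ∀ w ∈ P, cenElt' w ^ 2 = 1 := by
    intro w hw
    apply Subtype.ext
    rw [Subgroup.coe_pow, sq]
    exact hexp w hw
  have hcontrib : ∀ w (hw : w ∈ P), w ≠ 1 → Nat.card B = 4 ∧ ∀ χ : IrrCharacter G, χ ∈ B →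
      mc 2 (fam (Subgroup.zpowers w)) (cenElt' w) (χ : G → ℂ) (χ : G → ℂ) = 1 / 4 := by
    intro w hw hw1
    exact klein_contrib hM (hcen w hw) (hx2 w hw) (hdata w hw).1 (hdata w hw).2 hdB (hl w hw hw1)
  obtain ⟨u, hu, hu1⟩ : ∃ u ∈ P, u ≠ 1 := by
    have : Nontrivial P := by
      rw [← Finite.one_lt_card_iff_nontrivial, hP4]
      norm_num
    obtain ⟨u, hu⟩ := exists_ne (1 : P)
    exact ⟨u, u.2, fun h => hu (Subtype.ext h)⟩
  have hk : Nat.card B = 4 := (hcontrib u hu hu1).1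
  have hfs : (fs B).card = 4 := by
    rw [fs, ← Fintype.card_subtype, ← Nat.card_eq_fintype_card]
    exact hk
  have hint4 : ∀ χ ∈ B, ∀ g : G, MemLocalRing M (4 * (χ : G → ℂ) g / (Nat.card (cen g) : ℂ)) := by
    intro χ hχ g
    have h1 := memLocalRing_pow_defect_mul_div hM hχ g
    rw [hdB] at h1
    have h2 : ((2 : ℕ) : ℂ) ^ 2 = 4 := by norm_num
    rw [h2] at h1
    exact h1
  have hsec : ∀ w (hw : w ∈ P), w ≠ 1 → ∃ A : IrrCharacter G → IrrCharacter G → ℤ,
      (∀ χ ∈ B, ∀ g, 4 * secFun 2 (fam (Subgroup.zpowers w)) (cenElt' w) (χ : G → ℂ) g =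
        ∑ ψ ∈ fs B, (A χ ψ : ℂ) * (ψ : G → ℂ) g) ∧
      (∀ χ ∈ B, ∀ ψ ∈ B, A χ ψ = 1 ∨ A χ ψ = -1) ∧
      (∀ χ ∈ B, ∀ ψ ∈ B, ∀ g, secFun 2 (fam (Subgroup.zpowers w)) (cenElt' w) (ψ : G → ℂ) g =
        (A χ ψ : ℂ) * secFun 2 (fam (Subgroup.zpowers w)) (cenElt' w) (χ : G → ℂ) g) := by
    intro w hw hw1
    choose A hA using exists_int_mc hM (hcen w hw) (hx2 w hw) (hdata w hw).1 (hdata w hw).2
    rw [(hdata w hw).2, hdB] at hA
    have hA' : ∀ χ ψ : IrrCharacter G,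
        mc 2 (fam (Subgroup.zpowers w)) (cenElt' w) (χ : G → ℂ) (ψ : G → ℂ) = (A χ ψ : ℂ) / 4 := by
      intro χ ψ
      rw [← hA]
      norm_num
    refine ⟨A, piece_lemma hfs
      (fun χ => secFun 2 (fam (Subgroup.zpowers w)) (cenElt' w) (χ : G → ℂ))
      (fun χ => isClassFunction_secFun _ _ _) A
      (fun χ _ ψ _ => by rw [classInner_secFun_irr' hM (hcen w hw) (hdata w hw).1.1, hA'])
      (fun χ _ ψ hψ => by
        rw [classInner_secFun_irr' hM (hcen w hw) (hdata w hw).1.1,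
          mc_eq_zero_right hM (hcen w hw) (hdata w hw).1 _ hψ])
      (fun χ _ ψ _ => by rw [classInner_secFun_secFun hp (hcen w hw), hA'])
      (fun χ hχ => ?_)⟩
    have h1 := hA' χ χ
    rw [(hcontrib w hw hw1).2 χ hχ] at h1
    have h2 : ((A χ χ : ℤ) : ℂ) = ((1 : ℤ) : ℂ) := by
      push_cast
      linear_combination (-4 : ℂ) * h1
    exact_mod_cast h2
  have htr := fun {a b : G} => klein_transitive hTN hP4 he (u := a) (z := b)
  have hQp : IsPGroup 2 (Subgroup.zpowers u) := hmax.1.1.1.to_le (hQD u hu)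
  have hQab : Subgroup.zpowers u ≤ cz (Subgroup.zpowers u) := (hQD u hu).trans (hDQ u hu)
  have hdec : ∀ χ : IrrCharacter G, χ ∈ B → (χ : G → ℂ) = regPart 2 (χ : G → ℂ) +
      secFun 2 (fam (Subgroup.zpowers u)) (cenElt' u) (χ : G → ℂ) := by
    intro χ hχ
    have hfp := fpart_eq_regPart_tw hM (hcen u hu)
      (fun b hb => inducedBlockDefined_of_le hM hQp hQab le_rfl
        (Subgroup.centralizer_le_normalizer _) hb) hB (hdata u hu).1
      (fun b hb => unique_block_of_control hM hmax T hT hu (fun z hz hg => by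
        obtain ⟨g, hg⟩ := hg
        apply htr hu hz hu1
        rintro rfl
        apply hu1
        have : u = g⁻¹ * (g * u * g⁻¹) * g := by group
        rw [this, hg]
        group) (hle u hu) hb) hχ
    apply eq_regPart_add_secFun hM (hcen u hu) hu1 hfp
    intro g y hy hy1 hnc
    apply irr_eq_zero_of_pPart_not_mem hM χ hy
    intro D' hD' hyD'
    rw [← IsPBlock.eq_blockOf hB hχ] at hD'
    obtain ⟨s, rfl⟩ := isDefectGroup_exists_conj hM hB hPdef hD'
    rw [mem_cj] at hyD'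
    have hne : s⁻¹ * y * s ≠ 1 := by
      intro h
      apply hy1
      have : y = s * (s⁻¹ * y * s) * s⁻¹ := by group
      rw [this, h]
      group
    obtain ⟨t, -, ht⟩ := htr hu hyD' hu1 hne
    apply hnc
    rw [isConj_iff]
    refine ⟨(s * t)⁻¹, ?_⟩
    have : y = s * (s⁻¹ * y * s) * s⁻¹ := by group
    rw [this, ← ht]
    show _ = u
    group
  obtain ⟨A, hA1, hA2, hA3⟩ := hsec u hu hu1
  obtain ⟨χ0, hχ0⟩ := IsPBlock.nonempty hB
  have hval : ∀ χ ∈ B, ∀ g : G, 2 ∣ orderOf g → (A χ0 χ : ℂ) * (χ : G → ℂ) g =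
      secFun 2 (fam (Subgroup.zpowers u)) (cenElt' u) (χ0 : G → ℂ) g := by
    intro χ hχ g hg
    have h1 := congrFun (hdec χ hχ) g
    rw [Pi.add_apply, regPart_of_dvd _ hg, zero_add, hA3 χ0 hχ0 χ hχ g] at h1
    rw [h1, ← mul_assoc]
    have hsq : (A χ0 χ : ℂ) * (A χ0 χ : ℂ) = 1 := by
      rcases hA2 χ0 hχ0 χ hχ with h | h <;> rw [h] <;> norm_num
    rw [hsq, one_mul]
  refine ⟨A χ0, hfs, hA2 χ0 hχ0, fun χ hχ ψ hψ g hg => ?_, fun g hg => ?_, hint4⟩
  · rw [hval χ hχ g hg, hval ψ hψ g hg]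
  · rw [← hA1 χ0 hχ0 g, secFun_eq_zero_of_reg hp (hcen u hu) hu1 _ _ hg, mul_zero]

theorem klein_type1 (hM : IsPModular 2 M) {B : Set (IrrCharacter G)} {P : Subgroup G}
    {c : Set (IrrCharacter (cz P))} (hmax : IsMaximalBrauerPair 2 M B P c)
    (hP4 : Nat.card P = 4) (hexp : ∀ x ∈ P, x * x = 1) (hab : P ≤ cz P) (T : Subgroup G)
    (hT : ∀ g, g ∈ T ↔ g ∈ Subgroup.normalizer (P : Set G) ∧ StabilizesBlock (cz P) c g)
    (he : (cz P).relIndex T = 1) : KType1 M B := by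
  have : Fact (Nat.Prime 2) := ⟨Nat.prime_two⟩
  have := IsPModular.isPrime hM
  have hp : Nat.Prime 2 := Nat.prime_two
  have hB : IsPBlock M B := hmax.1.2.1
  have hTN : T ≤ Subgroup.normalizer (P : Set G) := fun t ht => ((hT t).mp ht).1
  have hfam : ∀ Q : Subgroup G, ∃ f : Set (IrrCharacter (cz Q)),
      Q ≤ P → PLE 2 M ⟨Q, f⟩ ⟨P, c⟩ := by
    intro Q
    by_cases hQ : Q ≤ P
    · obtain ⟨f, hf⟩ := exists_PLE hM ⟨P, c⟩ hmax.1.1 _ Q hQ rfl
      exact ⟨f, fun _ => hf⟩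
    · exact ⟨∅, fun h => absurd h hQ⟩
  choose fam hfam using hfam
  have hQD : ∀ w ∈ P, Subgroup.zpowers w ≤ P := fun w hw => Subgroup.zpowers_le.mpr hw
  have hDQ : ∀ w ∈ P, P ≤ cz (Subgroup.zpowers w) := fun w hw y hy =>
    cen_le_centralizer_zpowers w (Subgroup.mem_centralizer_singleton_iff.mpr
      (Subgroup.mem_centralizer_iff.mp (hab hy) w hw).symm)
  have hle : ∀ w (hw : w ∈ P), SubpairLE 2 M (Subgroup.zpowers w) (fam _) P c :=
    fun w hw => hfam _ (hQD w hw)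
  have hdata := fun w hw => major_data hM hmax (hle w hw) (hDQ w hw)
  have hord : ∀ w ∈ P, w ≠ 1 → orderOf w = 2 := fun w hw hw1 =>
    orderOf_eq_prime (by rw [sq]; exact hexp w hw) hw1
  have hcen : ∀ w ∈ P, IsCenOf 2 (cenElt' w) := by
    intro w hw
    apply isCenOf_cenElt'
    by_cases hw1 : w = 1
    · exact ⟨0, by rw [hw1, orderOf_one, pow_zero]⟩
    · exact ⟨1, by rw [hord w hw hw1, pow_one]⟩
  have hPdef : IsDefectGroup 2 M B P := isDefectGroup_of_maximal hM hmax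
  have hdB : blockDefect 2 B = 2 := by
    have h2 := IsDefectGroup.card_eq hM hB hPdef
    rw [hP4] at h2
    have h3 : (2 : ℕ) ^ 2 = 2 ^ blockDefect 2 B := by rw [← h2]; norm_num
    exact (Nat.pow_right_injective le_rfl h3).symm
  have hl : ∀ w (hw : w ∈ P), w ≠ 1 → blockRank 2 (fam (Subgroup.zpowers w)) = 1 := by
    intro w hw hw1
    apply blockRank_eq_one_of_central_involution hM (hdata w hw).1.1
      (isDefectGroup_centralizer_of_le hM hmax (hle w hw) (hDQ w hw)) _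
      (mem_center (hcen w hw)) _
    · rw [Nat.card_congr (Subgroup.subgroupOfEquivOfLe (hDQ w hw)).toEquiv, hP4]
    · rw [← Subgroup.orderOf_coe]
      exact hord w hw hw1
  have hx2 : ∀ w ∈ P, cenElt' w ^ 2 = 1 := by
    intro w hw
    apply Subtype.ext
    rw [Subgroup.coe_pow, sq]
    exact hexp w hw
  have hcontrib : ∀ w (hw : w ∈ P), w ≠ 1 → Nat.card B = 4 ∧ ∀ χ : IrrCharacter G, χ ∈ B →
      mc 2 (fam (Subgroup.zpowers w)) (cenElt' w) (χ : G → ℂ) (χ : G → ℂ) = 1 / 4 := by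
    intro w hw hw1
    exact klein_contrib hM (hcen w hw) (hx2 w hw) (hdata w hw).1 (hdata w hw).2 hdB (hl w hw hw1)
  obtain ⟨u, hu, hu1⟩ : ∃ u ∈ P, u ≠ 1 := by
    have : Nontrivial P := by
      rw [← Finite.one_lt_card_iff_nontrivial, hP4]
      norm_num
    obtain ⟨u, hu⟩ := exists_ne (1 : P)
    exact ⟨u, u.2, fun h => hu (Subtype.ext h)⟩
  have hk : Nat.card B = 4 := (hcontrib u hu hu1).1
  have hfs : (fs B).card = 4 := by
    rw [fs, ← Fintype.card_subtype, ← Nat.card_eq_fintype_card]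
    exact hk
  have hint4 : ∀ χ ∈ B, ∀ g : G, MemLocalRing M (4 * (χ : G → ℂ) g / (Nat.card (cen g) : ℂ)) := by
    intro χ hχ g
    have h1 := memLocalRing_pow_defect_mul_div hM hχ g
    rw [hdB] at h1
    have h2 : ((2 : ℕ) : ℂ) ^ 2 = 4 := by norm_num
    rw [h2] at h1
    exact h1
  have hsec : ∀ w (hw : w ∈ P), w ≠ 1 → ∃ A : IrrCharacter G → IrrCharacter G → ℤ,
      (∀ χ ∈ B, ∀ g, 4 * secFun 2 (fam (Subgroup.zpowers w)) (cenElt' w) (χ : G → ℂ) g =
        ∑ ψ ∈ fs B, (A χ ψ : ℂ) * (ψ : G → ℂ) g) ∧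
      (∀ χ ∈ B, ∀ ψ ∈ B, A χ ψ = 1 ∨ A χ ψ = -1) ∧
      (∀ χ ∈ B, ∀ ψ ∈ B, ∀ g, secFun 2 (fam (Subgroup.zpowers w)) (cenElt' w) (ψ : G → ℂ) g =
        (A χ ψ : ℂ) * secFun 2 (fam (Subgroup.zpowers w)) (cenElt' w) (χ : G → ℂ) g) := by
    intro w hw hw1
    choose A hA using exists_int_mc hM (hcen w hw) (hx2 w hw) (hdata w hw).1 (hdata w hw).2
    rw [(hdata w hw).2, hdB] at hA
    have hA' : ∀ χ ψ : IrrCharacter G,
        mc 2 (fam (Subgroup.zpowers w)) (cenElt' w) (χ : G → ℂ) (ψ : G → ℂ) = (A χ ψ : ℂ) / 4 := by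
      intro χ ψ
      rw [← hA]
      norm_num
    refine ⟨A, piece_lemma hfs
      (fun χ => secFun 2 (fam (Subgroup.zpowers w)) (cenElt' w) (χ : G → ℂ))
      (fun χ => isClassFunction_secFun _ _ _) A
      (fun χ _ ψ _ => by rw [classInner_secFun_irr' hM (hcen w hw) (hdata w hw).1.1, hA'])
      (fun χ _ ψ hψ => by
        rw [classInner_secFun_irr' hM (hcen w hw) (hdata w hw).1.1,
          mc_eq_zero_right hM (hcen w hw) (hdata w hw).1 _ hψ])
      (fun χ _ ψ _ => by rw [classInner_secFun_secFun hp (hcen w hw), hA'])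
      (fun χ hχ => ?_)⟩
    have h1 := hA' χ χ
    rw [(hcontrib w hw hw1).2 χ hχ] at h1
    have h2 : ((A χ χ : ℤ) : ℂ) = ((1 : ℤ) : ℂ) := by
      push_cast
      linear_combination (-4 : ℂ) * h1
    exact_mod_cast h2
  have hTC : T ≤ cz P := Subgroup.relIndex_eq_one.mp he
  have hrk : blockRank 2 B = 1 := by
    have := (klein_main hM hmax hP4 hexp hab T hT (Or.inl he)).2
    rw [this, he]
  have hex0 : ∀ χ ψ : IrrCharacter G, ∃ n : ℤ, χ ∈ B →
      classInner (regPart 2 (χ : G → ℂ)) (ψ : G → ℂ) = (n : ℂ) / 4 := by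
    intro χ ψ
    by_cases hχ : χ ∈ B
    · obtain ⟨n, hn⟩ := exists_int_pow_defect_mul (p := 2) hχ ψ
      rw [hdB] at hn
      refine ⟨n, fun _ => ?_⟩
      rw [← hn]
      norm_num
    · exact ⟨0, fun h => absurd h hχ⟩
  choose A0 hA0 using hex0
  have hpos : ∀ χ ∈ B, 1 ≤ A0 χ χ := by
    intro χ hχ
    have h1 := hA0 χ χ hχ
    rw [classInner_regPart_eq_self, classInner_self_eq] at h1
    have hnn := classInner_self_nonneg (regPart 2 (χ : G → ℂ))
    set r := (Nat.card G : ℝ)⁻¹ * ∑ g : G, ‖regPart 2 (χ : G → ℂ) g‖ ^ 2 with hr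
    have h2 : ((A0 χ χ : ℤ) : ℝ) = 4 * r := by
      have h3 : (((A0 χ χ : ℤ) : ℝ) : ℂ) = ((4 * r : ℝ) : ℂ) := by
        push_cast
        rw [h1]
        ring
      exact_mod_cast h3
    have h3 : r ≠ 0 := by
      intro h0
      have h4 := Cfsg.Agent.Lib.Helper13.eq_zero_of_classInner_self_eq_zero
        (regPart 2 (χ : G → ℂ)) (by rw [classInner_self_eq, ← hr, h0]; simp)
      have h5 := congrFun h4 1
      rw [regPart_of_not_dvd _ (by rw [orderOf_one]; norm_num)] at h5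
      exact irr_one_ne_zero χ.2 h5
    have h4 : (0 : ℝ) < (A0 χ χ : ℤ) := by
      rw [h2]
      have : 0 < r := lt_of_le_of_ne hnn (Ne.symm h3)
      linarith
    have h5 : 0 < A0 χ χ := by exact_mod_cast h4
    omega
  have hsum0 : ∑ χ ∈ fs B, A0 χ χ = 4 := by
    have h1 := blockRank_eq_sum' hM hB
    rw [hrk] at h1
    have h2 : ((∑ χ ∈ fs B, A0 χ χ : ℤ) : ℂ) = ((4 : ℤ) : ℂ) := by
      push_cast
      rw [fs, Finset.sum_filter]
      have h3 : ∀ χ : IrrCharacter G, (if χ ∈ B then (A0 χ χ : ℂ) else 0) =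
          4 * (B.indicator 1 χ * classInner (regPart 2 (χ : G → ℂ)) (χ : G → ℂ)) := by
        intro χ
        by_cases hχ : χ ∈ B
        · rw [if_pos hχ, Set.indicator_of_mem hχ, hA0 χ χ hχ, Pi.one_apply, one_mul]
          ring
        · rw [if_neg hχ, Set.indicator_of_notMem hχ, zero_mul, mul_zero]
      rw [Finset.sum_congr rfl fun χ _ => h3 χ, ← Finset.mul_sum, ← h1]
      norm_num
    exact_mod_cast h2
  have hd0 : ∀ χ ∈ B, A0 χ χ = 1 := by
    have h6 : ∑ χ ∈ fs B, (A0 χ χ - 1) = 0 := by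
      rw [Finset.sum_sub_distrib, hsum0]
      simp [hfs]
    have h7 := (Finset.sum_eq_zero_iff_of_nonneg (fun χ hχ => by
      have := hpos χ (mem_fs.mp hχ)
      linarith)).mp h6
    intro χ hχ
    have := h7 χ (mem_fs.mpr hχ)
    linarith
  obtain ⟨hR1, hR2, hR3⟩ := piece_lemma hfs (fun χ => regPart 2 (χ : G → ℂ))
    (fun χ => isClassFunction_regPart (irr_isClassFunction χ.2)) A0
    (fun χ hχ ψ _ => hA0 χ ψ hχ)
    (fun χ hχ ψ hψ => classInner_regPart_eq_zero hM hB hχ hψ)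
    (fun χ hχ ψ _ => by rw [classInner_regPart_regPart']; exact hA0 χ ψ hχ)
    hd0
  have hone : ∀ χ ∈ B, ∀ ψ ∈ B, A0 χ ψ = 1 := by
    intro χ hχ ψ hψ
    rcases hR2 χ hχ ψ hψ with h | h
    · exact h
    · exfalso
      have h1 : regPart 2 (ψ : G → ℂ) 1 = (A0 χ ψ : ℂ) * regPart 2 (χ : G → ℂ) 1 :=
        hR3 χ hχ ψ hψ 1
      rw [regPart_of_not_dvd _ (by rw [orderOf_one]; norm_num),
        regPart_of_not_dvd _ (by rw [orderOf_one]; norm_num), h,
        ← charDegree_cast (IsIrrCharacter.isCharacter ψ.2),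
        ← charDegree_cast (IsIrrCharacter.isCharacter χ.2)] at h1
      have h2 : ((charDegree (ψ : G → ℂ) + charDegree (χ : G → ℂ) : ℕ) : ℂ) = 0 := by
        push_cast
        rw [h1]
        push_cast
        ring
      have h3 : charDegree (ψ : G → ℂ) + charDegree (χ : G → ℂ) = 0 := by exact_mod_cast h2
      have := charDegree_pos ψ.2
      omega
  set Θ : P → IrrCharacter G → G → ℂ := fun z χ => if z = 1 then regPart 2 (χ : G → ℂ) else
    secFun 2 (fam (Subgroup.zpowers (z : G))) (cenElt' (z : G)) (χ : G → ℂ) with hΘ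
  have hne : ∀ z : P, z ≠ 1 → (z : G) ≠ 1 := fun z hz h => hz (Subtype.ext h)
  have hcomplete : ∀ χ ∈ B, (χ : G → ℂ) = ∑ z : P, Θ z χ := by
    intro χ hχ
    have hχc : IsClassFunction G (χ : G → ℂ) := irr_isClassFunction χ.2
    apply eq_sum_of_orth (fun z => Θ z χ) (fun _ => 1 / 4) χ
    · intro z
      simp only [hΘ]
      split_ifs with hz
      · rw [hA0 χ χ hχ, hd0 χ hχ]
        norm_num
      · rw [classInner_secFun_irr hM (hcen z z.2) (hdata z z.2).1.1,
          (hcontrib z z.2 (hne z hz)).2 χ hχ]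
    · intro z
      simp only [hΘ]
      split_ifs with hz
      · rw [← classInner_regPart_eq_self, hA0 χ χ hχ, hd0 χ hχ]
        norm_num
      · rw [classInner_secFun_self hp (hcen z z.2), (hcontrib z z.2 (hne z hz)).2 χ hχ]
    · intro z z' hzz
      simp only [hΘ]
      by_cases hz : z = 1
      · have hz' : z' ≠ 1 := fun h => hzz (hz.trans h.symm)
        rw [if_pos hz, if_neg hz']
        exact classInner_regPart_secFun hp (hcen z' z'.2) (hne z' hz') _ _ _
      · rw [if_neg hz]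
        by_cases hz' : z' = 1
        · rw [if_pos hz']
          exact classInner_secFun_regPart hp (hcen z z.2) (hne z hz) _ _ _
        · rw [if_neg hz']
          rcases secFun_orth_or_eq hM (hcen z z.2) (hcen z' z'.2) rfl rfl (hdata z z.2).1.1
            (hdata z' z'.2).1.1 hχc with h | ⟨-, g, hg, hgg⟩
          · exact h
          · exfalso
            obtain ⟨c', hc', h1, h2⟩ := exists_stab_conj hM hmax (hle z z.2) (hle z' z'.2)
              (hDQ z z.2) (hDQ z' z'.2) hgg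
            have h3 : c' * g ∈ cz P := hTC ((hT _).mpr ⟨h1, h2⟩)
            have h4 : (z : G) * (c' * g) = c' * g * (z : G) :=
              Subgroup.mem_centralizer_iff.mp h3 z z.2
            have h5 : (z' : G) * c' = c' * (z' : G) :=
              Subgroup.mem_centralizer_iff.mp hc' (z' : G) (Subgroup.mem_zpowers _)
            have hg' : g * (z : G) * g⁻¹ = (z' : G) := hg
            apply hzz
            apply Subtype.ext
            calc (z : G) = (z : G) * (c' * g) * (c' * g)⁻¹ := by group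
              _ = c' * (g * (z : G) * g⁻¹) * c'⁻¹ := by rw [h4]; group
              _ = c' * (z' : G) * c'⁻¹ := by rw [hg']
              _ = (z' : G) := by rw [← h5]; group
    · rw [Finset.sum_const, Finset.card_univ, ← Nat.card_eq_fintype_card, hP4]
      norm_num
  have hΘ' : ∀ z : P, ∃ AA : IrrCharacter G → IrrCharacter G → ℤ,
      (∀ χ ∈ B, ∀ ψ ∈ B, AA χ ψ = 1 ∨ AA χ ψ = -1) ∧
      (∀ χ ∈ B, ∀ ψ ∈ B, ∀ g, Θ z ψ g = (AA χ ψ : ℂ) * Θ z χ g) := by
    intro z
    by_cases hz : z = 1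
    · refine ⟨A0, hR2, fun χ hχ ψ hψ g => ?_⟩
      simp only [hΘ, if_pos hz]
      exact hR3 χ hχ ψ hψ g
    · obtain ⟨A, -, h2, h3⟩ := hsec z z.2 (hne z hz)
      refine ⟨A, h2, fun χ hχ ψ hψ g => ?_⟩
      simp only [hΘ, if_neg hz]
      exact h3 χ hχ ψ hψ g
  have hΘint : ∀ (z : P) (χ : IrrCharacter G) (g : G), IsIntegral ℤ (Θ z χ g) := by
    intro z χ g
    simp only [hΘ]
    split_ifs with hz
    · by_cases hg : 2 ∣ orderOf g
      · rw [regPart_of_dvd _ hg]
        exact isIntegral_zero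
      · rw [regPart_of_not_dvd _ hg]
        exact irr_isIntegral χ.2 g
    · exact isIntegral_secFun hp (hcen z z.2) _ χ g
  have hΘ4 : ∀ (z : P), ∀ χ ∈ B, ∀ g : G,
      MemLocalRing M (4 * Θ z χ g / (Nat.card (cen g) : ℂ)) := by
    intro z χ hχ g
    simp only [hΘ]
    split_ifs with hz
    · by_cases hg : 2 ∣ orderOf g
      · rw [regPart_of_dvd _ hg, mul_zero, zero_div]
        exact memLocalRing_zero
      · rw [regPart_of_not_dvd _ hg]
        exact hint4 χ hχ g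
    · have h1 := memLocalRing_pow_defect_mul_secFun_div hM (hcen z z.2)
        (fam (Subgroup.zpowers (z : G))) χ g
      rw [(hdata z z.2).2, hdB] at h1
      have h2 : ((2 : ℕ) : ℂ) ^ 2 = 4 := by norm_num
      rw [h2] at h1
      exact h1
  have hhalfc : ∀ a : ℤ, (a = 1 ∨ a = -1) → MemLocalRing M ((1 - (a : ℂ)) / 2) := by
    rintro a (rfl | rfl)
    · norm_num
      exact memLocalRing_zero
    · norm_num
      exact memLocalRing_one
  choose AA hAA1 hAA2 using hΘ'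
  refine ⟨hfs, ?_, ?_, ?_, ?_, hint4⟩
  · intro χ hχ ψ hψ g hg
    have h1 : regPart 2 (χ : G → ℂ) g = (A0 ψ χ : ℂ) * regPart 2 (ψ : G → ℂ) g :=
      hR3 ψ hψ χ hχ g
    rw [regPart_of_not_dvd _ hg, regPart_of_not_dvd _ hg, hone ψ hψ χ hχ] at h1
    simpa using h1
  · intro g hg
    obtain ⟨χ0, hχ0⟩ := IsPBlock.nonempty hB
    have h1 : 4 * regPart 2 (χ0 : G → ℂ) g = ∑ ψ ∈ fs B, (A0 χ0 ψ : ℂ) * (ψ : G → ℂ) g :=
      hR1 χ0 hχ0 g
    rw [regPart_of_dvd _ hg, mul_zero] at h1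
    rw [h1]
    refine Finset.sum_congr rfl fun ψ hψ => ?_
    rw [hone χ0 hχ0 ψ (mem_fs.mp hψ)]
    simp
  · intro χ hχ ψ hψ g
    have hχg := congrFun (hcomplete χ hχ) g
    have hψg := congrFun (hcomplete ψ hψ) g
    rw [Finset.sum_apply] at hχg hψg
    have e : ((χ : G → ℂ) g - (ψ : G → ℂ) g) / 2 =
        ∑ z : P, ((1 - (AA z χ ψ : ℂ)) / 2) * Θ z χ g := by
      rw [hχg, hψg, ← Finset.sum_sub_distrib, Finset.sum_div]
      refine Finset.sum_congr rfl fun z _ => ?_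
      rw [hAA2 z χ hχ ψ hψ g]
      ring
    rw [e]
    exact MemLocalRing.sum _ fun z _ => MemLocalRing.mul (hhalfc _ (hAA1 z χ hχ ψ hψ))
      (memLocalRing_of_isIntegral (hΘint z χ g))
  · intro χ hχ ψ hψ g
    have hχg := congrFun (hcomplete χ hχ) g
    have hψg := congrFun (hcomplete ψ hψ) g
    rw [Finset.sum_apply] at hχg hψg
    have e : (4 * (χ : G → ℂ) g / (Nat.card (cen g) : ℂ) -
        4 * (ψ : G → ℂ) g / (Nat.card (cen g) : ℂ)) / 2 =
        ∑ z : P, ((1 - (AA z χ ψ : ℂ)) / 2) * (4 * Θ z χ g / (Nat.card (cen g) : ℂ)) := by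
      rw [hχg, hψg, Finset.mul_sum, Finset.mul_sum, Finset.sum_div, Finset.sum_div,
        ← Finset.sum_sub_distrib, Finset.sum_div]
      refine Finset.sum_congr rfl fun z _ => ?_
      rw [hAA2 z χ hχ ψ hψ g]
      ring
    rw [e]
    exact MemLocalRing.sum _ fun z _ => MemLocalRing.mul (hhalfc _ (hAA1 z χ hχ ψ hψ))
      (hΘ4 z χ hχ g)

end Cfsg.Agent.Lib.Helper6
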