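import Mathlib
import Cfsg.Prelude.Def_Blocks
import Cfsg.Prelude.Def_BlockLocal
import Cfsg.Agent.Lib.Helper6.KleinIso4
import Cfsg.Agent.Lib.Helper24.IndCent
import Cfsg.Agent.Lib.Helper24.Cyc3
import Cfsg.Agent.Lib.Helper24.FongReynolds2

/-!
# Perfect isometries for Klein four defect groups, V: the Brauer correspondent
-/

set_option autoImplicit false
set_option linter.unusedSectionVars false

namespace Cfsg.Agent.Lib.Helper6

open Cfsg Cfsg.Agent.Lib.Helper2 Cfsg.Agent.Lib.Helper24 Cfsg.Agent.Lib.Helper23.Contrib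
open scoped ComplexConjugate Classical

attribute [local instance] irrFintype

theorem exists_bijOn_of_card_eq {α β : Type*} {s : Finset α} {t : Finset β}
    (h : s.card = t.card) (hne : t.Nonempty) : ∃ I : α → β, Set.BijOn I s t := by
  obtain ⟨b0, hb0⟩ := hne
  let e := Finset.equivOfCardEq h
  refine ⟨fun a => if ha : a ∈ s then (e ⟨a, ha⟩ : β) else b0, ?_, ?_, ?_⟩
  · intro a ha
    have ha' : a ∈ s := ha
    simp only [dif_pos ha']
    exact (e ⟨a, ha'⟩).2
  · intro a ha b hb hab
    have ha' : a ∈ s := ha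
    have hb' : b ∈ s := hb
    simp only [dif_pos ha', dif_pos hb'] at hab
    exact congrArg Subtype.val (e.injective (Subtype.ext hab))
  · intro b hb
    have hb' : b ∈ t := hb
    refine ⟨(e.symm ⟨b, hb'⟩ : α), (e.symm ⟨b, hb'⟩).2, ?_⟩
    have h1 : ((e.symm ⟨b, hb'⟩ : s) : α) ∈ s := (e.symm ⟨b, hb'⟩).2
    simp only [dif_pos h1]
    simp

section

variable {G : Type*} [Group G] [Fintype G] {M : Ideal AlgInt}

theorem coe_fs (Y : Set (IrrCharacter G)) : ((fs Y : Finset (IrrCharacter G)) : Set _) = Y := by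
  ext χ
  simp [mem_fs]

/-- the type of a block with Klein four defect groups in terms of a maximal pair -/
theorem klein_type (hM : IsPModular 2 M) {B : Set (IrrCharacter G)} {P : Subgroup G}
    {c : Set (IrrCharacter (cz P))} (hmax : IsMaximalBrauerPair 2 M B P c)
    (hV : IsKleinFour P) :
    ((∀ g : G, cjIdx g ⟨P, c⟩ = (⟨P, c⟩ : BrauerPairIdx G) → g ∈ cz P) → KType1 M B) ∧
    (¬ (∀ g : G, cjIdx g ⟨P, c⟩ = (⟨P, c⟩ : BrauerPairIdx G) → g ∈ cz P) →
      ∃ δ : IrrCharacter G → ℤ, KType3 M B δ) := by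
  have hP4 : Nat.card P = 4 := hV.card_four
  have hexp : ∀ x ∈ P, x * x = 1 := by
    intro x hx
    have h1 := Monoid.pow_exponent_eq_one (⟨x, hx⟩ : P)
    rw [hV.exponent_two, sq] at h1
    exact congrArg Subtype.val h1
  have hab : P ≤ cz P := by
    intro x hx
    rw [Subgroup.mem_centralizer_iff]
    intro y hy
    exact congrArg Subtype.val (mul_comm_of_exponent_two hV.exponent_two (⟨y, hy⟩ : P) ⟨x, hx⟩)
  set T : Subgroup G := Subgroup.normalizer (P : Set G) ⊓ stabSub (cz P) c with hTdef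
  have hT : ∀ g, g ∈ T ↔ g ∈ Subgroup.normalizer (P : Set G) ∧ StabilizesBlock (cz P) c g := by
    intro g
    rw [hTdef, Subgroup.mem_inf, mem_stabSub]
  have hTN : T ≤ Subgroup.normalizer (P : Set G) := fun t ht => ((hT t).mp ht).1
  have h13 := klein_relIndex hTN hP4 (not_dvd_relIndex_of_maximal hM hmax hab hT)
  have hiff : (∀ g : G, cjIdx g ⟨P, c⟩ = (⟨P, c⟩ : BrauerPairIdx G) → g ∈ cz P) ↔
      (cz P).relIndex T = 1 := by
    rw [Subgroup.relIndex_eq_one]
    constructor
    · intro h g hg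
      exact h g (cjIdx_eq_self_iff.mpr ((hT g).mp hg))
    · intro h g hg
      exact h ((hT g).mpr (cjIdx_eq_self_iff.mp hg))
  rw [hiff]
  refine ⟨fun he => klein_type1 hM hmax hP4 hexp hab T hT he, fun he => ?_⟩
  exact klein_type3 hM hmax hP4 hexp hab T hT (h13.resolve_left he)

theorem klein_perfect (hM : IsPModular 2 M) {B : Set (IrrCharacter G)}
    {P : Subgroup G} (hPD : IsDefectGroup 2 M B P) (hV : IsKleinFour P)
    {c : Set (IrrCharacter (Subgroup.normalizer (P : Set G)))}
    (hcD : IsDefectGroup 2 M c (P.subgroupOf (Subgroup.normalizer (P : Set G))))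
    (hc : IsInducedBlock M (Subgroup.normalizer (P : Set G)) c B) :
    ∃ (I : IrrCharacter (Subgroup.normalizer (P : Set G)) → IrrCharacter G)
      (ε : IrrCharacter (Subgroup.normalizer (P : Set G)) → ℤ),
      IsPerfectIsometry 2 M c B I ε := by
  have := IsPModular.isPrime hM
  have hPH : P ≤ Subgroup.normalizer (P : Set G) := Subgroup.le_normalizer
  have hcopy : IsCopy (P.subgroupOf (Subgroup.normalizer (P : Set G))) P := isCopy_subgroupOf hPH
  have hCH : cz P ≤ Subgroup.normalizer (P : Set G) := Subgroup.centralizer_le_normalizer _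
  obtain ⟨e', he'⟩ := exists_pair_of_defectGroup hM hc.1 hcD
  have hmax' := isMaximalBrauerPair_of_isDefectGroup hM he' hcD
  have hmap : (P.subgroupOf (Subgroup.normalizer (P : Set G))).map
      (Subgroup.normalizer (P : Set G)).subtype = P := hcopy.eq_map.symm
  have ha : PairCopy (⟨P.subgroupOf (Subgroup.normalizer (P : Set G)), e'⟩ :
      BrauerPairIdx (Subgroup.normalizer (P : Set G)))
      ⟨P, upSet (hcopy.centralizer hCH) e'⟩ := pairCopy_mk hcopy hCH e'
  set e := upSet (hcopy.centralizer hCH) e' with hedef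
  have hpa : IsBrauerPair 2 M P e := (ha.isBrauerPair_iff).mpr he'.1
  obtain ⟨B', hB', -⟩ := existsUnique_block_of_pair hM hpa
  have hind := isInducedBlock_of_pairCopy hM ha he' hB'
  have hBB : B' = B := isInducedBlock_unique hind hc
  rw [hBB] at hB'
  have hmax := isMaximalBrauerPair_of_isDefectGroup hM hB' hPD
  have hV' : IsKleinFour (P.subgroupOf (Subgroup.normalizer (P : Set G))) :=
    ⟨by rw [Nat.card_congr (Subgroup.subgroupOfEquivOfLe hPH).toEquiv]; exact hV.card_four,
      by rw [Monoid.exponent_eq_of_mulEquiv (Subgroup.subgroupOfEquivOfLe hPH)]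
         exact hV.exponent_two⟩
  have hiff : (∀ g : G, cjIdx g ⟨P, e⟩ = (⟨P, e⟩ : BrauerPairIdx G) → g ∈ cz P) ↔
      (∀ h : Subgroup.normalizer (P : Set G),
        cjIdx h ⟨P.subgroupOf (Subgroup.normalizer (P : Set G)), e'⟩ =
          (⟨P.subgroupOf (Subgroup.normalizer (P : Set G)), e'⟩ :
            BrauerPairIdx (Subgroup.normalizer (P : Set G))) →
        h ∈ cz (P.subgroupOf (Subgroup.normalizer (P : Set G)))) := by
    constructor
    · intro h1 h hh
      rw [hcopy.mem_centralizer_iff]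
      apply h1
      have h2 := ha.conj h
      rw [hh] at h2
      exact h2.unique ha
    · intro h1 g hg
      have hgH : g ∈ Subgroup.normalizer (P : Set G) := (cjIdx_eq_self_iff.mp hg).1
      have h2 := ha.conj ⟨g, hgH⟩
      have h2' : PairCopy (cjIdx (⟨g, hgH⟩ : Subgroup.normalizer (P : Set G))
          ⟨P.subgroupOf (Subgroup.normalizer (P : Set G)), e'⟩) (cjIdx g ⟨P, e⟩) := h2
      rw [hg] at h2'
      have h3 := h1 ⟨g, hgH⟩ (h2'.unique_down ha)
      exact (hcopy.mem_centralizer_iff ⟨g, hgH⟩).mp h3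
  obtain ⟨t1, t3⟩ := klein_type hM hmax hV
  obtain ⟨t1', t3'⟩ := klein_type hM hmax' hV'
  by_cases hcase : ∀ g : G, cjIdx g ⟨P, e⟩ = (⟨P, e⟩ : BrauerPairIdx G) → g ∈ cz P
  · have hY := t1 hcase
    have hY' := t1' (hiff.mp hcase)
    obtain ⟨I, hI⟩ := exists_bijOn_of_card_eq (hY'.card.trans hY.card.symm)
      (Finset.card_pos.mp (by rw [hY.card]; norm_num))
    rw [coe_fs, coe_fs] at hI
    exact ⟨I, _, perfect_of_type1 hY hY' hI⟩
  · obtain ⟨δ, hY⟩ := t3 hcase
    obtain ⟨δ', hY'⟩ := t3' (fun h => hcase (hiff.mpr h))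
    obtain ⟨I, hI⟩ := exists_bijOn_of_card_eq (hY'.card.trans hY.card.symm)
      (Finset.card_pos.mp (by rw [hY.card]; norm_num))
    rw [coe_fs, coe_fs] at hI
    exact ⟨I, _, perfect_of_type3 hM hY hY' hI⟩

end

end Cfsg.Agent.Lib.Helper6
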