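import Mathlib
import Cfsg.Agent.Lib.Helper2.BrauerPerm

/-!
# Landau's theorem: the order of a finite group is bounded in terms of its class number
-/

set_option autoImplicit false

namespace Cfsg.Agent.Lib.Helper6

open Cfsg Cfsg.Agent.Lib.Helper2

theorem egyptian_bound : ∀ (k : ℕ) (r : ℚ), 0 < r → ∃ N : ℕ, ∀ s : Multiset ℕ,
    Multiset.card s = k → (∀ n ∈ s, 0 < n) → (s.map (fun n : ℕ => (n : ℚ)⁻¹)).sum = r →
    ∀ n ∈ s, n ≤ N := by
  intro k
  induction k with
  | zero =>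
    intro r _
    refine ⟨0, fun s hs _ _ n hn => ?_⟩
    rw [Multiset.card_eq_zero.mp hs] at hn
    simp at hn
  | succ k ih =>
    intro r hr
    set K : ℕ := ⌊((k : ℚ) + 1) / r⌋₊ with hK
    have hex : ∀ n₀ : ℕ, ∃ N : ℕ, 0 < r - (n₀ : ℚ)⁻¹ → ∀ s : Multiset ℕ,
        Multiset.card s = k → (∀ n ∈ s, 0 < n) →
        (s.map (fun n : ℕ => (n : ℚ)⁻¹)).sum = r - (n₀ : ℚ)⁻¹ → ∀ n ∈ s, n ≤ N := by
      intro n₀
      by_cases h : 0 < r - (n₀ : ℚ)⁻¹
      · obtain ⟨N, hN⟩ := ih _ h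
        exact ⟨N, fun _ => hN⟩
      · exact ⟨0, fun h' => absurd h' h⟩
    choose f hf using hex
    refine ⟨max K ((Finset.range (K + 1)).sup f), ?_⟩
    intro s hs hpos hsum n hn
    obtain ⟨n₀, hn₀, hmin⟩ : ∃ n₀ ∈ s, ∀ m ∈ s, n₀ ≤ m := by
      have hne : s.toFinset.Nonempty := ⟨n, Multiset.mem_toFinset.mpr hn⟩
      obtain ⟨n₀, h1, h2⟩ := Finset.exists_min_image s.toFinset id hne
      exact ⟨n₀, Multiset.mem_toFinset.mp h1, fun m hm => h2 m (Multiset.mem_toFinset.mpr hm)⟩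
    have hn₀pos : (0 : ℚ) < n₀ := by exact_mod_cast hpos n₀ hn₀
    have h1 : r ≤ ((k : ℚ) + 1) * (n₀ : ℚ)⁻¹ := by
      rw [← hsum]
      have := Multiset.sum_le_card_nsmul (s.map (fun n : ℕ => (n : ℚ)⁻¹)) ((n₀ : ℚ)⁻¹) (by
        intro x hx
        obtain ⟨m, hm, rfl⟩ := Multiset.mem_map.mp hx
        have hmpos : (0 : ℚ) < m := by exact_mod_cast hpos m hm
        have : (n₀ : ℚ) ≤ m := by exact_mod_cast hmin m hm
        exact inv_anti₀ hn₀pos this)
      rw [Multiset.card_map, hs, nsmul_eq_mul] at this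
      push_cast at this
      exact this
    have h2 : n₀ ≤ K := by
      apply Nat.le_floor
      rw [le_div_iff₀ hr]
      have := mul_le_mul_of_nonneg_left h1 hn₀pos.le
      calc (n₀ : ℚ) * r ≤ (n₀ : ℚ) * (((k : ℚ) + 1) * (n₀ : ℚ)⁻¹) := this
        _ = (k : ℚ) + 1 := by field_simp
    obtain ⟨t, rfl⟩ := Multiset.exists_cons_of_mem hn₀
    rw [Multiset.card_cons] at hs
    rw [Multiset.map_cons, Multiset.sum_cons] at hsum
    rcases Multiset.mem_cons.mp hn with rfl | hnt
    · exact le_trans h2 (le_max_left _ _)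
    · have hsum' : (t.map (fun n : ℕ => (n : ℚ)⁻¹)).sum = r - (n₀ : ℚ)⁻¹ := by
        rw [← hsum]; ring
      have hpos' : 0 < r - (n₀ : ℚ)⁻¹ := by
        rw [← hsum']
        have hnpos : (0 : ℚ) < n := by exact_mod_cast hpos n (Multiset.mem_cons_of_mem hnt)
        have h3 : (n : ℚ)⁻¹ ≤ (t.map (fun n : ℕ => (n : ℚ)⁻¹)).sum := by
          apply Multiset.single_le_sum
          · intro x hx
            obtain ⟨m, _, rfl⟩ := Multiset.mem_map.mp hx
            positivity
          · exact Multiset.mem_map_of_mem _ hnt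
        exact lt_of_lt_of_le (inv_pos.mpr hnpos) h3
      have h4 := hf n₀ hpos' t (by omega) (fun m hm => hpos m (Multiset.mem_cons_of_mem hm)) hsum'
        n hnt
      exact le_trans h4 (le_trans (Finset.le_sup (f := f) (Finset.mem_range.mpr (by omega)))
        (le_max_right _ _))

universe u

/-- **Landau's theorem.** -/
theorem landau (k : ℕ) : ∃ N : ℕ, ∀ (G : Type u) [Group G] [Finite G],
    Nat.card (ConjClasses G) ≤ k → Nat.card G ≤ N := by
  have hex : ∀ j : ℕ, ∃ N : ℕ, ∀ s : Multiset ℕ,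
    Multiset.card s = j → (∀ n ∈ s, 0 < n) → (s.map (fun n : ℕ => (n : ℚ)⁻¹)).sum = 1 →
    ∀ n ∈ s, n ≤ N := fun j => egyptian_bound j 1 one_pos
  choose f hf using hex
  refine ⟨(Finset.range (k + 1)).sup f, ?_⟩
  intro G _ _ hk
  classical
  let _ := Fintype.ofFinite G
  let _ := Fintype.ofFinite (ConjClasses G)
  let c : ConjClasses G → ℕ := fun C => Nat.card (Subgroup.centralizer ({Quotient.out C} : Set G))
  have hc : ∀ g : G, c (ConjClasses.mk g) = Nat.card (Subgroup.centralizer ({g} : Set G)) := by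
    intro g
    apply card_centralizer_eq_of_isConj
    apply ConjClasses.mk_eq_mk_iff_isConj.mp
    exact Quotient.out_eq _
  have hcpos : ∀ C, 0 < c C := fun C => Nat.card_pos
  have hsumC : ∑ C : ConjClasses G, ((c C : ℂ))⁻¹ = 1 := by
    have h1 := sum_mul_card_centralizer (G := G) (fun C => ((c C : ℂ))⁻¹)
    have h2 : ∀ g : G, ((c (ConjClasses.mk g) : ℂ))⁻¹ *
        (Nat.card (Subgroup.centralizer ({g} : Set G)) : ℂ) = 1 := by
      intro g
      rw [hc g]
      apply inv_mul_cancel₀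
      exact_mod_cast (Nat.card_pos (α := Subgroup.centralizer ({g} : Set G))).ne'
    rw [Finset.sum_congr rfl (fun g _ => h2 g), Finset.sum_const, Finset.card_univ, nsmul_eq_mul,
      mul_one, ← Nat.card_eq_fintype_card] at h1
    have hG : (Nat.card G : ℂ) ≠ 0 := by exact_mod_cast (Nat.card_pos (α := G)).ne'
    apply mul_left_cancel₀ hG
    rw [← h1, mul_one]
  have hsumQ : ∑ C : ConjClasses G, ((c C : ℚ))⁻¹ = 1 := by
    have : ((∑ C : ConjClasses G, ((c C : ℚ))⁻¹ : ℚ) : ℂ) = ((1 : ℚ) : ℂ) := by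
      push_cast
      exact hsumC
    exact_mod_cast this
  let s : Multiset ℕ := (Finset.univ : Finset (ConjClasses G)).val.map c
  have hs : Multiset.card s = Nat.card (ConjClasses G) := by
    rw [Multiset.card_map, Nat.card_eq_fintype_card]
    rfl
  have hmem : Nat.card G ∈ s := by
    apply Multiset.mem_map.mpr
    refine ⟨ConjClasses.mk 1, Finset.mem_univ _, ?_⟩
    rw [hc 1]
    have : Subgroup.centralizer ({1} : Set G) = ⊤ := by
      ext x
      simp [Subgroup.mem_centralizer_singleton_iff]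
    rw [this, Subgroup.card_top]
  have h3 := hf (Nat.card (ConjClasses G)) s hs (by
    intro n hn
    obtain ⟨C, _, rfl⟩ := Multiset.mem_map.mp hn
    exact hcpos C) (by
    rw [Multiset.map_map]
    exact hsumQ) (Nat.card G) hmem
  exact le_trans h3 (Finset.le_sup (f := f) (Finset.mem_range.mpr (by omega)))

end Cfsg.Agent.Lib.Helper6
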