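import Mathlib
import Cfsg.Prelude.Def_Blocks
import Cfsg.Agent.Lib.Helper6.AbQuot
import Cfsg.Agent.Lib.Helper6.MajorSub5
import Cfsg.Agent.Lib.Helper24.PIndex
import Cfsg.Agent.Lib.Helper24.BrauerCorr

/-!
# Blocks with abelian defect groups and normal subgroups of `p`-power index
-/

set_option autoImplicit false
set_option linter.unusedSectionVars false

namespace Cfsg.Agent.Lib.Helper6

open Cfsg Cfsg.Agent.Lib.Helper2 Cfsg.Agent.Lib.Helper24 Cfsg.Agent.Lib.Helper23.Contrib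
open Cfsg.Agent.Lib.Helper13
open scoped ComplexConjugate Classical

attribute [local instance] irrFintype

section

variable {G : Type*} [Group G] [Fintype G] {p : ℕ} {M : Ideal AlgInt}

/-- a character of `B` does not vanish on the section of a major subsection -/
theorem exists_reg_ne_zero [Fact p.Prime] (hM : IsPModular p M) {H : Subgroup G} {x : H}
    (hx : IsCenOf p x) {f : Set (IrrCharacter H)} {B : Set (IrrCharacter G)}
    (hind : IsInducedBlock M H f B) (hq : blockDefect p f = blockDefect p B)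
    {χ : IrrCharacter G} (hχ : χ ∈ B) :
    ∃ c : H, ¬ p ∣ orderOf c ∧ (χ : G → ℂ) ((x : G) * (c : G)) ≠ 0 := by
  by_contra hcon
  push Not at hcon
  apply mc_self_ne_zero hM hx hind hq hχ
  rw [← classInner_fpart_tw hM hx hind.1 _ (irr_isClassFunction χ.2), classInner,
    Finset.sum_eq_zero, mul_zero]
  intro c _
  by_cases hc : p ∣ orderOf c
  · rw [fpart_of_dvd _ _ _ _ hc, zero_mul]
  · rw [tw_apply, hcon c hc, map_zero, mul_zero]

/-- For an abelian defect group `P`, every character of `B` is nonzero somewhere on the section of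
each `u ∈ P`. -/
theorem exists_reg_ne_zero_of_abelian [Fact p.Prime] (hM : IsPModular p M)
    {B : Set (IrrCharacter G)} (hB : IsPBlock M B) {P : Subgroup G}
    (hPD : IsDefectGroup p M B P) (hPab : ∀ x ∈ P, ∀ y ∈ P, x * y = y * x)
    {χ : IrrCharacter G} (hχ : χ ∈ B) {u : G} (hu : u ∈ P) :
    ∃ c : G, ¬ p ∣ orderOf c ∧ (χ : G → ℂ) (u * c) ≠ 0 := by
  have hp : p.Prime := hM.1
  obtain ⟨e, he⟩ := exists_pair_of_defectGroup hM hB hPD
  have hmax := isMaximalBrauerPair_of_isDefectGroup hM he hPD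
  have hQP : Subgroup.zpowers u ≤ P := Subgroup.zpowers_le.mpr hu
  obtain ⟨f, hf⟩ := exists_PLE hM ⟨P, e⟩ hmax.1.1 _ (Subgroup.zpowers u) hQP rfl
  have hDQ : P ≤ cz (Subgroup.zpowers u) := fun y hy =>
    cen_le_centralizer_zpowers u (Subgroup.mem_centralizer_singleton_iff.mpr (hPab y hy u hu))
  obtain ⟨hind, hq⟩ := major_data hM hmax hf hDQ
  have hord : ∃ k : ℕ, orderOf u = p ^ k := by
    obtain ⟨k, hk⟩ := (IsPGroup.iff_orderOf.mp hmax.1.1.1) ⟨u, hu⟩
    exact ⟨k, by rw [← hk, Subgroup.orderOf_mk]⟩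
  obtain ⟨c, hc, hne⟩ := exists_reg_ne_zero hM (isCenOf_cenElt' hord) hind hq hχ
  exact ⟨c, by rwa [Subgroup.orderOf_coe], hne⟩

variable (N : Subgroup G) [hN : N.Normal]

theorem mem_of_reg_of_index {k : ℕ} (hp : p.Prime) (hNi : N.index = p ^ k) {s : G}
    (hs : ¬ p ∣ orderOf s) : s ∈ N := by
  rw [← QuotientGroup.eq_one_iff, ← orderOf_eq_one_iff]
  have h1 : orderOf (s : G ⧸ N) ∣ orderOf s := orderOf_map_dvd (QuotientGroup.mk' N) s
  have h2 : orderOf (s : G ⧸ N) ∣ p ^ k := by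
    rw [← hNi]
    exact orderOf_dvd_natCard _
  have h3 : Nat.Coprime (orderOf s) (p ^ k) :=
    Nat.Coprime.pow_right k ((Nat.Prime.coprime_iff_not_dvd hp).mpr hs).symm
  exact Nat.eq_one_of_dvd_coprimes h3 h1 h2

theorem exists_mk_eq_of_sup {P : Subgroup G} (hsup : N ⊔ P = ⊤) (x : G) :
    ∃ n ∈ N, ∃ u ∈ P, n * u = x := by
  have h : x ∈ N ⊔ P := by rw [hsup]; exact Subgroup.mem_top x
  rw [← SetLike.mem_coe, Subgroup.normal_mul] at h
  obtain ⟨n, hn, u, hu, h⟩ := Set.mem_mul.mp h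
  exact ⟨n, hn, u, hu, h⟩

theorem comm_mem_of_sup {P : Subgroup G} (hsup : N ⊔ P = ⊤)
    (hPab : ∀ x ∈ P, ∀ y ∈ P, x * y = y * x) (x y : G) : x * y * x⁻¹ * y⁻¹ ∈ N := by
  obtain ⟨n, hn, u, hu, rfl⟩ := exists_mk_eq_of_sup N hsup x
  obtain ⟨m, hm, v, hv, rfl⟩ := exists_mk_eq_of_sup N hsup y
  rw [← QuotientGroup.eq_one_iff]
  have hn' : (n : G ⧸ N) = 1 := (QuotientGroup.eq_one_iff n).mpr hn
  have hm' : (m : G ⧸ N) = 1 := (QuotientGroup.eq_one_iff m).mpr hm
  have huv : (u : G ⧸ N) * (v : G ⧸ N) = (v : G ⧸ N) * (u : G ⧸ N) := by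
    rw [← QuotientGroup.mk_mul, ← QuotientGroup.mk_mul, hPab u hu v hv]
  simp only [QuotientGroup.mk_mul, QuotientGroup.mk_inv, hn', hm', one_mul]
  rw [huv]
  group

/-- the characters of `B` restrict irreducibly -/
theorem restrict_irr_of_abelian_defect [Fact p.Prime] (hM : IsPModular p M) {k : ℕ}
    (hNi : N.index = p ^ k) {B : Set (IrrCharacter G)} (hB : IsPBlock M B) {P : Subgroup G}
    (hPD : IsDefectGroup p M B P) (hPab : ∀ x ∈ P, ∀ y ∈ P, x * y = y * x)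
    (hsup : N ⊔ P = ⊤) {χ : IrrCharacter G} (hχ : χ ∈ B) :
    IsIrrCharacter N (fun n : N => (χ : G → ℂ) n) := by
  apply restrict_irr_of_free N (comm_mem_of_sup N hsup hPab)
  intro β hβ h1 hk hmul
  obtain ⟨lam, rfl⟩ := exists_hom_of_degree_one hβ h1
  funext g
  obtain ⟨n, hn, u, hu, rfl⟩ := exists_mk_eq_of_sup N hsup g
  obtain ⟨c, hc, hne⟩ := exists_reg_ne_zero_of_abelian hM hB hPD hPab hχ hu
  have h2 := congrFun hmul (u * c)
  rw [Pi.mul_apply] at h2
  have h3 : ((lam (u * c) : ℂˣ) : ℂ) = 1 := by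
    have : ((lam (u * c) : ℂˣ) : ℂ) * (χ : G → ℂ) (u * c) = 1 * (χ : G → ℂ) (u * c) := by
      rw [one_mul]; exact h2
    exact mul_right_cancel₀ hne this
  have h4 : ((lam c : ℂˣ) : ℂ) = 1 := hk c (mem_of_reg_of_index N hM.1 hNi hc)
  have h5 : ((lam n : ℂˣ) : ℂ) = 1 := hk n hn
  rw [map_mul, Units.val_mul, h4, mul_one] at h3
  show ((lam (n * u) : ℂˣ) : ℂ) = 1
  rw [map_mul, Units.val_mul, h5, h3, one_mul]

end

end Cfsg.Agent.Lib.Helper6
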