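import Mathlib
import Cfsg.Prelude.Def_Blocks
import Cfsg.Agent.Lib.Helper6.PIndexAb
import Cfsg.Agent.Lib.Helper6.CentralProd5

/-!
# Blocks with abelian defect groups and normal subgroups of `p`-power index, II
-/

set_option autoImplicit false
set_option linter.unusedSectionVars false

namespace Cfsg.Agent.Lib.Helper6

open Cfsg Cfsg.Agent.Lib.Helper2 Cfsg.Agent.Lib.Helper24 Cfsg.Agent.Lib.Helper23.Contrib
open Cfsg.Agent.Lib.Helper13
open scoped ComplexConjugate Classical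

attribute [local instance] irrFintype

theorem card_eq_mul_of_fibres {A B : Type*} [Finite A] [Finite B] (F : A → B) (m : ℕ)
    (h : ∀ b, Nat.card {a // F a = b} = m) : Nat.card A = m * Nat.card B := by
  cases nonempty_fintype B
  rw [Nat.card_congr (Equiv.sigmaFiberEquiv F).symm, Nat.card_sigma,
    Finset.sum_congr rfl (fun b _ => h b), Finset.sum_const, Finset.card_univ,
    Nat.card_eq_fintype_card, smul_eq_mul, mul_comm]

section

variable {G : Type*} [Group G] [Fintype G] {p : ℕ} {M : Ideal AlgInt}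
variable (N : Subgroup G) [hN : N.Normal]

/-- number of extensions of an extendible character, abelian quotient -/
theorem card_extensions (hab : ∀ x y : G, x * y * x⁻¹ * y⁻¹ ∈ N) {χ₀ : G → ℂ}
    (hχ₀ : IsIrrCharacter G χ₀) (hχN : IsIrrCharacter N (fun n : N => χ₀ n)) :
    Nat.card {χ : IrrCharacter G // ∀ n : N, (χ : G → ℂ) n = χ₀ n} = N.index := by
  have hg := gallagher N hχ₀ hχN
  rw [← card_irr_ker N hab]
  symm
  have e1 := Set.BijOn.equiv _ hg
  have e0 : {β : IrrCharacter G // ∀ n ∈ N, (β : G → ℂ) n = (β : G → ℂ) 1} ≃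
      {β : G → ℂ // IsIrrCharacter G β ∧ ∀ n ∈ N, β n = β 1} :=
    Equiv.subtypeSubtypeEquivSubtypeInter (fun β : G → ℂ => IsIrrCharacter G β)
      (fun β => ∀ n ∈ N, β n = β 1)
  have e2 : {χ : IrrCharacter G // ∀ n : N, (χ : G → ℂ) n = χ₀ n} ≃
      {ψ : G → ℂ // IsIrrCharacter G ψ ∧ ∀ n : N, ψ n = χ₀ n} :=
    Equiv.subtypeSubtypeEquivSubtypeInter (fun β : G → ℂ => IsIrrCharacter G β)
      (fun ψ => ∀ n : N, ψ n = χ₀ n)
  have e3 : {ψ : G → ℂ // IsIrrCharacter G ψ ∧ ∀ n : N, ψ n = χ₀ n} ≃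
      {ψ : G → ℂ // IsIrrCharacter G ψ ∧
        classInner (fun n : N => ψ n) (fun n : N => χ₀ n) ≠ 0} := by
    apply Equiv.subtypeEquivRight
    intro ψ
    constructor
    · rintro ⟨h1, h2⟩
      refine ⟨h1, ?_⟩
      have : (fun n : N => ψ n) = fun n : N => χ₀ n := funext h2
      rw [this, classInner_irr hχN hχN, if_pos rfl]
      exact one_ne_zero
    · rintro ⟨h1, h2⟩
      refine ⟨h1, ?_⟩
      obtain ⟨β, ⟨hβ, hk⟩, rfl⟩ := hg.surjOn (show ψ ∈ _ from ⟨h1, h2⟩)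
      intro n
      have h3 := degree_one_of_abelian_quotient N hab hβ hk
      show β n * χ₀ n = χ₀ n
      rw [hk n n.2, h3, one_mul]
  exact Nat.card_congr (e0.trans (e1.trans (e3.symm.trans e2.symm)))

theorem pRegularPart_restrict (f : G → ℂ) :
    (fun n : N => pRegularPart p f n) = pRegularPart p (fun n : N => f n) := by
  funext n
  by_cases hn : p ∣ orderOf n
  · rw [pRegularPart_of_sing _ hn, pRegularPart_of_sing _ (by rwa [Subgroup.orderOf_coe])]
  · rw [pRegularPart_of_reg _ hn, pRegularPart_of_reg _ (by rwa [Subgroup.orderOf_coe])]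

theorem blockRank_eq_of_restrict {k : ℕ} (hp : p.Prime) (hNi : N.index = p ^ k)
    {B : Set (IrrCharacter G)} {b : Set (IrrCharacter N)}
    (h1 : ∀ χ ∈ B, ∃ θ ∈ b, ∀ n : N, (χ : G → ℂ) n = (θ : N → ℂ) n)
    (h2 : ∀ θ ∈ b, ∃ χ ∈ B, ∀ n : N, (χ : G → ℂ) n = (θ : N → ℂ) n) :
    blockRank p B = blockRank p b := by
  set R : (G → ℂ) →ₗ[ℂ] (N → ℂ) := LinearMap.funLeft ℂ ℂ (fun n : N => (n : G)) with hR
  have hRa : ∀ f : G → ℂ, R f = fun n : N => f n := fun f => rfl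
  set S : Set (G → ℂ) := (fun χ : IrrCharacter G => pRegularPart p (χ : G → ℂ)) '' B with hS
  have e1 : Submodule.span ℂ ((fun θ : IrrCharacter N => pRegularPart p (θ : N → ℂ)) '' b) =
      (Submodule.span ℂ S).map R := by
    rw [Submodule.map_span]
    congr 1
    ext f
    constructor
    · rintro ⟨θ, hθ, rfl⟩
      obtain ⟨χ, hχ, hres⟩ := h2 θ hθ
      refine ⟨_, ⟨χ, hχ, rfl⟩, ?_⟩
      rw [hRa, pRegularPart_restrict]
      congr 1
      funext n
      exact hres n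
    · rintro ⟨_, ⟨χ, hχ, rfl⟩, rfl⟩
      obtain ⟨θ, hθ, hres⟩ := h1 χ hχ
      refine ⟨θ, hθ, ?_⟩
      rw [hRa, pRegularPart_restrict]
      show pRegularPart p (θ : N → ℂ) = _
      congr 1
      funext n
      exact (hres n).symm
  have h3 : ∀ f ∈ Submodule.span ℂ S, pRegularPart p f = f := by
    have h4 : Submodule.span ℂ S ≤ LinearMap.eqLocus (regL G p) LinearMap.id := by
      rw [Submodule.span_le]
      rintro _ ⟨η, -, rfl⟩
      exact pRegularPart_idem p _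
    intro f hf
    exact h4 hf
  have hinj : Function.Injective (R.domRestrict (Submodule.span ℂ S)) := by
    rw [← LinearMap.ker_eq_bot, LinearMap.ker_eq_bot']
    intro f hf
    apply Subtype.ext
    funext x
    have hf' : R (f : G → ℂ) = 0 := hf
    rw [← h3 f f.2]
    by_cases hx : p ∣ orderOf x
    · rw [pRegularPart_of_sing _ hx]; rfl
    · rw [pRegularPart_of_reg _ hx]
      exact congrFun hf' ⟨x, mem_of_reg_of_index N hp hNi hx⟩
  rw [blockRank, blockRank, e1, ← LinearMap.range_domRestrict]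
  exact (LinearMap.finrank_range_of_inj hinj).symm

/-- the main theorem on stable blocks of normal subgroups of `p`-power index, abelian defect -/
theorem pindex_abelian_main [Fact p.Prime] (hM : IsPModular p M) {k : ℕ} (hNi : N.index = p ^ k)
    {b : Set (IrrCharacter N)} (hb : IsPBlock M b) (hstab : ∀ g : G, StabilizesBlock N b g)
    {B : Set (IrrCharacter G)} (hB : IsPBlock M B)
    (hcov : ∃ χ ∈ B, ∃ θ ∈ b, classInner (fun n : N => (χ : G → ℂ) n) (θ : N → ℂ) ≠ 0)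
    {P : Subgroup G} (hPD : IsDefectGroup p M B P) (hPab : ∀ x ∈ P, ∀ y ∈ P, x * y = y * x) :
    N ⊔ P = ⊤ ∧ IsDefectGroup p M b ((P ⊓ N).subgroupOf N) ∧
    (∀ χ ∈ B, ∃ θ ∈ b, ∀ n : N, (χ : G → ℂ) n = (θ : N → ℂ) n) ∧
    (∀ θ ∈ b, Nat.card {χ : IrrCharacter G // χ ∈ B ∧ ∀ n : N, (χ : G → ℂ) n = (θ : N → ℂ) n} =
      N.index) ∧ Nat.card B = N.index * Nat.card b ∧ blockRank p B = blockRank p b := by
  have := IsPModular.isPrime hM
  obtain ⟨B', hB', hBc'⟩ := exists_block_of_stable_pindex N hM hNi hb hstab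
  have hBB : B' = B := by
    obtain ⟨χ, hχ, θ, hθ, hne⟩ := hcov
    exact IsPBlock.eq_of_mem_of_mem hB' hB ((mem_iff_of_over N hBc' hne).mpr hθ) hχ
  have hBc : ∀ g, blockCoeff B g = subgroupBlockCoeff N b g := hBB ▸ hBc'
  obtain ⟨hsup, hdef⟩ := stable_pindex_defect N hM hNi hb hstab hBc hPD
  have hab := comm_mem_of_sup N hsup hPab
  have hirr : ∀ χ : IrrCharacter G, χ ∈ B → IsIrrCharacter N (fun n : N => (χ : G → ℂ) n) :=
    fun χ hχ => restrict_irr_of_abelian_defect N hM hNi hB hPD hPab hsup hχ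
  have hmem : ∀ (χ : IrrCharacter G) (θ : IrrCharacter N),
      (∀ n : N, (χ : G → ℂ) n = (θ : N → ℂ) n) → (χ ∈ B ↔ θ ∈ b) := by
    intro χ θ h
    apply mem_iff_of_over N hBc
    have : (χ : G → ℂ) ∘ N.subtype = (θ : N → ℂ) := funext h
    rw [this, classInner_irr θ.2 θ.2, if_pos rfl]
    exact one_ne_zero
  have h3 : ∀ χ ∈ B, ∃ θ ∈ b, ∀ n : N, (χ : G → ℂ) n = (θ : N → ℂ) n := by
    intro χ hχ
    refine ⟨⟨_, hirr χ hχ⟩, ?_, fun n => rfl⟩
    exact (hmem χ ⟨_, hirr χ hχ⟩ (fun n => rfl)).mp hχ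
  have h3' : ∀ θ ∈ b, ∃ χ ∈ B, ∀ n : N, (χ : G → ℂ) n = (θ : N → ℂ) n := by
    intro θ hθ
    obtain ⟨χ, hχ⟩ := exists_irr_over N.subtype N.subtype_injective θ
    have hχB : χ ∈ B := (mem_iff_of_over N hBc hχ).mpr hθ
    refine ⟨χ, hχB, ?_⟩
    have h5 : (χ : G → ℂ) ∘ N.subtype = (θ : N → ℂ) := by
      by_contra hne
      apply hχ
      have h6 := classInner_irr (hirr χ hχB) θ.2
      rw [if_neg (show ¬ (fun n : N => (χ : G → ℂ) n) = (θ : N → ℂ) from hne)] at h6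
      exact h6
    exact congrFun h5
  have h4 : ∀ θ ∈ b, Nat.card {χ : IrrCharacter G //
      χ ∈ B ∧ ∀ n : N, (χ : G → ℂ) n = (θ : N → ℂ) n} = N.index := by
    intro θ hθ
    obtain ⟨χ₀, hχ₀, hres⟩ := h3' θ hθ
    rw [← card_extensions N hab χ₀.2 (hirr χ₀ hχ₀)]
    apply Nat.card_congr
    apply Equiv.subtypeEquivRight
    intro χ
    constructor
    · rintro ⟨-, h⟩ n
      rw [h, hres]
    · intro h
      have h' : ∀ n : N, (χ : G → ℂ) n = (θ : N → ℂ) n := fun n => by rw [h, hres]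
      exact ⟨(hmem χ θ h').mpr hθ, h'⟩
  refine ⟨hsup, hdef, h3, h4, ?_, blockRank_eq_of_restrict N hM.1 hNi h3 h3'⟩
  let F : B → b := fun χ => ⟨⟨_, hirr χ.1 χ.2⟩, (hmem χ.1 ⟨_, hirr χ.1 χ.2⟩ (fun n => rfl)).mp χ.2⟩
  apply card_eq_mul_of_fibres F
  intro θ
  rw [← h4 θ.1 θ.2]
  apply Nat.card_congr
  refine (Equiv.subtypeSubtypeEquivSubtypeInter (fun χ : IrrCharacter G => χ ∈ B)
    (fun χ => ∀ n : N, (χ : G → ℂ) n = (θ.1 : N → ℂ) n)).symm.trans ?_ |>.symm
  apply Equiv.subtypeEquivRight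
  intro χ
  constructor
  · intro h
    apply Subtype.ext
    apply Subtype.ext
    funext n
    exact h n
  · intro h n
    have := congrArg (fun t : b => (t.1 : N → ℂ) n) h
    exact this

end

end Cfsg.Agent.Lib.Helper6
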