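import Mathlib
import Cfsg.Prelude.Def_Blocks
import Cfsg.Agent.Lib.Helper6.PIndexAb2
import Cfsg.Agent.Lib.Helper13.Clifford4

/-!
# Invariant characters of height zero in stable blocks of normal subgroups of `p`-power index
-/

set_option autoImplicit false
set_option linter.unusedSectionVars false

namespace Cfsg.Agent.Lib.Helper6

open Cfsg Cfsg.Agent.Lib.Helper2 Cfsg.Agent.Lib.Helper24 Cfsg.Agent.Lib.Helper23.Contrib
open Cfsg.Agent.Lib.Helper13 Cfsg.Agent.Lib.Helper23.BrauerFeit
open scoped ComplexConjugate Classical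

attribute [local instance] irrFintype

section

variable {G : Type*} [Group G] [Fintype G] {p : ℕ} {M : Ideal AlgInt}
variable (N : Subgroup G) [hN : N.Normal]

/-- Clifford: the degree formula -/
theorem clifford_degree {χ : G → ℂ} (hχ : IsIrrCharacter G χ) {θ : N → ℂ}
    (hθ : IsIrrCharacter N θ) (hne : classInner (fun n : N => χ n) θ ≠ 0) :
    ∃ e : ℕ, charDegree χ = e * ((inertia N θ).index * charDegree θ) := by
  have h := Cfsg.Agent.S0174.result N hN χ hχ θ hθ hne
  obtain ⟨e, he⟩ := IsCharacter.classInner_nat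
    (IsCharacter.restrict N (IsIrrCharacter.isCharacter hχ)) (IsIrrCharacter.isCharacter hθ)
  refine ⟨e, ?_⟩
  rw [stmtConjSet_eq, he] at h
  have hfin : (Set.range (fun x : G => conjFun N x θ)).Finite := Set.finite_range _
  rw [finsum_mem_eq_finite_toFinset_sum _ hfin] at h
  have h1 := congrFun h 1
  rw [Pi.smul_apply, Finset.sum_apply, Finset.sum_congr rfl (g := fun _ => θ 1), Finset.sum_const,
    ← Set.ncard_eq_toFinset_card _ hfin] at h1
  · have hcard : (Set.range (fun x : G => conjFun N x θ)).ncard * Nat.card (inertia N θ) =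
        Nat.card G := by
      have := card_eq_mul_of_fibres
        (fun x : G => (⟨conjFun N x θ, x, rfl⟩ : Set.range (fun x : G => conjFun N x θ)))
        (Nat.card (inertia N θ)) (by
          rintro ⟨_, y, rfl⟩
          rw [← card_conjFun_eq N θ (inertia N θ) (mem_inertia N θ) y]
          apply Nat.card_congr
          apply Equiv.subtypeEquivRight
          intro x
          exact Subtype.ext_iff)
      rw [this, mul_comm]
      rfl
    have hidx : (Set.range (fun x : G => conjFun N x θ)).ncard = (inertia N θ).index := by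
      have h2 := Subgroup.card_mul_index (inertia N θ)
      rw [← hcard, mul_comm] at h2
      exact (Nat.eq_of_mul_eq_mul_right Nat.card_pos h2).symm
    rw [hidx] at h1
    have h3 : ((charDegree χ : ℕ) : ℂ) = ((e * ((inertia N θ).index * charDegree θ) : ℕ) : ℂ) := by
      push_cast
      rw [charDegree_cast (IsIrrCharacter.isCharacter hχ),
        charDegree_cast (IsIrrCharacter.isCharacter hθ)]
      have h4 : χ 1 = χ ((1 : N) : G) := rfl
      rw [h4, h1]
      simp
    exact_mod_cast h3
  · intro ψ hψ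
    rw [Set.Finite.mem_toFinset] at hψ
    obtain ⟨x, rfl⟩ := hψ
    show conjFun N x θ 1 = θ 1
    rw [conjFun_apply]
    congr 1
    apply Subtype.ext
    simp

/-- `N` normal of `p`-power index, `c` a `G`-stable block of `N`: `c` contains a `G`-invariant
character of height zero. -/
theorem exists_invariant_height_zero [Fact p.Prime] (hM : IsPModular p M) {k : ℕ}
    (hNi : N.index = p ^ k) {c : Set (IrrCharacter N)} (hc : IsPBlock M c)
    (hst : ∀ x : G, StabilizesBlock N c x) :
    ∃ θ ∈ c, blockHeight p c (θ : N → ℂ) = 0 ∧ ∀ g : G, conjFun N g (θ : N → ℂ) = θ := by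
  have hp : p.Prime := hM.1
  have := IsPModular.isPrime hM
  obtain ⟨B, hB, hBc⟩ := exists_block_of_stable_pindex N hM hNi hc hst
  obtain ⟨D, hD⟩ := exists_isDefectGroup hM hB
  obtain ⟨hsup, hdef⟩ := stable_pindex_defect N hM hNi hc hst hBc hD
  have h1 := IsDefectGroup.card_eq hM hB hD
  have h2 := IsDefectGroup.card_eq hM hc hdef
  rw [card_subgroupOf_inf] at h2
  have h3 := card_inf_mul_relIndex N D
  have h4 : N.relIndex D = p ^ k := by
    rw [← Subgroup.relIndex_sup_left, hsup, Subgroup.relIndex_top_right, hNi]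
  rw [h1, h2, h4, ← pow_add] at h3
  have hdd : blockDefect p c + k = blockDefect p B := Nat.pow_right_injective hp.two_le h3
  have hGN : (Nat.card G).factorization p = (Nat.card N).factorization p + k := by
    rw [← Subgroup.card_mul_index N, hNi, Nat.factorization_mul Nat.card_pos.ne'
      (pow_pos hp.pos k).ne', Finsupp.add_apply, Nat.factorization_pow, Finsupp.smul_apply,
      hp.factorization_self, smul_eq_mul, mul_one]
  obtain ⟨χ, hχ, hχ0⟩ := exists_height_zero (p := p) (IsPBlock.nonempty hB)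
  have h5 := factorization_degree_add (p := p) hχ
  obtain ⟨θ, hθ⟩ := Cfsg.Agent.Lib.Helper6.exists_constituent N χ.2
  have hθc : θ ∈ c := (mem_iff_of_over N hBc hθ).mp hχ
  have h6 := factorization_degree_add (p := p) hθc
  obtain ⟨e, he⟩ := clifford_degree N χ.2 θ.2 hθ
  have hpos : 0 < charDegree (χ : G → ℂ) := charDegree_pos χ.2
  have he0 : e ≠ 0 := by
    rintro rfl
    rw [zero_mul] at he
    omega
  have hi0 : (inertia N (θ : N → ℂ)).index ≠ 0 := Subgroup.index_ne_zero_of_finite
  have hθ0 : charDegree (θ : N → ℂ) ≠ 0 := (charDegree_pos θ.2).ne'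
  have h7 : (charDegree (χ : G → ℂ)).factorization p = e.factorization p +
      ((inertia N (θ : N → ℂ)).index.factorization p +
        (charDegree (θ : N → ℂ)).factorization p) := by
    rw [he, Nat.factorization_mul he0 (mul_ne_zero hi0 hθ0), Nat.factorization_mul hi0 hθ0]
    rfl
  have hle : N ≤ inertia N (θ : N → ℂ) := le_inertia N θ.2 _ (mem_inertia N _)
  have hdvd : (inertia N (θ : N → ℂ)).index ∣ p ^ k := hNi ▸ Subgroup.index_dvd_of_le hle
  obtain ⟨i, -, hi⟩ := (Nat.dvd_prime_pow hp).mp hdvd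
  have h8 : (inertia N (θ : N → ℂ)).index.factorization p = i := by
    rw [hi, Nat.factorization_pow, Finsupp.smul_apply, hp.factorization_self, smul_eq_mul, mul_one]
  refine ⟨θ, hθc, by omega, ?_⟩
  have hi0' : i = 0 := by omega
  rw [hi0', pow_zero, Subgroup.index_eq_one] at hi
  intro g
  rw [← mem_inertia, hi]
  exact Subgroup.mem_top g

theorem blockHeight_blockMap {H H' : Type*} [Group H] [Group H'] [Fintype H] [Fintype H']
    (α : H' ≃* H) (b : Set (IrrCharacter H)) (θ : IrrCharacter H) :
    blockHeight p (blockMap α b) (irrMap α θ : H' → ℂ) = blockHeight p b (θ : H → ℂ) := by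
  unfold blockHeight
  rw [irrMap_coe, charDegree_comp]
  congr 2
  unfold blockMap
  rw [Set.image_image]
  apply Set.image_congr
  intro ψ _
  rw [irrMap_coe, charDegree_comp]

/-- a block of a normal subgroup contains a character of height zero whose stabilizer contains a
Sylow `p`-subgroup of the stabilizer of the block -/
theorem exists_height_zero_sylow_stable [Fact p.Prime] (hM : IsPModular p M)
    {b : Set (IrrCharacter N)} (hb : IsPBlock M b) {T : Subgroup G}
    (hT : ∀ g : G, g ∈ T ↔ ∀ θ ∈ b, ∀ θ' : IrrCharacter N,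
      (∀ h h' : N, (h' : G) = g * h * g⁻¹ → (θ' : N → ℂ) h' = (θ : N → ℂ) h) → θ' ∈ b) :
    ∃ θ ∈ b, blockHeight p b (θ : N → ℂ) = 0 ∧
      ¬ p ∣ (T ⊓ inertia N (θ : N → ℂ)).relIndex T := by
  have hp : p.Prime := hM.1
  have hNT : N ≤ T := by
    intro g hg
    rw [hT]
    intro θ hθ θ' h
    have : θ' = θ := by
      apply Subtype.ext
      funext x
      have h1 := h ⟨g⁻¹ * x * g, by simpa using hN.conj_mem x x.2 g⁻¹⟩ x (by simp [mul_assoc])
      rw [h1]
      have h2 := irr_isClassFunction θ.2 x (⟨g, hg⟩ : N)⁻¹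
      rw [← h2]
      refine congrArg _ (Subtype.ext ?_)
      simp
    rw [this]
    exact hθ
  obtain ⟨P, hP⟩ := exists_isSylIn p T
  obtain ⟨L, hL⟩ : ∃ L : Subgroup G, L = N ⊔ P := ⟨_, rfl⟩
  have hNL : N ≤ L := hL ▸ le_sup_left
  have hPL : P ≤ L := hL ▸ le_sup_right
  have hLT : L ≤ T := hL ▸ sup_le hNT hP.le
  have hidx : ∃ k : ℕ, (N.subgroupOf L).index = p ^ k := by
    have h1 : (N.subgroupOf L).index = N.relIndex P := by
      show N.relIndex L = _
      rw [hL, Subgroup.relIndex_sup_left]
    obtain ⟨n, hn⟩ := IsPGroup.iff_card.mp hP.isPGroup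
    have h2 : N.relIndex P ∣ p ^ n := hn ▸ Subgroup.relIndex_dvd_card N P
    obtain ⟨k, -, hk⟩ := (Nat.dvd_prime_pow hp).mp h2
    exact ⟨k, by rw [h1, hk]⟩
  obtain ⟨k, hk⟩ := hidx
  let α : N.subgroupOf L ≃* N := Subgroup.subgroupOfEquivOfLe hNL
  have hα : ∀ n : N.subgroupOf L, ((α n : N) : G) = ((n : L) : G) := fun n => rfl
  have hc : IsPBlock M (blockMap α b) := isPBlock_blockMap α hb
  have hst : ∀ x : L, StabilizesBlock (N.subgroupOf L) (blockMap α b) x := by
    intro x
    refine ⟨by rw [Subgroup.normalizer_eq_top]; exact Subgroup.mem_top x, ?_⟩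
    rintro _ ⟨θ, hθ, rfl⟩
    have hθ' : irrMap (cjN N (x : G)⁻¹) θ ∈ b := by
      apply (hT x).mp (hLT x.2) θ hθ
      intro h h' hh
      rw [irrMap_apply]
      refine congrArg _ (Subtype.ext ?_)
      rw [cjN_coe, hh]
      group
    refine ⟨irrMap α (irrMap (cjN N (x : G)⁻¹) θ), (mem_blockMap α b _).mpr hθ', ?_⟩
    intro n n' hn
    rw [irrMap_apply, irrMap_apply, irrMap_apply]
    refine congrArg _ (Subtype.ext ?_)
    rw [cjN_coe, hα, hα, hn]
    push_cast
    group
  obtain ⟨_, ⟨θ, hθ, rfl⟩, h0, hinv⟩ := exists_invariant_height_zero (N.subgroupOf L) hM hk hc hst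
  refine ⟨θ, hθ, by rwa [blockHeight_blockMap] at h0, ?_⟩
  have hPS : P ≤ T ⊓ inertia N (θ : N → ℂ) := by
    intro y hy
    refine ⟨hP.le hy, ?_⟩
    show conjFun N y (θ : N → ℂ) = θ
    funext h
    have h1 := congrFun (hinv ⟨y, hPL hy⟩) (α.symm h)
    rw [conjFun_apply, irrMap_apply, irrMap_apply, MulEquiv.apply_symm_apply] at h1
    rw [conjFun_apply, ← h1]
    refine congrArg _ (Subtype.ext ?_)
    rw [hα]
    have h2 : (((α.symm h : N.subgroupOf L) : L) : G) = (h : G) := by
      rw [← hα, MulEquiv.apply_symm_apply]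
    push_cast
    rw [h2]
  have h1 : (T ⊓ inertia N (θ : N → ℂ)).relIndex T ∣ P.relIndex T :=
    Subgroup.relIndex_dvd_of_le_left T hPS
  intro h2
  obtain ⟨P₀, rfl⟩ := hP
  have h3 : ((P₀ : Subgroup T).map T.subtype).relIndex T = (P₀ : Subgroup T).index := by
    unfold Subgroup.relIndex
    congr 1
    exact Subgroup.comap_map_eq_self_of_injective T.subtype_injective _
  rw [h3] at h1
  exact P₀.not_dvd_index (h2.trans h1)

end

end Cfsg.Agent.Lib.Helper6
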