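import Mathlib
import Cfsg.Prelude.Def_Blocks
import Cfsg.Agent.Lib.Helper6.LocalRing
import Cfsg.Agent.Lib.Helper23.Separated

/-!
# Ranks of integer matrices modulo `p` via congruences in the local ring
-/

set_option autoImplicit false
set_option linter.unusedSectionVars false

namespace Cfsg.Agent.Lib.Helper6

open Cfsg Cfsg.Agent.Lib.Helper23.Separated

section field

variable {K : Type*} [Field K]

/-- choose linearly independent columns spanning the column space -/
theorem exists_cols_linearIndependent {m n : Type*} [Fintype m] [Fintype n] (A : Matrix m n K) :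
    ∃ c : Fin A.rank → n, LinearIndependent K (fun k => A.col (c k)) := by
  classical
  have h := Submodule.exists_fun_fin_finrank_span_eq K (Set.range A.col)
  rw [← Matrix.rank_eq_finrank_span_cols] at h
  obtain ⟨f, hf, -, hli⟩ := h
  choose c hc using hf
  refine ⟨c, ?_⟩
  have : (fun k => A.col (c k)) = f := funext hc
  rw [this]
  exact hli

/-- a matrix of rank `ρ` has a nonvanishing `ρ × ρ` minor -/
theorem exists_submatrix_det_ne_zero {m n : Type*} [Fintype m] [Fintype n] (A : Matrix m n K) :
    ∃ (g : Fin A.rank → m) (f : Fin A.rank → n), (A.submatrix g f).det ≠ 0 := by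
  classical
  obtain ⟨c, hc⟩ := exists_cols_linearIndependent A
  set A1 : Matrix (Fin A.rank) m K := (A.submatrix id c).transpose with hA1
  have hrow : LinearIndependent K A1.row := by
    have : A1.row = fun k => A.col (c k) := by
      funext k
      ext i
      simp [hA1, Matrix.row, Matrix.col]
    rw [this]
    exact hc
  have hr1 : A1.rank = A.rank := by
    rw [hrow.rank_matrix, Fintype.card_fin]
  obtain ⟨g', hg'⟩ := exists_cols_linearIndependent A1
  let e : Fin A.rank → Fin A1.rank := Fin.cast hr1.symm
  have he : Function.Injective e := Fin.cast_injective _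
  have hg2 : LinearIndependent K (fun k : Fin A.rank => A1.col (g' (e k))) :=
    hg'.comp e he
  refine ⟨fun k => g' (e k), c, ?_⟩
  have h3 : LinearIndependent K (A.submatrix (fun k => g' (e k)) c).row := by
    have : (A.submatrix (fun k => g' (e k)) c).row = fun k : Fin A.rank => A1.col (g' (e k)) := by
      funext k
      ext i
      simp [hA1, Matrix.row, Matrix.col]
    rw [this]
    exact hg2
  have h4 := Matrix.linearIndependent_rows_iff_isUnit.mp h3
  exact ((Matrix.isUnit_iff_isUnit_det _).mp h4).ne_zero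

theorem det_mul_eq_zero_of_card_lt {n b : Type*} [Fintype n] [DecidableEq n] [Fintype b]
    (X : Matrix n b K) (Y : Matrix b n K) (h : Fintype.card b < Fintype.card n) :
    (X * Y).det = 0 := by
  by_contra hne
  have h1 := Matrix.rank_of_det_ne_zero hne
  have h2 := Matrix.rank_mul_le_left X Y
  have h3 := Matrix.rank_le_card_width X
  omega

end field

section loc

variable {M : Ideal AlgInt} {p : ℕ}

theorem memLocalIdeal_det_natCast_iff [Fact p.Prime] (hM : IsPModular p M) {n : Type*} [Fintype n]
    [DecidableEq n] (V : Matrix n n ℕ) :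
    MemLocalIdeal M (V.map (Nat.cast : ℕ → ℂ)).det ↔ (V.map (Nat.cast : ℕ → ZMod p)).det = 0 := by
  set Vz : Matrix n n ℤ := V.map (Nat.cast : ℕ → ℤ) with hVz
  have h1 : V.map (Nat.cast : ℕ → ℂ) = (Int.castRingHom ℂ).mapMatrix Vz := by
    ext i j
    simp [hVz]
  have h2 : V.map (Nat.cast : ℕ → ZMod p) = (Int.castRingHom (ZMod p)).mapMatrix Vz := by
    ext i j
    simp [hVz]
  rw [h1, h2, ← RingHom.map_det, ← RingHom.map_det]
  simp only [eq_intCast]
  rw [memLocalIdeal_intCast_iff hM, ZMod.intCast_zmod_eq_zero_iff_dvd]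

variable [M.IsPrime]

theorem mul_memLocalRing {l m n : Type*} [Fintype m] {A : Matrix l m ℂ} {B : Matrix m n ℂ}
    (hA : ∀ i j, MemLocalRing M (A i j)) (hB : ∀ i j, MemLocalRing M (B i j)) :
    ∀ i j, MemLocalRing M ((A * B) i j) := by
  intro i j
  rw [Matrix.mul_apply]
  exact MemLocalRing.sum _ fun k _ => MemLocalRing.mul (hA i k) (hB k j)

theorem mul_memLocalIdeal_left {l m n : Type*} [Fintype m] {A : Matrix l m ℂ} {B : Matrix m n ℂ}
    (hA : ∀ i j, MemLocalRing M (A i j)) (hB : ∀ i j, MemLocalIdeal M (B i j)) :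
    ∀ i j, MemLocalIdeal M ((A * B) i j) := by
  intro i j
  rw [Matrix.mul_apply]
  exact MemLocalIdeal.sum _ fun k _ => MemLocalIdeal.mul_left (hA i k) (hB k j)

theorem mul_memLocalIdeal_right {l m n : Type*} [Fintype m] {A : Matrix l m ℂ} {B : Matrix m n ℂ}
    (hA : ∀ i j, MemLocalIdeal M (A i j)) (hB : ∀ i j, MemLocalRing M (B i j)) :
    ∀ i j, MemLocalIdeal M ((A * B) i j) := by
  intro i j
  rw [Matrix.mul_apply]
  exact MemLocalIdeal.sum _ fun k _ => MemLocalIdeal.mul_right (hA i k) (hB k j)

/-- a matrix which is diagonal with unit diagonal modulo the ideal has unit determinant -/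
theorem not_memLocalIdeal_det_of_diag {b : Type*} [Fintype b] [DecidableEq b] {T : Matrix b b ℂ}
    (hT : ∀ i j, MemLocalRing M (T i j)) (hd : ∀ i, ¬ MemLocalIdeal M (T i i))
    (ho : ∀ i j, i ≠ j → MemLocalIdeal M (T i j)) : ¬ MemLocalIdeal M T.det := by
  have h1 : ∀ i j, MemLocalRing M ((Matrix.diagonal fun i => T i i) i j) := by
    intro i j
    rw [Matrix.diagonal_apply]
    split_ifs
    · exact hT i i
    · exact memLocalRing_zero
  have h2 := det_congr_mod (M := M) hT h1 (by
    intro i j
    rw [Matrix.diagonal_apply]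
    split_ifs with hij
    · subst hij
      rw [sub_self]
      exact memLocalIdeal_zero
    · rw [sub_zero]
      exact ho i j hij)
  rw [memLocalIdeal_congr h2, Matrix.det_diagonal]
  exact not_memLocalIdeal_prod _ (fun i _ => hT i i) (fun i _ => hd i)

/-- Cauchy-Binet selection: if `det (W * A)` is a unit, some square selection of columns of `W`
has unit determinant. -/
theorem exists_selection_of_det_mul {n m : Type*} [Fintype n] [DecidableEq n] [Fintype m]
    [DecidableEq m] {W : Matrix n m ℂ} {A : Matrix m n ℂ}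
    (hA : ∀ i j, MemLocalRing M (A i j))
    (h : ¬ MemLocalIdeal M (W * A).det) :
    ∃ f : n → m, ¬ MemLocalIdeal M (W.submatrix id f).det := by
  by_contra hcon
  push Not at hcon
  apply h
  rw [det_mul_rect]
  refine MemLocalIdeal.sum _ fun f _ => ?_
  exact MemLocalIdeal.mul_left (MemLocalRing.prod _ fun k _ => hA _ _) (hcon f)

/-- The abstract rank theorem. -/
theorem rank_eq_card_of_congr [Fact p.Prime] (hM : IsPModular p M) {ι b : Type*} [Fintype ι]
    [DecidableEq ι] [Fintype b] [DecidableEq b] (W : Matrix ι ι ℕ)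
    (X : Matrix ι b ℂ) (Y : Matrix b ι ℂ) (A' : Matrix b ι ℂ) (A : Matrix ι b ℂ)
    (hX : ∀ i j, MemLocalRing M (X i j)) (hY : ∀ i j, MemLocalRing M (Y i j))
    (hA' : ∀ i j, MemLocalRing M (A' i j)) (hA : ∀ i j, MemLocalRing M (A i j))
    (hW : ∀ i j, MemLocalIdeal M ((W i j : ℂ) - (X * Y) i j))
    (hd1 : ∀ i, ¬ MemLocalIdeal M ((A' * X) i i))
    (ho1 : ∀ i j, i ≠ j → MemLocalIdeal M ((A' * X) i j))
    (hd2 : ∀ i, ¬ MemLocalIdeal M ((Y * A) i i))
    (ho2 : ∀ i j, i ≠ j → MemLocalIdeal M ((Y * A) i j)) :
    (W.map (Nat.cast : ℕ → ZMod p)).rank = Fintype.card b := by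
  set Wc : Matrix ι ι ℂ := W.map (Nat.cast : ℕ → ℂ) with hWc
  have hWcl : ∀ i j, MemLocalRing M (Wc i j) := fun i j => memLocalRing_natCast _
  apply le_antisymm
  · -- upper bound
    by_contra hcon
    push Not at hcon
    obtain ⟨g, f, hgf⟩ := exists_submatrix_det_ne_zero (W.map (Nat.cast : ℕ → ZMod p))
    have e1 : (W.map (Nat.cast : ℕ → ZMod p)).submatrix g f =
        (W.submatrix g f).map (Nat.cast : ℕ → ZMod p) := rfl
    rw [e1] at hgf
    apply hgf
    rw [← memLocalIdeal_det_natCast_iff hM]
    have h0 : ((X.submatrix g id) * (Y.submatrix id f)).det = 0 :=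
      det_mul_eq_zero_of_card_lt _ _ (by simpa using hcon)
    have h1 := det_congr_mod (M := M) (X := (W.submatrix g f).map (Nat.cast : ℕ → ℂ))
      (Y := (X.submatrix g id) * (Y.submatrix id f))
      (fun i j => memLocalRing_natCast _)
      (mul_memLocalRing (fun i j => hX _ _) (fun i j => hY _ _))
      (by
        intro i j
        have := hW (g i) (f j)
        rw [Matrix.mul_apply] at this
        rw [Matrix.mul_apply]
        exact this)
    rw [h0, sub_zero] at h1
    exact h1
  · -- lower bound
    have hZ : ¬ MemLocalIdeal M ((A' * Wc) * A).det := by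
      have h1 : ¬ MemLocalIdeal M ((A' * X) * (Y * A)).det := by
        rw [Matrix.det_mul]
        exact not_memLocalIdeal_mul (det_memLocalRing (mul_memLocalRing hA' hX))
          (det_memLocalRing (mul_memLocalRing hY hA))
          (not_memLocalIdeal_det_of_diag (mul_memLocalRing hA' hX) hd1 ho1)
          (not_memLocalIdeal_det_of_diag (mul_memLocalRing hY hA) hd2 ho2)
      have h2 := det_congr_mod (M := M) (X := (A' * Wc) * A) (Y := (A' * X) * (Y * A))
        (mul_memLocalRing (mul_memLocalRing hA' hWcl) hA)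
        (mul_memLocalRing (mul_memLocalRing hA' hX) (mul_memLocalRing hY hA))
        (by
          have e : (A' * Wc) * A - (A' * X) * (Y * A) = (A' * (Wc - X * Y)) * A := by
            rw [Matrix.mul_sub, Matrix.sub_mul]
            simp only [Matrix.mul_assoc]
          intro i j
          rw [← Matrix.sub_apply, e]
          exact mul_memLocalIdeal_right (mul_memLocalIdeal_left hA' (fun i j => hW i j)) hA i j)
      rwa [memLocalIdeal_congr h2]
    obtain ⟨f, hf⟩ := exists_selection_of_det_mul hA hZ
    have e2 : ((A' * Wc).submatrix id f).det =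
        ((Wc.submatrix id f).transpose * A'.transpose).det := by
      rw [← Matrix.transpose_mul, Matrix.det_transpose]
      congr 1
    rw [e2] at hf
    obtain ⟨g, hg⟩ := exists_selection_of_det_mul (W := (Wc.submatrix id f).transpose)
      (A := A'.transpose) (fun i j => hA' _ _) hf
    have e3 : ((Wc.submatrix id f).transpose.submatrix id g).det =
        ((W.submatrix g f).map (Nat.cast : ℕ → ℂ)).det := by
      rw [← Matrix.det_transpose]
      congr 1
    rw [e3, memLocalIdeal_det_natCast_iff hM] at hg
    have h5 := Matrix.rank_of_det_ne_zero hg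
    have h6 := Matrix.rank_submatrix_le (W.map (Nat.cast : ℕ → ZMod p)) g f
    have e1 : (W.map (Nat.cast : ℕ → ZMod p)).submatrix g f =
        (W.submatrix g f).map (Nat.cast : ℕ → ZMod p) := rfl
    rw [e1, h5] at h6
    exact h6

end loc

end Cfsg.Agent.Lib.Helper6
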