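import Mathlib
import Cfsg.Prelude.Def_Blocks
import Cfsg.Agent.Lib.Helper6.MinMax
import Cfsg.Agent.Lib.Helper6.CoprimeCent
import Cfsg.Agent.Lib.Helper6.CentralProd2
import Cfsg.Agent.Lib.Helper6.Green
import Cfsg.Agent.Lib.Helper6.RankLocal

/-!
# Robinson's rank formula for the number of blocks with a normal defect group
-/

set_option autoImplicit false
set_option linter.unusedSectionVars false

namespace Cfsg.Agent.Lib.Helper6

open Cfsg Cfsg.Agent.Lib.Helper2 Cfsg.Agent.Lib.Helper23.Separated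
open scoped ComplexConjugate Classical

attribute [local instance] irrFintype

variable {G : Type*} [Group G] [Fintype G] {p : ℕ} {M : Ideal AlgInt}

/-- `x` is `p`-regular and `D` is a Sylow `p`-subgroup of its centralizer -/
def IsGood (p : ℕ) (D : Subgroup G) (x : G) : Prop := ¬ p ∣ orderOf x ∧ IsSylIn p (cen x) D

theorem IsGood.inv {D : Subgroup G} {x : G} (h : IsGood p D x) : IsGood p D x⁻¹ := by
  refine ⟨by rw [orderOf_inv]; exact h.1, ?_⟩
  have : cen x⁻¹ = cen x := Cfsg.Agent.Lib.Helper24.centralizer_inv x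
  rw [this]
  exact h.2

theorem IsGood.conj [Fact p.Prime] {D : Subgroup G} [D.Normal] {x y : G} (h : IsGood p D x)
    (hxy : IsConj x y) : IsGood p D y := by
  obtain ⟨t, rfl⟩ := isConj_iff.mp hxy
  refine ⟨?_, ?_⟩
  · have : orderOf (t * x * t⁻¹) = orderOf x := by
      have := (MulAut.conj t).orderOf_eq x
      simpa using this
    rw [this]
    exact h.1
  · have h1 := isSylIn_cj h.2 t
    rw [cj_of_normal (D := D)] at h1
    rw [cen, centralizer_singleton_cj]
    exact h1

theorem IsGood.factorization_index [Fact p.Prime] {D : Subgroup G} {x : G} (h : IsGood p D x) :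
    (cen x).index.factorization p =
      (Nat.card G).factorization p - (Nat.card D).factorization p := by
  have hp : p.Prime := Fact.out
  have h1 := factorization_card_eq (p := p) x
  have h2 := h.2.card
  rw [h2, hp.factorization_pow]
  simp only [Finsupp.single_eq_same]
  omega

/-- central characters of blocks whose defect group is not `D` vanish on good classes -/
theorem centralChar_memLocalIdeal_of_good [Fact p.Prime] (hM : IsPModular p M) {D : Subgroup G}
    [D.Normal] {x : G} (hx : IsGood p D x) (χ : IrrCharacter G)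
    (hχ : ¬ IsDefectGroup p M (blockOf M (χ : G → ℂ)) D) :
    MemLocalIdeal M (centralChar (χ : G → ℂ) x) := by
  have hp : p.Prime := Fact.out
  have := IsPModular.isPrime hM
  by_contra hcon
  apply hχ
  have hB : IsPBlock M (blockOf M (χ : G → ℂ)) := ⟨χ, rfl⟩
  have h1 := blockDefect_le_of_centralChar_unit hM hB (mem_blockOf_self χ) hcon
  obtain ⟨P, hP⟩ := exists_isDefectGroup hM hB
  have h2 := normal_le_defectGroup hM hB hP (inferInstance : D.Normal) hx.2.isPGroup
  have h3 : D = P := by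
    apply Subgroup.eq_of_le_of_card_ge h2
    rw [IsDefectGroup.card_eq hM hB hP, hx.2.card]
    exact Nat.pow_le_pow_right hp.pos h1
  rw [h3]
  exact hP

/-- products of idempotent coefficients and central characters vanish off the good classes -/
theorem coef_mul_centralChar_memLocalIdeal [Fact p.Prime] (hM : IsPModular p M) {D : Subgroup G}
    [D.Normal] {B : Set (IrrCharacter G)} (hB : IsPBlock M B) (hD : IsDefectGroup p M B D)
    (χ : IrrCharacter G) {g : G} (hg : ¬ IsGood p D g) :
    MemLocalIdeal M (coef (B.indicator 1) g * centralChar (χ : G → ℂ) g) := by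
  have := IsPModular.isPrime hM
  have hp : p.Prime := Fact.out
  have hS := IsPBlock.indicator_mem_ZS hB
  have hDp : IsPGroup p D := by
    obtain ⟨g₀, -, h⟩ := isDefectGroup_iff.mp hD
    exact h.isPGroup
  by_cases hreg : p ∣ orderOf g
  · rw [coef_indicator_eq_zero hM hB hreg, zero_mul]
    exact memLocalIdeal_zero
  by_cases hle : D ≤ cen g
  · refine MemLocalIdeal.mul_right ?_ (centralChar_memLocalRing χ.2 g)
    by_contra hc
    apply hg
    refine ⟨hreg, isSylIn_iff.mpr ⟨hle, ?_⟩⟩
    have h1 := factorization_cen_le_of_coef_unit hM hB hc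
    have h2 := IsDefectGroup.card_eq hM hB hD
    obtain ⟨Q, hQ, hDQ⟩ := exists_isSylIn_ge hDp hle
    have h3 := Subgroup.card_le_of_le hDQ
    rw [hQ.card, h2] at h3
    have h4 := (Nat.pow_le_pow_iff_right hp.one_lt).mp h3
    rw [h2]
    congr 1
    omega
  · exact MemLocalIdeal.mul_left (hS g) (centralChar_memLocalIdeal_of_not_le_cen D hM hDp χ hle)

/-- the orthogonality relation restricted to a transversal of the good classes -/
theorem sum_good_sub_indicator [Fact p.Prime] (hM : IsPModular p M) {D : Subgroup G}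
    [D.Normal] {B : Set (IrrCharacter G)} (hB : IsPBlock M B) (hD : IsDefectGroup p M B D)
    (χ : IrrCharacter G) {ι : Type*} [Fintype ι] (y : ι → G)
    (hinj : ∀ i j, IsConj (y i) (y j) → i = j) (hsurj : ∀ g, IsGood p D g → ∃ i, IsConj (y i) g) :
    MemLocalIdeal M (∑ i, coef (B.indicator 1) (y i) * centralChar (χ : G → ℂ) (y i) -
      B.indicator 1 χ) := by
  have := IsPModular.isPrime hM
  have h1 := om_coef (B.indicator 1) χ
  rw [om_eq_sum_classes (irr_isClassFunction χ.2) (isClassFunction_coef _)] at h1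
  rw [← h1]
  set F : ConjClasses G → ℂ := fun C => coef (B.indicator 1) (Quotient.out C) *
    centralChar (χ : G → ℂ) (Quotient.out C) with hF
  have hFy : ∀ i, coef (B.indicator 1) (y i) * centralChar (χ : G → ℂ) (y i) =
      F (ConjClasses.mk (y i)) := by
    intro i
    have hc : IsConj (y i) (Quotient.out (ConjClasses.mk (y i))) := by
      rw [← ConjClasses.mk_eq_mk_iff_isConj]
      exact (Quotient.out_eq (ConjClasses.mk (y i))).symm
    obtain ⟨t, ht⟩ := isConj_iff.mp hc
    simp only [hF]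
    rw [← ht, centralChar_conj (irr_isClassFunction χ.2), isClassFunction_coef _ (y i) t]
  have hinj' : Function.Injective (fun i => ConjClasses.mk (y i)) := by
    intro i j hij
    exact hinj i j (ConjClasses.mk_eq_mk_iff_isConj.mp hij)
  have h2 : ∑ i, coef (B.indicator 1) (y i) * centralChar (χ : G → ℂ) (y i) =
      ∑ C ∈ Finset.univ.image (fun i => ConjClasses.mk (y i)), F C := by
    rw [Finset.sum_image (fun i _ j _ hij => hinj' hij)]
    exact Finset.sum_congr rfl fun i _ => hFy i
  rw [h2, ← Finset.sum_sdiff (Finset.subset_univ (Finset.univ.image fun i => ConjClasses.mk (y i))),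
    sub_add_cancel_right]
  refine MemLocalIdeal.neg (MemLocalIdeal.sum _ fun C hC => ?_)
  apply coef_mul_centralChar_memLocalIdeal hM hB hD
  intro hgood
  obtain ⟨i, hi⟩ := hsurj _ hgood
  rw [Finset.mem_sdiff] at hC
  apply hC.2
  rw [Finset.mem_image]
  refine ⟨i, Finset.mem_univ _, ?_⟩
  rw [ConjClasses.mk_eq_mk_iff_isConj.mpr hi]
  exact Quotient.out_eq C

theorem natCard_subtype_eq_sum {α : Type*} [Fintype α] (P : α → Prop) [DecidablePred P] :
    (Nat.card {a // P a} : ℂ) = ∑ a, if P a then 1 else 0 := by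
  rw [Nat.card_eq_fintype_card, Fintype.card_subtype, Finset.card_filter]
  push_cast
  rfl

theorem isConj_inv_inv {a b : G} (h : IsConj a b) : IsConj a⁻¹ b⁻¹ := by
  obtain ⟨c, hc⟩ := isConj_iff.mp h
  exact isConj_iff.mpr ⟨c, by rw [← hc]; group⟩

theorem card_pairs_eq_sum (P : Subgroup G) (x y : G) :
    (Nat.card {q : G × G // IsConj y q.1 ∧ IsConj x q.2 ∧ q.2 * q.1⁻¹ ∈ P} : ℂ) =
    ∑ z : G, (if z ∈ P then
      (Nat.card {q : G × G // IsConj x q.1 ∧ IsConj y⁻¹ q.2 ∧ q.1 * q.2 = z} : ℂ) else 0) := by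
  simp only [natCard_subtype_eq_sum]
  have h1 : ∀ z : G, (if z ∈ P then
      (∑ q : G × G, if IsConj x q.1 ∧ IsConj y⁻¹ q.2 ∧ q.1 * q.2 = z then (1 : ℂ) else 0) else 0) =
      ∑ q : G × G, if q.1 * q.2 = z then
        (if IsConj x q.1 ∧ IsConj y⁻¹ q.2 ∧ q.1 * q.2 ∈ P then (1 : ℂ) else 0) else 0 := by
    intro z
    by_cases hz : z ∈ P
    · rw [if_pos hz]
      refine Finset.sum_congr rfl fun q _ => ?_
      by_cases hq : q.1 * q.2 = z
      · rw [if_pos hq]
        simp only [hq, hz, and_true]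
      · rw [if_neg hq, if_neg]
        tauto
    · rw [if_neg hz]
      symm
      refine Finset.sum_eq_zero fun q _ => ?_
      by_cases hq : q.1 * q.2 = z
      · rw [if_pos hq, if_neg]
        rw [hq]
        tauto
      · rw [if_neg hq]
  rw [Finset.sum_congr rfl (fun z _ => h1 z)]
  rw [Finset.sum_comm]
  simp only [Finset.sum_ite_eq, Finset.mem_univ, if_true]
  let e : G × G ≃ G × G :=
    ⟨fun q => (q.2, q.1⁻¹), fun q => (q.2⁻¹, q.1), fun q => by simp, fun q => by simp⟩
  refine Fintype.sum_equiv e _ _ fun q => ?_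
  have h2 : IsConj y q.1 ↔ IsConj y⁻¹ q.1⁻¹ :=
    ⟨isConj_inv_inv, fun h => by simpa using isConj_inv_inv h⟩
  show (if IsConj y q.1 ∧ IsConj x q.2 ∧ q.2 * q.1⁻¹ ∈ P then (1 : ℂ) else 0) =
    if IsConj x q.2 ∧ IsConj y⁻¹ q.1⁻¹ ∧ q.2 * q.1⁻¹ ∈ P then (1 : ℂ) else 0
  congr 1
  rw [h2]
  apply propext
  tauto

theorem card_pairs_formula (P : Subgroup G) (x y : G) :
    (Nat.card {q : G × G // IsConj y q.1 ∧ IsConj x q.2 ∧ q.2 * q.1⁻¹ ∈ P} : ℂ) =
    (Nat.card G : ℂ)⁻¹ * (Nat.card P : ℂ) * ((cen y).index : ℂ) *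
      ∑ χ : IrrCharacter G, centralChar (χ : G → ℂ) x *
        ((mult P χ : ℂ) * conj ((χ : G → ℂ) y)) := by
  rw [card_pairs_eq_sum, sum_cnt_eq]

theorem sum_mult_degree [Fact p.Prime] (hM : IsPModular p M) {B : Set (IrrCharacter G)}
    (hB : IsPBlock M B) (S : Sylow p G) :
    ∑ χ : IrrCharacter G, B.indicator 1 χ * ((mult (S : Subgroup G) χ : ℂ) * (χ : G → ℂ) 1) =
      (Nat.card G : ℂ) / (Nat.card (S : Subgroup G) : ℂ) * coef (B.indicator 1) 1 := by
  have hp : p.Prime := Fact.out
  have hG0 : (Nat.card G : ℂ) ≠ 0 := by exact_mod_cast (Nat.card_pos (α := G)).ne'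
  have hS0 : (Nat.card (S : Subgroup G) : ℂ) ≠ 0 := by
    exact_mod_cast (Nat.card_pos (α := (S : Subgroup G))).ne'
  have h1 : ∑ z : G, (if z ∈ (S : Subgroup G) then coef (B.indicator 1) z else 0) =
      coef (B.indicator 1) 1 := by
    rw [Finset.sum_eq_single (1 : G)]
    · rw [if_pos (Subgroup.one_mem _)]
    · intro z _ hz1
      by_cases hz : z ∈ (S : Subgroup G)
      · rw [if_pos hz]
        apply coef_indicator_eq_zero hM hB
        obtain ⟨k, hk⟩ := (IsPGroup.iff_orderOf.1 S.2) ⟨z, hz⟩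
        rw [Subgroup.orderOf_mk] at hk
        rw [hk]
        apply dvd_pow_self
        rintro rfl
        rw [pow_zero, orderOf_eq_one_iff] at hk
        exact hz1 hk
      · rw [if_neg hz]
    · intro h
      exact absurd (Finset.mem_univ _) h
  have h2 : ∑ z : G, (if z ∈ (S : Subgroup G) then coef (B.indicator 1) z else 0) =
      (Nat.card G : ℂ)⁻¹ * ∑ χ : IrrCharacter G, B.indicator 1 χ * ((χ : G → ℂ) 1 *
        ((Nat.card (S : Subgroup G) : ℂ) * mult (S : Subgroup G) χ)) := by
    have h3 : ∀ z : G, (if z ∈ (S : Subgroup G) then coef (B.indicator 1) z else 0) =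
        (Nat.card G : ℂ)⁻¹ * ∑ χ : IrrCharacter G, B.indicator 1 χ * ((χ : G → ℂ) 1 *
          (if z ∈ (S : Subgroup G) then conj ((χ : G → ℂ) z) else 0)) := by
      intro z
      split_ifs
      · rw [coef_apply]
      · simp
    simp only [h3]
    rw [← Finset.mul_sum, Finset.sum_comm]
    congr 1
    refine Finset.sum_congr rfl fun χ _ => ?_
    rw [← Finset.mul_sum, ← Finset.mul_sum, mult_spec]
  rw [← h1, h2, Finset.mul_sum, Finset.mul_sum]
  refine Finset.sum_congr rfl fun χ _ => ?_
  field_simp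

/-- a block with defect group `D` has a good defect class -/
theorem exists_good_defectClass [Fact p.Prime] (hM : IsPModular p M) {B : Set (IrrCharacter G)}
    (hB : IsPBlock M B) {D : Subgroup G} (hD : IsDefectGroup p M B D) :
    ∃ g, IsDefectClass M B g ∧ IsGood p D g := by
  obtain ⟨g, hg, hS⟩ := isDefectGroup_iff.mp hD
  exact ⟨g, hg, IsDefectClass.regular hM hB hg, hS⟩

theorem coef_one_div_pow_unit [Fact p.Prime] (hM : IsPModular p M) {B : Set (IrrCharacter G)}
    (hB : IsPBlock M B) {D : Subgroup G} (hD : IsDefectGroup p M B D) :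
    MemLocalRing M (coef (B.indicator 1) 1 /
      ((p ^ ((Nat.card G).factorization p - (Nat.card D).factorization p) : ℕ) : ℂ)) ∧
    ¬ MemLocalIdeal M (coef (B.indicator 1) 1 /
      ((p ^ ((Nat.card G).factorization p - (Nat.card D).factorization p) : ℕ) : ℂ)) := by
  have := IsPModular.isPrime hM
  have hp : p.Prime := Fact.out
  obtain ⟨g, hg, hgood⟩ := exists_good_defectClass hM hB hD
  obtain ⟨χ, hχ, h0⟩ := exists_height_zero (p := p) (IsPBlock.nonempty hB)
  obtain ⟨h1, h2⟩ := coef_indicator_one_div hM hB hχ h0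
  have h3 := factorization_degree_of_height_zero hM hB hg hχ h0
  rw [hgood.factorization_index] at h3
  set k := (Nat.card G).factorization p - (Nat.card D).factorization p with hk
  have hd0 : charDegree (χ : G → ℂ) ≠ 0 := (Cfsg.Agent.Lib.Helper24.charDegree_pos χ.2).ne'
  have hpk0 : p ^ k ≠ 0 := pow_ne_zero _ hp.ne_zero
  have hfac : (p ^ k).factorization p = k := by
    rw [hp.factorization_pow]
    simp
  have e : coef (B.indicator 1) 1 / ((p ^ k : ℕ) : ℂ) =
      coef (B.indicator 1) 1 / (χ : G → ℂ) 1 *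
        (((charDegree (χ : G → ℂ) : ℕ) : ℂ) / ((p ^ k : ℕ) : ℂ)) := by
    rw [Cfsg.Agent.Lib.Helper24.charDegree_cast (IsIrrCharacter.isCharacter χ.2)]
    have : (χ : G → ℂ) 1 ≠ 0 := irr_one_ne_zero χ.2
    field_simp
  rw [e]
  have h4 := memLocalRing_natCast_div hM hd0 hpk0 (by rw [hfac, h3])
  have h5 := not_memLocalIdeal_natCast_div hM hd0 hpk0 (by rw [hfac, h3])
  exact ⟨MemLocalRing.mul h1 h4, not_memLocalIdeal_mul h1 h4 h2 h5⟩

theorem conj_eq_div_mul_centralChar (χ : IrrCharacter G) (v : G) :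
    conj ((χ : G → ℂ) v) = ((charDegree (χ : G → ℂ) : ℕ) : ℂ) / (((cen v).index : ℕ) : ℂ)
      * centralChar (χ : G → ℂ) v⁻¹ := by
  have h1 := centralChar_eq_div χ v⁻¹
  rw [cen, Cfsg.Agent.Lib.Helper24.centralizer_inv,
    IsCharacter.apply_inv (IsIrrCharacter.isCharacter χ.2)] at h1
  have hd0 : ((charDegree (χ : G → ℂ) : ℕ) : ℂ) ≠ 0 := by
    exact_mod_cast (Cfsg.Agent.Lib.Helper24.charDegree_pos χ.2).ne'
  have hi0 : (((cen v).index : ℕ) : ℂ) ≠ 0 := by exact_mod_cast index_cen_ne_zero v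
  rw [h1]
  field_simp

/-- The main congruence. -/
theorem count_congr [Fact p.Prime] (hM : IsPModular p M) {D : Subgroup G} [D.Normal]
    (S : Sylow p G)
    [Fintype {B : Set (IrrCharacter G) // IsPBlock M B ∧ IsDefectGroup p M B D}]
    (rep : {B : Set (IrrCharacter G) // IsPBlock M B ∧ IsDefectGroup p M B D} → IrrCharacter G)
    (hrep : ∀ b, rep b ∈ b.1) {x y : G} (hx : IsGood p D x) (hy : IsGood p D y) :
    MemLocalIdeal M
      ((Nat.card {q : G × G // IsConj y q.1 ∧ IsConj x q.2 ∧ q.2 * q.1⁻¹ ∈ (S : Subgroup G)} : ℂ) /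
        ((p ^ ((Nat.card G).factorization p - (Nat.card D).factorization p) : ℕ) : ℂ) -
      ∑ b, (coef (b.1.indicator 1) 1 /
        ((p ^ ((Nat.card G).factorization p - (Nat.card D).factorization p) : ℕ) : ℂ) *
          centralChar (rep b : G → ℂ) y⁻¹) * centralChar (rep b : G → ℂ) x) := by
  have := IsPModular.isPrime hM
  have hp : p.Prime := Fact.out
  set k := (Nat.card G).factorization p - (Nat.card D).factorization p with hk
  have hG0' : Nat.card G ≠ 0 := (Nat.card_pos (α := G)).ne'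
  have hS0' : Nat.card (S : Subgroup G) ≠ 0 := (Nat.card_pos (α := (S : Subgroup G))).ne'
  have hG0 : (Nat.card G : ℂ) ≠ 0 := by exact_mod_cast hG0'
  have hS0 : (Nat.card (S : Subgroup G) : ℂ) ≠ 0 := by exact_mod_cast hS0'
  have hpk0' : p ^ k ≠ 0 := pow_ne_zero _ hp.ne_zero
  have hpk0 : ((p ^ k : ℕ) : ℂ) ≠ 0 := by exact_mod_cast hpk0'
  have hi0 : (((cen y).index : ℕ) : ℂ) ≠ 0 := by exact_mod_cast index_cen_ne_zero y
  have hfac : (p ^ k).factorization p = k := by
    rw [hp.factorization_pow]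
    simp
  set v : ℂ := (Nat.card (S : Subgroup G) : ℂ) / (Nat.card G : ℂ) with hv
  set w : ℂ := (((cen y).index : ℕ) : ℂ) / ((p ^ k : ℕ) : ℂ) with hw
  have hvl : MemLocalRing M v := by
    apply memLocalRing_natCast_div hM hS0' hG0'
    have : Nat.card (S : Subgroup G) = p ^ (Nat.card G).factorization p := S.card_eq_multiplicity
    rw [this, hp.factorization_pow]
    simp
  have hwl : MemLocalRing M w := by
    apply memLocalRing_natCast_div hM (index_cen_ne_zero y) hpk0'
    rw [hfac, hy.factorization_index]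
  have hconj : ∀ (χ : IrrCharacter G) (g : G), MemLocalRing M (conj ((χ : G → ℂ) g)) := by
    intro χ g
    exact memLocalRing_of_isIntegral
      (Cfsg.Agent.Lib.Helper24.char_isIntegral (IsCharacter.conj (IsIrrCharacter.isCharacter χ.2)) g)
  set t : IrrCharacter G → ℂ := fun χ => v * w * (centralChar (χ : G → ℂ) x *
    ((mult (S : Subgroup G) χ : ℂ) * conj ((χ : G → ℂ) y))) with ht
  have hN : (Nat.card {q : G × G // IsConj y q.1 ∧ IsConj x q.2 ∧
      q.2 * q.1⁻¹ ∈ (S : Subgroup G)} : ℂ) / ((p ^ k : ℕ) : ℂ) = ∑ χ, t χ := by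
    rw [card_pairs_formula]
    simp only [ht]
    rw [← Finset.mul_sum, hv, hw]
    field_simp
  set c : IrrCharacter G → ℂ := fun χ => v * (mult (S : Subgroup G) χ : ℂ) *
    (((charDegree (χ : G → ℂ) : ℕ) : ℂ) / ((p ^ k : ℕ) : ℂ)) with hc
  have hcoef : ∀ B : Set (IrrCharacter G), IsPBlock M B →
      coef (B.indicator 1) 1 / ((p ^ k : ℕ) : ℂ) = ∑ χ, B.indicator 1 χ * c χ := by
    intro B hB
    have h1 := sum_mult_degree hM hB S
    have h2 : coef (B.indicator 1) 1 = v * ∑ χ : IrrCharacter G,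
        B.indicator 1 χ * ((mult (S : Subgroup G) χ : ℂ) * (χ : G → ℂ) 1) := by
      rw [h1, hv]
      field_simp
    rw [h2, Finset.mul_sum, Finset.sum_div]
    refine Finset.sum_congr rfl fun χ _ => ?_
    simp only [hc]
    rw [Cfsg.Agent.Lib.Helper24.charDegree_cast (IsIrrCharacter.isCharacter χ.2)]
    ring
  have hsum : ∑ b : {B : Set (IrrCharacter G) // IsPBlock M B ∧ IsDefectGroup p M B D},
      (coef (b.1.indicator 1) 1 / ((p ^ k : ℕ) : ℂ) *
          centralChar (rep b : G → ℂ) y⁻¹) * centralChar (rep b : G → ℂ) x =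
      ∑ χ : IrrCharacter G,
        ∑ b : {B : Set (IrrCharacter G) // IsPBlock M B ∧ IsDefectGroup p M B D},
        b.1.indicator 1 χ * (c χ * (centralChar (rep b : G → ℂ) x *
          centralChar (rep b : G → ℂ) y⁻¹)) := by
    rw [Finset.sum_comm]
    refine Finset.sum_congr rfl fun b _ => ?_
    rw [hcoef b.1 b.2.1, Finset.sum_mul, Finset.sum_mul]
    refine Finset.sum_congr rfl fun χ _ => ?_
    ring
  rw [hN, hsum, ← Finset.sum_sub_distrib]
  refine MemLocalIdeal.sum _ fun χ _ => ?_
  by_cases hχ : IsDefectGroup p M (blockOf M (χ : G → ℂ)) D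
  · set b₀ : {B : Set (IrrCharacter G) // IsPBlock M B ∧ IsDefectGroup p M B D} :=
      ⟨blockOf M (χ : G → ℂ), ⟨χ, rfl⟩, hχ⟩ with hb₀
    have hχb : χ ∈ b₀.1 := mem_blockOf_self χ
    rw [Finset.sum_eq_single b₀]
    · rw [Set.indicator_of_mem hχb, Pi.one_apply, one_mul]
      obtain ⟨g, hg, hgood⟩ := exists_good_defectClass hM b₀.2.1 b₀.2.2
      have hdeg := le_factorization_degree hM hg hχb
      rw [hgood.factorization_index] at hdeg
      have hdl : MemLocalRing M (((charDegree (χ : G → ℂ) : ℕ) : ℂ) / ((p ^ k : ℕ) : ℂ)) := by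
        apply memLocalRing_natCast_div hM (Cfsg.Agent.Lib.Helper24.charDegree_pos χ.2).ne' hpk0'
        rw [hfac]
        exact hdeg
      have hcl : MemLocalRing M (c χ) :=
        MemLocalRing.mul (MemLocalRing.mul hvl (memLocalRing_natCast _)) hdl
      have e : t χ - c χ * (centralChar (rep b₀ : G → ℂ) x * centralChar (rep b₀ : G → ℂ) y⁻¹) =
          c χ * ((centralChar (χ : G → ℂ) x - centralChar (rep b₀ : G → ℂ) x) *
            centralChar (χ : G → ℂ) y⁻¹ + centralChar (rep b₀ : G → ℂ) x *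
            (centralChar (χ : G → ℂ) y⁻¹ - centralChar (rep b₀ : G → ℂ) y⁻¹)) := by
        simp only [ht, hc]
        rw [conj_eq_div_mul_centralChar, hw]
        field_simp
        ring
      rw [e]
      have hsb := IsPBlock.sameBlock b₀.2.1 hχb (hrep b₀)
      exact MemLocalIdeal.mul_left hcl (MemLocalIdeal.add
        (MemLocalIdeal.mul_right (hsb x) (centralChar_memLocalRing χ.2 _))
        (MemLocalIdeal.mul_left (centralChar_memLocalRing (rep b₀).2 _) (hsb y⁻¹)))
    · intro b _ hb
      rw [Set.indicator_of_notMem, zero_mul]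
      intro hmem
      apply hb
      apply Subtype.ext
      exact IsPBlock.eq_blockOf b.2.1 hmem
    · intro h
      exact absurd (Finset.mem_univ _) h
  · rw [Finset.sum_eq_zero, sub_zero]
    · simp only [ht]
      exact MemLocalIdeal.mul_left (MemLocalRing.mul hvl hwl) (MemLocalIdeal.mul_right
        (centralChar_memLocalIdeal_of_good hM hx χ hχ)
        (MemLocalRing.mul (memLocalRing_natCast _) (hconj χ y)))
    · intro b _
      rw [Set.indicator_of_notMem, zero_mul]
      intro hmem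
      apply hχ
      rw [← IsPBlock.eq_blockOf b.2.1 hmem]
      exact b.2.2

theorem pow_dvd_of_memLocalRing_div [Fact p.Prime] (hM : IsPModular p M) {N k : ℕ}
    (h : MemLocalRing M ((N : ℂ) / ((p ^ k : ℕ) : ℂ))) : p ^ k ∣ N := by
  have := IsPModular.isPrime hM
  have hp : p.Prime := Fact.out
  rcases Nat.eq_zero_or_pos N with rfl | hN
  · exact dvd_zero _
  have hpk0' : p ^ k ≠ 0 := pow_ne_zero _ hp.ne_zero
  have hfac : (p ^ k).factorization p = k := by
    rw [hp.factorization_pow]
    simp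
  rw [hp.pow_dvd_iff_le_factorization hN.ne']
  by_contra hcon
  push Not at hcon
  have h1 := memLocalIdeal_natCast_div hM hpk0' hN.ne' (by rw [hfac]; exact hcon)
  have h2 := MemLocalIdeal.mul_left h h1
  have hN0 : (N : ℂ) ≠ 0 := by exact_mod_cast hN.ne'
  have hpk0 : ((p ^ k : ℕ) : ℂ) ≠ 0 := by exact_mod_cast hpk0'
  have e : (N : ℂ) / ((p ^ k : ℕ) : ℂ) * (((p ^ k : ℕ) : ℂ) / (N : ℂ)) = 1 := by field_simp
  rw [e] at h2
  exact not_memLocalIdeal_one h2

/-- Robinson's theorem for a normal `p`-subgroup `D`. -/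
theorem card_blocks_eq_rank [Fact p.Prime] (hM : IsPModular p M) {D : Subgroup G} [D.Normal]
    (S : Sylow p G) {ι : Type*} [Fintype ι] [DecidableEq ι] (x : ι → G)
    (hgood : ∀ i, IsGood p D (x i)) (hinj : ∀ i j, IsConj (x i) (x j) → i = j)
    (hsurj : ∀ g, IsGood p D g → ∃ i, IsConj (x i) g) :
    Nat.card {B : Set (IrrCharacter G) // IsPBlock M B ∧ IsDefectGroup p M B D} =
      (Matrix.of fun i j : ι => ((Nat.card {q : G × G // IsConj (x i) q.1 ∧ IsConj (x j) q.2 ∧
        q.2 * q.1⁻¹ ∈ (S : Subgroup G)} /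
        p ^ ((Nat.card G).factorization p - (Nat.card D).factorization p) : ℕ) : ZMod p)).rank := by
  have := IsPModular.isPrime hM
  have hp : p.Prime := Fact.out
  set k := (Nat.card G).factorization p - (Nat.card D).factorization p with hk
  have hpk0 : ((p ^ k : ℕ) : ℂ) ≠ 0 := by exact_mod_cast pow_ne_zero _ hp.ne_zero
  have hfin : Finite {B : Set (IrrCharacter G) // IsPBlock M B ∧ IsDefectGroup p M B D} :=
    inferInstance
  let _ := Fintype.ofFinite {B : Set (IrrCharacter G) // IsPBlock M B ∧ IsDefectGroup p M B D}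
  rw [Nat.card_eq_fintype_card]
  have hrep : ∀ B : {B : Set (IrrCharacter G) // IsPBlock M B ∧ IsDefectGroup p M B D},
      ∃ χ : IrrCharacter G, χ ∈ B.1 := fun B => IsPBlock.nonempty B.2.1
  choose rep hrep using hrep
  set W : Matrix ι ι ℕ := Matrix.of fun i j : ι => Nat.card {q : G × G // IsConj (x i) q.1 ∧
    IsConj (x j) q.2 ∧ q.2 * q.1⁻¹ ∈ (S : Subgroup G)} / p ^ k with hW
  have hinj' : ∀ i j, IsConj (x i)⁻¹ (x j)⁻¹ → i = j := by
    intro i j h
    exact hinj i j (by simpa using isConj_inv_inv h)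
  have hsurj' : ∀ g, IsGood p D g → ∃ i, IsConj (x i)⁻¹ g := by
    intro g hg
    obtain ⟨i, hi⟩ := hsurj _ hg.inv
    exact ⟨i, by simpa using isConj_inv_inv hi⟩
  have hcl : ∀ b : {B : Set (IrrCharacter G) // IsPBlock M B ∧ IsDefectGroup p M B D},
      MemLocalRing M (coef (b.1.indicator 1) 1 / ((p ^ k : ℕ) : ℂ)) ∧
      ¬ MemLocalIdeal M (coef (b.1.indicator 1) 1 / ((p ^ k : ℕ) : ℂ)) :=
    fun b => coef_one_div_pow_unit hM b.2.1 b.2.2
  have hne : ∀ b b' : {B : Set (IrrCharacter G) // IsPBlock M B ∧ IsDefectGroup p M B D},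
      b ≠ b' → rep b' ∉ b.1 := by
    intro b b' hbb hmem
    exact hbb (Subtype.ext (IsPBlock.eq_of_mem_of_mem b.2.1 b'.2.1 hmem (hrep b')))
  symm
  apply rank_eq_card_of_congr hM W
    (Matrix.of fun i b => coef (b.1.indicator 1) 1 / ((p ^ k : ℕ) : ℂ) *
      centralChar (rep b : G → ℂ) (x i)⁻¹)
    (Matrix.of fun b j => centralChar (rep b : G → ℂ) (x j))
    (Matrix.of fun b i => coef (b.1.indicator 1) (x i)⁻¹)
    (Matrix.of fun j b => coef (b.1.indicator 1) (x j))
  · intro i b
    exact MemLocalRing.mul (hcl b).1 (centralChar_memLocalRing (rep b).2 _)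
  · intro b j
    exact centralChar_memLocalRing (rep b).2 _
  · intro b i
    exact IsPBlock.indicator_mem_ZS b.2.1 _
  · intro j b
    exact IsPBlock.indicator_mem_ZS b.2.1 _
  · intro i j
    have h1 := count_congr hM S rep hrep (hgood j) (hgood i)
    have h2 : MemLocalRing M ((Nat.card {q : G × G // IsConj (x i) q.1 ∧ IsConj (x j) q.2 ∧
        q.2 * q.1⁻¹ ∈ (S : Subgroup G)} : ℂ) / ((p ^ k : ℕ) : ℂ)) := by
      rw [memLocalRing_congr h1]
      exact MemLocalRing.sum _ fun b _ => MemLocalRing.mul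
        (MemLocalRing.mul (hcl b).1 (centralChar_memLocalRing (rep b).2 _))
        (centralChar_memLocalRing (rep b).2 _)
    have h3 := pow_dvd_of_memLocalRing_div hM h2
    have h4 : ((W i j : ℕ) : ℂ) = (Nat.card {q : G × G // IsConj (x i) q.1 ∧ IsConj (x j) q.2 ∧
        q.2 * q.1⁻¹ ∈ (S : Subgroup G)} : ℂ) / ((p ^ k : ℕ) : ℂ) := by
      simp only [hW, Matrix.of_apply]
      rw [Nat.cast_div h3 hpk0]
    rw [h4, Matrix.mul_apply]
    exact h1
  · intro b
    have h1 := sum_good_sub_indicator hM b.2.1 b.2.2 (rep b) (fun i => (x i)⁻¹) hinj' hsurj'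
    rw [Set.indicator_of_mem (hrep b), Pi.one_apply] at h1
    have e : (Matrix.of (fun (b : {B : Set (IrrCharacter G) // IsPBlock M B ∧
        IsDefectGroup p M B D}) i => coef (b.1.indicator 1) (x i)⁻¹) *
        Matrix.of fun i (b : {B : Set (IrrCharacter G) // IsPBlock M B ∧
        IsDefectGroup p M B D}) => coef (b.1.indicator 1) 1 / ((p ^ k : ℕ) : ℂ) *
      centralChar (rep b : G → ℂ) (x i)⁻¹) b b = coef (b.1.indicator 1) 1 / ((p ^ k : ℕ) : ℂ) *
        ∑ i, coef (b.1.indicator 1) (x i)⁻¹ * centralChar (rep b : G → ℂ) (x i)⁻¹ := by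
      rw [Matrix.mul_apply, Finset.mul_sum]
      refine Finset.sum_congr rfl fun i _ => ?_
      simp only [Matrix.of_apply]
      ring
    rw [e]
    refine not_memLocalIdeal_mul (hcl b).1 ((memLocalRing_congr h1).mpr memLocalRing_one)
      (hcl b).2 ?_
    rw [memLocalIdeal_congr h1]
    exact not_memLocalIdeal_one
  · intro b b' hbb
    have h1 := sum_good_sub_indicator hM b.2.1 b.2.2 (rep b') (fun i => (x i)⁻¹) hinj' hsurj'
    rw [Set.indicator_of_notMem (hne b b' hbb), sub_zero] at h1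
    have e : (Matrix.of (fun (b : {B : Set (IrrCharacter G) // IsPBlock M B ∧
        IsDefectGroup p M B D}) i => coef (b.1.indicator 1) (x i)⁻¹) *
        Matrix.of fun i (b : {B : Set (IrrCharacter G) // IsPBlock M B ∧
        IsDefectGroup p M B D}) => coef (b.1.indicator 1) 1 / ((p ^ k : ℕ) : ℂ) *
      centralChar (rep b : G → ℂ) (x i)⁻¹) b b' = coef (b'.1.indicator 1) 1 / ((p ^ k : ℕ) : ℂ) *
        ∑ i, coef (b.1.indicator 1) (x i)⁻¹ * centralChar (rep b' : G → ℂ) (x i)⁻¹ := by
      rw [Matrix.mul_apply, Finset.mul_sum]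
      refine Finset.sum_congr rfl fun i _ => ?_
      simp only [Matrix.of_apply]
      ring
    rw [e]
    exact MemLocalIdeal.mul_left (hcl b').1 h1
  · intro b
    have h1 := sum_good_sub_indicator hM b.2.1 b.2.2 (rep b) x hinj hsurj
    rw [Set.indicator_of_mem (hrep b), Pi.one_apply] at h1
    have e : (Matrix.of (fun (b : {B : Set (IrrCharacter G) // IsPBlock M B ∧
        IsDefectGroup p M B D}) j => centralChar (rep b : G → ℂ) (x j)) *
        Matrix.of fun j (b : {B : Set (IrrCharacter G) // IsPBlock M B ∧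
        IsDefectGroup p M B D}) => coef (b.1.indicator 1) (x j)) b b =
        ∑ i, coef (b.1.indicator 1) (x i) * centralChar (rep b : G → ℂ) (x i) := by
      rw [Matrix.mul_apply]
      refine Finset.sum_congr rfl fun i _ => ?_
      simp only [Matrix.of_apply]
      ring
    rw [e, memLocalIdeal_congr h1]
    exact not_memLocalIdeal_one
  · intro b b' hbb
    have h1 := sum_good_sub_indicator hM b'.2.1 b'.2.2 (rep b) x hinj hsurj
    rw [Set.indicator_of_notMem (hne b' b hbb.symm), sub_zero] at h1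
    have e : (Matrix.of (fun (b : {B : Set (IrrCharacter G) // IsPBlock M B ∧
        IsDefectGroup p M B D}) j => centralChar (rep b : G → ℂ) (x j)) *
        Matrix.of fun j (b : {B : Set (IrrCharacter G) // IsPBlock M B ∧
        IsDefectGroup p M B D}) => coef (b.1.indicator 1) (x j)) b b' =
        ∑ i, coef (b'.1.indicator 1) (x i) * centralChar (rep b : G → ℂ) (x i) := by
      rw [Matrix.mul_apply]
      refine Finset.sum_congr rfl fun i _ => ?_
      simp only [Matrix.of_apply]
      ring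
    rw [e]
    exact h1

end Cfsg.Agent.Lib.Helper6
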